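/- Tensor-induced subgroups: the end of the characteristic two core over the field of order two. -/
import Cfsg.Agent.H60.WrKit

set_option autoImplicit false

namespace H58.C7
open Cfsg Cfsg.Geo Matrix H19 Module H60.Wr
open scoped MatrixGroups

universe u

variable {F : Type u} [Field F] {k t : ℕ}

theorem exists_kill {n : ℕ} (h : n < k) (v : Fin n → Fin k → F) :
    ∃ χ : Fin k → F, χ ≠ 0 ∧ ∀ j, χ ⬝ᵥ v j = 0 := by
  obtain ⟨χ, h1, h2⟩ := (Submodule.ne_bot_iff _).1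
    (LinearMap.ker_ne_bot_of_finrank_lt (f := (Matrix.of v).mulVecLin) (by simpa using h))
  exact ⟨χ, h2, fun j => (dotProduct_comm _ _).trans (congrFun h1 j)⟩

theorem even_of_cubic {U : Type*} [AddCommGroup U] [Module F U] [Finite U]
    (hF : ∀ c : F, c = 0 ∨ c = 1) (κ : U →ₗ[F] U) (h : ∀ e, κ (κ e) + κ e - e = 0) :
    Even (finrank F U) := by
  classical
  have two : ∀ e : U, e + e = 0 := fun e => by
    rw [← two_smul F, ((hF 2).resolve_right fun e => one_ne_zero (α := F) (by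
      linear_combination e)), zero_smul]
  have : Fact (Nat.Prime 3) := ⟨Nat.prime_three⟩
  have := Fintype.ofFinite U
  have h1 : ∀ e, κ (κ e) = e - κ e := fun e => by rw [← sub_eq_zero, ← h e]; abel
  have h2 := Equiv.Perm.card_fixedPoints_modEq (f := (⇑κ : Function.End U)) (p := 3) (n := 1) (by
    funext e
    show κ (κ (κ e)) = e
    rw [h1 e, map_sub, h1 e, ← sub_eq_zero, ← sub_eq_zero.2 ((two (κ e)).trans (two e).symm)]
    abel)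
  have h3 : Fintype.card (Function.fixedPoints (⇑κ : Function.End U)) = 1 :=
    Fintype.card_eq_one_iff.2 ⟨⟨0, map_zero κ⟩, fun ⟨e, he⟩ => Subtype.ext (by
      have he : κ e = e := he
      simpa [he] using h e)⟩
  have h4 : Nat.card F = 2 := Nat.card_eq_two_iff.2 ⟨0, 1, zero_ne_one, Set.eq_univ_of_forall hF⟩
  have : Module.Finite F U := Module.Finite.of_finite
  rw [h3, ← Nat.card_eq_fintype_card, Module.natCard_eq_pow_finrank (K := F), h4] at h2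
  rw [← Nat.not_odd_iff_even]
  rintro ⟨m, hm⟩
  rw [hm, pow_succ, pow_mul] at h2
  have h5 := ((show 2 ^ 2 ≡ 1 [MOD 3] by decide).pow m).mul_right 2
  rw [one_pow] at h5
  exact absurd (h5.symm.trans h2) (by decide)

theorem jobE4B : JobE4B.{u} := by
  intro hT F _ _ k t M N' i w φ H ⟨hF, hB⟩ hO hr hE
  have k3 := H.k3
  have one : ∀ {c : F}, c ≠ 0 → c = 1 := fun h => (hF _).resolve_left h
  have kill : ∀ a b : Fin k → F, ∃ χ : Fin k → F, χ ≠ 0 ∧ χ ⬝ᵥ a = 0 ∧ χ ⬝ᵥ b = 0 := fun a b =>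
    (exists_kill (n := 2) (by omega) ![a, b]).imp fun χ h => ⟨h.1, h.2 0, h.2 1⟩
  obtain ⟨x, hx⟩ := exists_dot_one' hr.2.1
  obtain ⟨ψ, ψ0, ψw, ψx⟩ := kill w x
  have hr' := hB i w φ ψ hr ψ0 ψw
  obtain ⟨τ₁, m1, s1⟩ := hT F k t M N' i w φ w H hO hr hr.1 (hE.le hr hr.2.2.1)
    (.inl (Submodule.mem_span_singleton_self w))
  obtain ⟨τ₂, m2, s2⟩ := hT F k t M N' i w ψ w H hO hr' hr.1 (hE.le hr' ψw)
    (.inl (Submodule.mem_span_singleton_self w))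
  have c : cj (τ₂ * τ₁) (em i (ro w φ)) = em i (ro w ψ) := by
    rw [cj_mul, s1.conj, ← s2.conj, ← cj_mul, s2.sq, cj_one]
  have mv : ∀ v, ((τ₂ * τ₁ : GG k t F) : EE k t F) *ᵥ v - v ∈ LS i (F ∙ w) ⊔ rg N' := fun v => by
    have h1 := s1.mv v
    have h2 := s2.mv ((τ₁ : EE k t F) *ᵥ v)
    rw [rg_em_ro i hr.2.1] at h1
    rw [rg_em_ro i ψ0] at h2
    rw [Units.val_mul, ← mulVec_mulVec, ← sub_add_sub_cancel]
    exact add_mem h2 h1
  obtain ⟨s, d, hd, e⟩ := (nm_of_cj (H.R (mul_mem m2 m1) hr (c.symm ▸ H.root_mem hr')) hr.not_sc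
    (c.symm ▸ InA.em i _)).exists_eq
  rw [e] at c mv
  rw [cj_mul, hd.cj_em, cj_emG_em, em_inj, cj_ro] at c
  obtain ⟨κ, hκ⟩ := hd.exists_end
  have hc : ∀ v, (φ ⬝ᵥ v) • (s : Mk k F) *ᵥ w = (ψ ⬝ᵥ (s : Mk k F) *ᵥ v) • w := fun v => by
    have := congrArg (· *ᵥ ((s : Mk k F) *ᵥ v)) c
    simp only [ro_mulVec] at this
    rwa [← dotProduct_mulVec, mulVec_mulVec, Units.inv_mul, one_mulVec] at this
  have bx : ψ ⬝ᵥ (s : Mk k F) *ᵥ x = 1 := one fun h => hr.1 (toLin'_inj s (by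
    have := hc x
    rwa [hx, h, one_smul, zero_smul, ← toLin'_apply, ← map_zero (toLin' (s : Mk k F))] at this))
  have key : ∀ z ∈ LS i (F ∙ w) ⊔ rg N', ∀ χ χ' : Fin k → F, χ ≠ 0 → χ ⬝ᵥ w = 0 → χ' ⬝ᵥ w = 0 →
      em i (ro w χ) *ᵥ z = 0 → em i (ro w χ') *ᵥ z = 0 := fun z hz χ χ' h0 h1 h2 h3 => by
    have le : ∀ θ : Fin k → F, θ ⬝ᵥ w = 0 → LS i (F ∙ w) ≤ kn (em i (ro w θ) : EE k t F) :=
      fun θ h => by
        rw [kn_em, LS_le_LS, Submodule.span_singleton_le_iff_mem, mem_kn, ro_mulVec, h, zero_smul]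
    obtain ⟨y, hy, y', hy', rfl⟩ := Submodule.mem_sup.1 hz
    rw [mulVec_add, mem_kn.1 (le χ h1 hy), zero_add] at h3
    exact mem_kn.1 (le χ' h2 (add_mem hy (hE.le (hB i w φ χ hr h0 h1) h1 ⟨hy', mem_kn.2 h3⟩)))
  have ev : ∀ (χ : Fin k → F) e v, em i (ro w χ) *ᵥ
      (((emG i s * d : GG k t F) : EE k t F) *ᵥ (ten k F i).t e v - (ten k F i).t e v) =
      (ten k F i).t ((χ ⬝ᵥ (s : Mk k F) *ᵥ v) • κ e - (χ ⬝ᵥ v) • e) w := fun χ e v => by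
    rw [Units.val_mul, ← mulVec_mulVec, hκ, coe_emG, em_t, mulVec_sub, em_t, em_t, ro_mulVec,
      ro_mulVec]
    simp
  have key1 : ∀ e v (χ χ' : Fin k → F), χ ≠ 0 → χ ⬝ᵥ w = 0 → χ' ⬝ᵥ w = 0 →
      (χ ⬝ᵥ (s : Mk k F) *ᵥ v) • κ e = (χ ⬝ᵥ v) • e →
      (χ' ⬝ᵥ (s : Mk k F) *ᵥ v) • κ e = (χ' ⬝ᵥ v) • e := fun e v χ χ' h0 h1 h2 h3 => by
    have := key _ (mv _) χ χ' h0 h1 h2 (by rw [ev, h3, sub_self, map_zero, LinearMap.zero_apply])
    rw [ev] at this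
    exact sub_eq_zero.1 (((ten k F i).t_eq_zero.1 this).resolve_right hr.1)
  have := nontrivial_U i hr.1
  obtain ⟨e₀, he₀⟩ := exists_ne (0 : UU k F i)
  by_cases ha : ∃ v θ χ : Fin k → F, θ ⬝ᵥ w = 0 ∧ θ ⬝ᵥ v = 1 ∧ χ ⬝ᵥ w = 0 ∧ χ ⬝ᵥ v = 0 ∧
      χ ⬝ᵥ (s : Mk k F) *ᵥ v = 0 ∧ χ ≠ 0
  · obtain ⟨v, θ, χ, h1, h2, h3, h4, h5, h6⟩ := ha
    have h7 := key1 e₀ v χ θ h6 h3 h1 (by rw [h4, h5, zero_smul, zero_smul])
    rw [h2, one_smul] at h7
    rw [one (c := θ ⬝ᵥ (s : Mk k F) *ᵥ v) fun h => he₀ (by rw [← h7, h, zero_smul]), one_smul] at h7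
    obtain ⟨χ', h8, h9, h10⟩ := kill w ((s : Mk k F) *ᵥ x - x)
    rw [dotProduct_sub, sub_eq_zero] at h10
    have := key1 e₀ x χ' ψ h8 h9 ψw (by rw [h7, h10])
    rw [bx, ψx, one_smul, zero_smul, h7] at this
    exact he₀ this
  push Not at ha
  obtain ⟨χ, χ0, χw, χ2⟩ := kill w ((s : Mk k F) *ᵥ x)
  have χ1 : χ ⬝ᵥ x = 1 := one fun h => χ0 (ha x φ χ hr.2.2.1 hx χw h χ2)
  have χ3 : χ ⬝ᵥ (s : Mk k F) *ᵥ (s : Mk k F) *ᵥ x = 1 := one fun h => χ0 (ha _ ψ χ ψw bx χw χ2 h)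
  have two : (1 : F) + 1 = 0 := one_add_one_eq_two.trans H.two
  have ψ3 : ψ ⬝ᵥ (s : Mk k F) *ᵥ (s : Mk k F) *ᵥ x = 1 := one fun h => by
    have := ha (x + (s : Mk k F) *ᵥ x) χ (χ + ψ) χw (by rw [dotProduct_add, χ1, χ2, add_zero])
      (by rw [add_dotProduct, χw, ψw, add_zero])
      (by simp only [dotProduct_add, add_dotProduct, χ1, χ2, ψx, bx, add_zero, zero_add, two])
      (by simp only [mulVec_add, dotProduct_add, add_dotProduct, χ2, χ3, h, bx, add_zero, zero_add,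
        two])
    have h1 := congrArg (· ⬝ᵥ x) this
    simp only [add_dotProduct, χ1, ψx, add_zero, zero_dotProduct] at h1
    exact one_ne_zero h1
  have hk : k = 3 := by
    by_contra hk
    obtain ⟨θ, h1, h2⟩ := exists_kill (n := 3) (by omega) ![w, x, (s : Mk k F) *ᵥ x]
    exact h1 (ha x φ θ hr.2.2.1 hx (h2 0) (h2 1) (h2 2))
  have ev2 := even_of_cubic hF κ fun e => by
    have := key _ (add_mem (mv ((ten k F i).t (κ e) x)) (mv ((ten k F i).t e ((s : Mk k F) *ᵥ x))))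
      χ ψ χ0 χw ψw (by rw [mulVec_add, ev, ev, χ1, χ2, χ3]; simp)
    rw [mulVec_add, ev, ev, bx, ψx, ψ3, ← LinearMap.add_apply, ← map_add] at this
    simpa [add_sub_assoc] using ((ten k F i).t_eq_zero.1 this).resolve_right hr.1
  rw [finrank_U, hk] at ev2
  exact Nat.not_odd_iff_even.2 ev2 (Odd.pow (by decide))

end H58.C7
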