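/- Tensor-induced subgroups: the core argument in odd characteristic. -/
import Cfsg.Agent.H60.WrKit
import Cfsg.Agent.H49.OddQuad

set_option autoImplicit false

namespace H58.C7
open Cfsg Cfsg.Geo Matrix H19 Module H60.Wr
open scoped MatrixGroups

universe u

section ring
variable {A : Type*} [Ring A] {N N' y y' v w : A}

/-- Multiples of `N N' + N' N` by elements commuting with `N` and `N'`. -/
def JJ (N N' w : A) : Prop := ∃ r, Commute r N ∧ Commute r N' ∧ w = (N * N' + N' * N) * r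

theorem JJ.symm (h : JJ N N' w) : JJ N' N w := by
  obtain ⟨r, h1, h2, e⟩ := h
  exact ⟨r, h2, h1, by rw [e, add_comm]⟩

theorem JJ.add (h : JJ N N' v) (h' : JJ N N' w) : JJ N N' (v + w) := by
  obtain ⟨r, h1, h2, rfl⟩ := h
  obtain ⟨s, h3, h4, rfl⟩ := h'
  exact ⟨r + s, h1.add_left h3, h2.add_left h4, (mul_add _ _ _).symm⟩

theorem JJ.neg (h : JJ N N' v) : JJ N N' (-v) := by
  obtain ⟨r, h1, h2, rfl⟩ := h
  exact ⟨-r, h1.neg_left, h2.neg_left, (mul_neg _ _).symm⟩

theorem z_comm (h : N * N = 0) (N' : A) : Commute (N * N' + N' * N) N := by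
  show _ = _
  rw [add_mul, mul_add, mul_assoc N' N N, ← mul_assoc N N N', h, mul_zero, zero_mul, add_zero,
    zero_add, mul_assoc]

theorem JJ.z_mul (h : JJ N N' v) (h1 : N * N = 0) (h2 : N' * N' = 0) :
    JJ N N' ((N * N' + N' * N) * v) := by
  obtain ⟨r, h3, h4, rfl⟩ := h
  exact ⟨_, (z_comm h1 N').mul_left h3, (add_comm (N' * N) _ ▸ z_comm h2 N).mul_left h4, rfl⟩

/-- The traces of `y` against the basis `1, N, N', N N', N' N`. -/
structure Tr (N N' y y' : A) : Prop where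
  cz : Commute y (N * N' + N' * N)
  a : JJ N N' (y + y' - 2)
  b : JJ N N' (y * N - N * y')
  c : JJ N N' (y * N' - N' * y')
  d : JJ N N' (y * (N * N') + N' * N * y')
  d' : JJ N N' (y * (N' * N) + N * N' * y')

theorem Tr.symm (h : Tr N N' y y') : Tr N' N y y' :=
  ⟨add_comm (N * N') _ ▸ h.cz, h.a.symm, h.c.symm, h.b.symm, h.d'.symm, h.d.symm⟩

theorem Tr.one : Tr N N' 1 1 :=
  have h0 : JJ N N' 0 := ⟨0, Commute.zero_left _, Commute.zero_left _, (mul_zero _).symm⟩
  have h1 : JJ N N' (N * N' + N' * N) :=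
    ⟨1, Commute.one_left _, Commute.one_left _, (mul_one _).symm⟩
  ⟨Commute.one_left _, by simpa [one_add_one_eq_two] using h0, by simpa using h0,
    by simpa using h0, by simpa using h1, by simpa [add_comm] using h1⟩

theorem Tr.step (h : Tr N N' y y') (h1 : N * N = 0) (h2 : N' * N' = 0) :
    Tr N N' (y * (1 + N)) ((1 - N) * y') ∧ Tr N N' (y * (1 - N)) ((1 + N) * y') := by
  have h3 : ∀ a, N * (N * a) = 0 := fun a => by rw [← mul_assoc, h1, zero_mul]
  have e : (N * N' + N' * N) * (y * N - N * y') = y * (N * (N' * N)) - N * (N' * (N * y')) := by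
    rw [mul_sub, ← mul_assoc, ← h.cz.eq]
    simp only [mul_add, add_mul, mul_assoc, h1, h3, mul_zero, add_zero]
  have cz := (z_comm h1 N').symm
  have hz := h.b.z_mul h1 h2
  rw [e] at hz
  refine ⟨⟨h.cz.mul_left ((Commute.one_left _).add_left cz), ?_, ?_, ?_, ?_, ?_⟩,
    h.cz.mul_left ((Commute.one_left _).sub_left cz), ?_, ?_, ?_, ?_, ?_⟩
  · convert h.a.add h.b using 1; noncomm_ring
  · convert h.b using 1; simp only [mul_add, add_mul, mul_sub, sub_mul, mul_assoc, h1, h3]; simp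
  · convert h.c.add h.d using 1; noncomm_ring
  · convert h.d using 1; simp only [mul_add, add_mul, mul_sub, sub_mul, mul_assoc, h3]; simp
  · convert h.d'.add hz using 1; noncomm_ring
  · convert h.a.add h.b.neg using 1; noncomm_ring
  · convert h.b using 1; simp only [mul_add, add_mul, mul_sub, sub_mul, mul_assoc, h1, h3]; simp
  · convert h.c.add h.d.neg using 1; noncomm_ring
  · convert h.d using 1; simp only [mul_add, add_mul, mul_sub, sub_mul, mul_assoc, h3]; simp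
  · convert h.d'.add hz.neg using 1; noncomm_ring

end ring

variable {F : Type u} [Field F] {ι : Type} [Fintype ι] [DecidableEq ι] {N N' : Matrix ι ι F}

theorem tr_of_mem (h1 : N * N = 0) (h2 : N' * N' = 0) {y : GL ι F}
    (hy : y ∈ Subgroup.closure ({un N h1, un N' h2} : Set (GL ι F))) :
    Tr N N' (y : Matrix ι ι F) ((y⁻¹ : GL ι F) : Matrix ι ι F) := by
  induction hy using Subgroup.closure_induction_right with
  | one => simpa using Tr.one
  | mul_right x _ y hy ih =>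
    rw [_root_.mul_inv_rev, Units.val_mul, Units.val_mul]
    rcases hy with rfl | rfl
    exacts [(ih.step h1 h2).1, (ih.symm.step h2 h1).1.symm]
  | mul_inv_cancel x _ y hy ih =>
    rw [_root_.mul_inv_rev, inv_inv, Units.val_mul, Units.val_mul]
    rcases hy with rfl | rfl
    exacts [(ih.step h1 h2).2, (ih.symm.step h2 h1).2.symm]

theorem isPGroup_of_odd [Finite F] [Nonempty ι] (h1 : N * N = 0) (h2 : N' * N' = 0)
    (ho : Odd (Nat.card (Subgroup.closure ({un N h1, un N' h2} : Set (GL ι F))))) :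
    ∃ p, p.Prime ∧ IsPGroup p (Subgroup.closure ({un N h1, un N' h2} : Set (GL ι F))) := by
  obtain ⟨p, hp⟩ := CharP.exists F
  have pp := CharP.char_is_prime F p
  have : Fact p.Prime := ⟨pp⟩
  refine ⟨p, pp, fun g => ?_⟩
  let X := Subgroup.closure ({un N h1, un N' h2} : Set (GL ι F))
  let ρ : X →* Module.End F (ι → F) :=
    ((Matrix.toLinAlgEquiv' (R := F) (n := ι) : Matrix ι ι F →* Module.End F (ι → F)).comp
      (Units.coeHom _)).comp X.subtype
  have key : ∀ (Z : Matrix ι ι F) (h : Z * Z = 0) (hx : un Z h ∈ X),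
      (ρ ⟨_, hx⟩ - 1) * (ρ ⟨_, hx⟩ - 1) = 0 := fun Z h hx => by
    have : ρ ⟨_, hx⟩ - 1 = Matrix.toLinAlgEquiv' Z := by
      show Matrix.toLinAlgEquiv' (1 + Z) - 1 = _
      rw [map_add, map_one, add_sub_cancel_left]
    rw [this, ← map_mul, h, map_zero]
  have hn := H49.isNilpotent_of_quadratic ho
    (x := ⟨un N h1, Subgroup.subset_closure (.inl rfl)⟩)
    (y := ⟨un N' h2, Subgroup.subset_closure (.inr rfl)⟩)
    (eq_top_iff.2 (Subgroup.closure_closure_coe_preimage.ge.trans (Subgroup.closure_mono (by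
      rintro ⟨_, _⟩ (rfl | rfl)
      exacts [.inl rfl, .inr rfl])))) ρ (key _ _ _) (key _ _ _) g
  have hn' : IsNilpotent ((g.1 : Matrix ι ι F) - 1) := by
    rw [← IsNilpotent.map_iff (Matrix.toLinAlgEquiv' (R := F) (n := ι)).injective, map_sub, map_one]
    exact hn
  obtain ⟨n, hn'⟩ := hn'
  have : CharP (Matrix ι ι F) p := charP_of_injective_algebraMap (algebraMap F _).injective p
  refine ⟨n, Subtype.ext (Units.ext ?_)⟩
  have := add_pow_char_pow_of_commute p n (Commute.one_right ((g.1 : Matrix ι ι F) - 1))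
  rw [sub_add_cancel, one_pow, pow_eq_zero_of_le (Nat.lt_pow_self pp.one_lt).le hn', zero_add] at this
  simpa using this

theorem rg_mul_le (X Y : Matrix ι ι F) : finrank F (rg (X * Y)) ≤ finrank F (rg Y) := by
  rw [rg, toLin'_mul, LinearMap.range_comp]
  exact Submodule.finrank_map_le _ _

variable {k t : ℕ} {M : Subgroup (GG k t F)} {ν : Mk k F} {i : Fin t}

theorem exists_inv [Finite F] {N' : EE k t F} (h1 : em i ν * em i ν = (0 : EE k t F))
    (h2 : N' * N' = 0) (hk : 2 ≤ k) (hM : In M (1 + em i ν)) (hM' : In M (1 + N'))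
    (hT : ¬ In (TT k t F) (1 + N'))
    (R : ∀ g ∈ M, In (TT k t F) (1 + cj g (em i ν)) → g ∈ TT k t F) :
    ∃ τ ∈ M, τ ≠ 1 ∧ τ * τ = 1 ∧ JJ (em i ν) N' ((τ : EE k t F) + τ - 2) := by
  have : Nonempty (Fin t → Fin k) := ⟨fun _ => ⟨0, by omega⟩⟩
  let X := Subgroup.closure ({un _ h1, un N' h2} : Set (GG k t F))
  have le : X ≤ M := (Subgroup.closure_le _).2 (by
    rintro _ (rfl | rfl)
    exacts [In.coe.1 hM, In.coe.1 hM'])
  have hx : un _ h1 ∈ X := Subgroup.subset_closure (.inl rfl)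
  have ev : 2 ∣ Nat.card X := by
    rw [← even_iff_two_dvd, ← Nat.not_odd_iff_even]
    intro ho
    obtain ⟨p, pp, hp⟩ := isPGroup_of_odd h1 h2 ho
    have : Fact p.Prime := ⟨pp⟩
    have := hp.isNilpotent
    have top := normalizerCondition_iff_only_full_group_self_normalizing.1
      (Group.normalizerCondition_of_isNilpotent (G := X)) ((TT k t F).subgroupOf X)
      (le_antisymm (fun (g : X) hg => R g (le g.2) (by
        have := (Subgroup.mem_normalizer_iff.1 hg ⟨_, hx⟩).1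
          (In.coe.1 (hM.of_inA hk ((Sc.one.inA i).add (InA.em i ν))))
        refine ⟨_, this, ?_⟩
        rw [← map_one (cj g.1), ← map_add]
        exact (cj_coe g.1 (un _ h1)).symm)) Subgroup.le_normalizer)
    exact hT ⟨un N' h2, top.ge (Subgroup.mem_top
      (⟨un N' h2, Subgroup.subset_closure (.inr rfl)⟩ : X)), rfl⟩
  have : Fact (Nat.Prime 2) := ⟨Nat.prime_two⟩
  obtain ⟨⟨τ, hτ⟩, o⟩ := exists_prime_orderOf_dvd_card' 2 ev
  rw [← Subgroup.orderOf_coe] at o
  have sq : τ * τ = 1 := by rw [← pow_two, ← o]; exact pow_orderOf_eq_one τ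
  refine ⟨τ, le hτ, fun e => by simp [e] at o, sq, ?_⟩
  have := (tr_of_mem h1 h2 hτ).a
  rwa [inv_eq_of_mul_eq_one_right sq] at this

theorem ct_z {N' r : EE k t F} (c : Commute r (em i ν)) {u ψ : Fin k → F} (hu : ν *ᵥ u = 0)
    (hψ : ψ ᵥ* ν = 0) : ct i ψ u ((em i ν * N' + N' * em i ν) * r) = 0 := by
  rw [add_mul, ct_add, mul_assoc, ct_em_left, hψ, mul_assoc, ← c.eq, ← mul_assoc, ct_em_right, hu,
    ← zero_smul F (0 : Fin k → F), ct_smul_left, ct_smul_right, zero_smul, zero_smul, add_zero]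

theorem core [Finite F] {N' : EE k t F} (two : (2 : F) ≠ 0) (hν : ν * ν = 0) (hν0 : ν ≠ 0)
    {u ψ : Fin k → F} (hψu : ψ ⬝ᵥ u = 1) (hu : ν *ᵥ u = 0) (hψ : ψ ᵥ* ν = 0) (hr : Hr M ν)
    (h2 : N' * N' = 0) (hM : In M (1 + em i ν)) (hM' : In M (1 + N'))
    (hT : ¬ In (TT k t F) (1 + N')) (rk : finrank F (rg N') = finrank F (rg (em i ν)))
    (R : ∀ g ∈ M, In (TT k t F) (1 + cj g (em i ν)) → g ∈ TT k t F) :
    (∃ b, b ≠ -1 ∧ em i b * N' = -N') ∧ ∃ Z, em i ν = em i ν * N' * Z := by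
  have h1 : em i ν * em i ν = (0 : EE k t F) := by rw [← map_mul, hν, map_zero]
  have hk : 2 ≤ k := by
    by_contra hk
    refine not_sc_of_sq hν0 hν ⟨ν.trace, ?_⟩
    have : Subsingleton (Fin k) := Fin.subsingleton_iff_le_one.2 (by omega)
    ext a b
    obtain rfl := Subsingleton.elim a b
    simp [Matrix.trace, Fintype.sum_subsingleton _ a]
  obtain ⟨τ, hτ, τ1, sq, r', c1', c2', e'⟩ := exists_inv h1 h2 hk hM hM' hT R
  obtain ⟨r, c1, c2, e⟩ : ∃ r, Commute r (em i ν) ∧ Commute r N' ∧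
      (τ : EE k t F) = 1 + (em i ν * N' + N' * em i ν) * r :=
    ⟨(2 : F)⁻¹ • r', c1'.smul_left _, c2'.smul_left _, by
      rw [mul_smul_comm, ← e', ← two_smul F, show (2 : EE k t F) = (2 : F) • 1 by
        rw [two_smul, one_add_one_eq_two], ← smul_sub, smul_smul, inv_mul_cancel₀ two, one_smul,
        add_sub_cancel]⟩
  have cN : Commute (τ : EE k t F) (em i ν) := by
    rw [e]; exact (Commute.one_left _).add_left ((z_comm h1 N').mul_left c1)
  have cN' : Commute (τ : EE k t F) N' := by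
    rw [e]
    exact (Commute.one_left _).add_left ((add_comm (N' * em i ν) _ ▸ z_comm h2 _).mul_left c2)
  have cjN : cj τ (em i ν) = em i ν := (cj_eq_iff _ _ _).2 cN
  have τT := R τ hτ (by rw [cjN]; exact hM.of_inA hk ((Sc.one.inA i).add (InA.em i ν)))
  obtain ⟨s, d, hd, rfl⟩ := (nm_of_cj τT (not_sc_of_sq hν0 hν) (cjN.symm ▸ InA.em i ν)).exists_eq
  have key : ∀ u ψ : Fin k → F, ν *ᵥ u = 0 → ψ ᵥ* ν = 0 →
      ct i ψ u ((emG i s * d : GG k t F) : EE k t F) = (ψ ⬝ᵥ u) • 1 := fun u ψ hu hψ => by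
    rw [e, ct_add, ct_z c1 hu hψ, add_zero, ct_one]
  have h3 := key u ψ hu hψ
  rw [Units.val_mul, coe_emG, ct_em_mul hd, hψu, one_smul] at h3
  have : Nonempty (Fin t → Fin k) := ⟨fun _ => ⟨0, by omega⟩⟩
  obtain ⟨μ, hμ⟩ : Sc (d : EE k t F) :=
    Sc.of_smul (fun e => by rw [e, zero_smul] at h3; exact zero_ne_one h3) (h3 ▸ Sc.one)
  have eb : ((emG i s * d : GG k t F) : EE k t F) = em i (μ • (s : Mk k F)) := by
    rw [Units.val_mul, coe_emG, hμ, map_smul, mul_smul_comm, mul_one]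
  generalize μ • (s : Mk k F) = b at eb
  generalize emG i s * d = τ at *
  have key' : ∀ u ψ : Fin k → F, ν *ᵥ u = 0 → ψ ᵥ* ν = 0 → ψ ⬝ᵥ b *ᵥ u = ψ ⬝ᵥ u :=
    fun u ψ hu hψ => smul_left_injective F one_ne_zero (by
      have := key u ψ hu hψ
      rwa [eb, ct_em] at this)
  have hb := hr i b ⟨τ, hτ, eb⟩ (em_inj.1 (by rw [map_mul, ← eb, ← Units.val_mul, sq, map_one]; rfl))
    (em_inj.1 (by rw [map_mul, map_mul, ← eb]; exact cN))
    (fun e => τ1 (Units.ext (by rw [eb, e, map_one]; rfl))) fun u hu =>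
      mem_of_forall_dot fun φ hφ => by
        rw [dotProduct_sub, key' u φ hu (dot_ext fun x => by
          rw [← dotProduct_mulVec, hφ _ (mem_rg.2 ⟨x, rfl⟩), zero_dotProduct]), sub_self]
  have hN : (τ : EE k t F) * em i ν = -em i ν := by rw [eb, ← map_mul, hb, map_neg]
  have eZ : em i ν = em i ν * N' * (-(2 : F)⁻¹ • (r * em i ν)) := by
    have h4 := hN
    rw [e, add_mul, one_mul, add_mul, add_mul, mul_assoc (N' * _), c1.eq, mul_assoc N',
      ← mul_assoc (em i ν) (em i ν), h1, zero_mul, mul_zero, add_zero, mul_assoc,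
      ← add_eq_zero_iff_eq_neg, add_right_comm, ← two_smul F, add_eq_zero_iff_neg_eq] at h4
    rw [mul_smul_comm, ← h4, smul_neg, neg_smul, neg_neg, smul_smul, inv_mul_cancel₀ two, one_smul]
  refine ⟨⟨b, fun e => ?_, ?_⟩, _, eZ⟩
  · have := key' u ψ hu hψ
    rw [e, neg_mulVec, one_mulVec, dotProduct_neg, hψu] at this
    exact two (by linear_combination -this)
  have h5 : rg (N' * em i ν) = rg N' := Submodule.eq_of_le_of_finrank_le
    (by rw [rg, toLin'_mul]; exact LinearMap.range_comp_le_range _ _) (by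
      rw [rk]
      conv_lhs => rw [eZ, mul_smul_comm, mul_assoc, ← mul_assoc N', ← c2.eq, mul_assoc,
        ← mul_assoc _ r, ← smul_mul_assoc]
      exact rg_mul_le _ _)
  refine ext_mulVec fun v => ?_
  obtain ⟨w, hw⟩ := mem_rg.1 (h5.ge (mem_rg.2 ⟨v, rfl⟩))
  rw [← eb, ← mulVec_mulVec, neg_mulVec, ← hw, mulVec_mulVec, ← mul_assoc, cN'.eq, mul_assoc, hN,
    mul_neg, neg_mulVec]

theorem jobOdd : JobOdd.{u} := by
  intro F _ _ k t M ν i₁ i₂ two hi hν hν0 ⟨u, ψ, hψu, hu, hψ⟩ hr H g hg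
  obtain ⟨m1, R1⟩ := H i₁ (.inl rfl)
  obtain ⟨m2, R2⟩ := H i₂ (.inr rfl)
  refine R1 g hg (by_contra fun hT => ?_)
  have h2 : cj g (em i₁ ν) * cj g (em i₁ ν) = 0 := by
    rw [← map_mul, ← map_mul, hν, map_zero, map_zero]
  obtain ⟨-, Z, eZ⟩ := core two hν hν0 hψu hu hψ hr h2 m1 (m1.cj_one_add hg) hT
    (finrank_rg_cj _ _) R1
  obtain ⟨⟨b, hb, e⟩, -⟩ := core two hν hν0 hψu hu hψ hr h2 m2 (m1.cj_one_add hg) hT
    (by rw [finrank_rg_cj, rg_em, rg_em, finrank_LS', finrank_LS']) R2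
  have h3 : em i₁ ν * (em i₂ (b + 1) : EE k t F) = 0 := by
    rw [map_add, map_one, mul_add, mul_one, em_comm hi, add_eq_zero_iff_eq_neg]
    conv_lhs => rw [eZ, ← mul_assoc, ← mul_assoc, ← em_comm hi, mul_assoc (em i₁ ν), e, mul_neg,
      neg_mul, ← eZ]
  exact hb (eq_neg_of_add_eq_zero_left (em_eq_zero.1 ((T2 (InC.em hi _) h3).resolve_left hν0)))

end H58.C7
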