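import Cfsg.Agent.H58.ElUO

/-!
Isometries `f` such that `f - 1` has totally singular image.
-/

open Polynomial Module

namespace H58

open H53
open H59 (perp mem_perp)
open H56 (O SqCl sqcl)

variable {F : Type*} [Field F] {ε : F}
variable {V : Type*} [AddCommGroup V] [Module F V] [FiniteDimensional F V]
variable {B : V →ₗ[F] V →ₗ[F] F} {f : End F V} {Q : QuadraticForm F V} {A C U W : Submodule F V}
variable {m : ℕ}

/-- The rank of `f - 1` on `W`. -/
noncomputable abbrev rkOn (f : End F V) (W : Submodule F V) : ℕ := finrank F (W.map (f - 1))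

omit [FiniteDimensional F V] in
theorem St.map_sub_le (h : St f W) : W.map (f - 1) ≤ W := by
  rintro _ ⟨v, hv, rfl⟩
  exact W.sub_mem (h v hv) hv

theorem rkOn_sup (hA : St f A) (hC : St f C) (h : Disjoint A C) :
    rkOn f (A ⊔ C) = rkOn f A + rkOn f C := by
  rw [rkOn, Submodule.map_sup, finrank_sup_of_disjoint (h.mono hA.map_sub_le hC.map_sub_le)]

theorem rkOn_eq_zero_iff : rkOn f W = 0 ↔ ∀ v ∈ W, f v = v := by
  simp [rkOn, Submodule.eq_bot_iff, sub_eq_zero]

theorem rkOn_add_perp {σ : F →+* F} {B : V →ₛₗ[σ] V →ₗ[F] F} (hB : IsSF ε B) (hf : Inv B f)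
    (hW : St f W) (hd : ND B W) :
    rkOn f W + rkOn f (perp B W) = finrank F (LinearMap.range (f - 1)) := by
  rw [← rkOn_sup hW (hf.perp_mapsTo hB hW) hd, (hB.isCompl_perp hd).sup_eq_top, rkOn,
    Submodule.map_top]

theorem even_rkOn (hB : IsSF (σ := RingHom.id F) ε B) (ha : ∀ v ∈ W, B (f v - v) v = 0)
    (hW : St f W) (hd : ND B W) : Even (rkOn f W) := by
  let N : W →ₗ[F] V := (f - 1).domRestrict W
  have h1 := even_finrank_sub_ker (B := B.compl₁₂ N W.subtype) fun v => ha v v.2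
  have h2 : LinearMap.ker (B.compl₁₂ N W.subtype) = LinearMap.ker N := by
    ext v
    refine ⟨fun h => ?_, fun h => by ext w; simp [LinearMap.mem_ker.1 h]⟩
    by_contra h3
    obtain ⟨w, hw, h4⟩ := (nd_iff hB).1 hd _ (hW.map_sub_le ⟨v, v.2, rfl⟩) h3
    exact h4 (LinearMap.congr_fun h ⟨w, hw⟩)
  have h3 := N.finrank_range_add_finrank_ker
  rw [LinearMap.range_domRestrict] at h3
  rw [h2, ← h3, add_assoc, Nat.even_add] at h1
  exact h1.2 (Even.add_self _)

theorem exists_atype (hB : IsSF (σ := RingHom.id F) 1 B) (hU : TI B U) (he : Even (finrank F U)) :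
    ∃ f, Inv B f ∧ LinearMap.range (f - 1) = U ∧ ∀ v, B (f v - v) v = 0 := by
  obtain ⟨k, hk⟩ := he
  have h1 := hB.finrank_add_finrank_perp U
  have h2 := (perp B U).finrank_quotient_add_finrank
  let π := (LinearEquiv.ofFinrankEq (R := F) (V ⧸ perp B U) (Fin k ⊕ Fin k → F)
    (by simp; omega)).toLinearMap ∘ₗ (perp B U).mkQ
  have h3 : ∀ v, π v = 0 ↔ v ∈ perp B U := by simp [π]
  have h4 : Function.Surjective π := (LinearEquiv.surjective _).comp (Submodule.mkQ_surjective _)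
  obtain ⟨s, hs⟩ := hB.exists_rep (pull (H54.spB (Fin k) F) π)
  simp only [pull_apply] at hs
  have h5 : LinearMap.range s ≤ U := by
    rintro _ ⟨v, rfl⟩
    rw [← hB.perp_perp U, hB.mem_perp']
    intro x hx
    rw [hs, (h3 x).2 hx, map_zero]
  have h6 : LinearMap.ker s = perp B U := by
    ext v
    rw [← h3, LinearMap.mem_ker]
    refine ⟨fun h => (isSF_spB (Fin k) F).nondeg _ fun y => ?_, fun h => hB.nondeg _ fun y => ?_⟩
    · obtain ⟨y, rfl⟩ := h4 y
      rw [← hs, h, map_zero, LinearMap.zero_apply]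
    · rw [hs, h, map_zero, LinearMap.zero_apply]
  have h7 := s.finrank_range_add_finrank_ker
  refine ⟨1 + s, fun x y => ?_, ?_, fun v => by simpa [hs] using H54.spB_isAlt _⟩
  · have h8 := hU (h5 ⟨y, rfl⟩) _ (h5 ⟨x, rfl⟩)
    have h9 := hB.symm (s y) x
    have h10 := (isSF_spB (Fin k) F).symm (π x) (π y)
    simp only [one_mul, RingHom.id_apply, hs, neg_mul] at h8 h9 h10
    simp [h8, h9, hs, h10]
  · rw [add_sub_cancel_left]
    exact Submodule.eq_of_le_of_finrank_eq h5 (by rw [h6] at h7; omega)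

theorem exists_qatype (hQ : Q.polarBilin.Nondegenerate) (hU : TS Q U) (he : Even (finrank F U)) :
    ∃ f, QInv Q f ∧ LinearMap.range (f - 1) = U := by
  obtain ⟨f, -, h1, h2⟩ := exists_atype (isSF_polar hQ) hU.ti he
  refine ⟨f, fun v => ?_, h1⟩
  have h3 := hU (f v - v) (h1 ▸ ⟨v, rfl⟩)
  have h4 := QuadraticMap.map_add Q (f v - v) v
  rwa [sub_add_cancel, h3, show QuadraticMap.polar Q (f v - v) v = 0 from h2 v, zero_add,
    add_zero] at h4

omit [FiniteDimensional F V] in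
theorem atype_of_ts (hf : QInv Q f) {v : V} (h : Q (f v - v) = 0) :
    Q.polarBilin (f v - v) v = 0 := by
  have h4 := QuadraticMap.map_add Q (f v - v) v
  rwa [sub_add_cancel, h, hf v, zero_add, left_eq_add] at h4

omit [FiniteDimensional F V] in
theorem Inv.apply_sub_fix {σ : F →+* F} {B : V →ₛₗ[σ] V →ₗ[F] F} (hf : Inv B f) (v : V) {w : V}
    (h : f w = w) : B (f v - v) w = 0 := by
  rw [map_sub, LinearMap.sub_apply, ← hf v w, h, sub_self]

theorem sq_eq_zero_of_ti {σ : F →+* F} {B : V →ₛₗ[σ] V →ₗ[F] F} (hB : IsSF ε B) (hf : Inv B f)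
    (h : TI B (LinearMap.range (f - 1))) : (f - 1) ^ 2 = 0 := by
  ext v
  refine hB.nondeg _ fun w => ?_
  obtain ⟨w, rfl⟩ := (End.isUnit_iff f).1 (hf.isUnit hB) |>.2 w
  have := h ⟨w, rfl⟩ _ ⟨v, rfl⟩
  simp only [sq, End.mul_apply, LinearMap.sub_apply, End.one_apply, map_sub, hf _ _] at this ⊢
  linear_combination -this

omit [FiniteDimensional F V] in
theorem ti_of_sq_eq_zero {σ : F →+* F} {B : V →ₛₗ[σ] V →ₗ[F] F} (hf : Inv B f)
    (h : ∀ v ∈ W, ((f - 1) ^ 2 : End F V) v = 0) : TI B (W.map (f - 1)) := by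
  rintro _ ⟨w, hw, rfl⟩ _ ⟨v, -, rfl⟩
  exact Inv.apply_sub_fix hf v (by simpa [sq, sub_eq_zero] using h w hw)

theorem pl_of_edOn_two (h2 : (2 : F) ≠ 0) (hf : QInv Q f) (hW : St f W) {k : ℕ}
    (h : edOn f W = up F (Multiset.replicate k 2)) : Pl Q W := by
  have h1 := ti_of_sq_eq_zero hf.inv (W := W) fun v hv => by
    rw [← aeval_X_sub_one_pow (F := F)]
    exact aeval_eq_zero_of_edOn hW (Q := (X - 1) ^ 2) (by simp [h, Multiset.mem_replicate]) v hv
  have h3 := dg_edOn hW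
  obtain ⟨h4, h5⟩ := jt_eq_of_ed_eq_map (edOn_eq hW ▸ h)
  have h6 := finrank_ker_sub_one h4
  have h7 := (f.restrict hW - 1).finrank_range_add_finrank_ker
  rw [h, dgs_up] at h3
  rw [h6, h5, ← Submodule.finrank_map_subtype_eq, ← LinearMap.range_comp,
    show W.subtype ∘ₗ (f.restrict hW - 1) = (f - 1).domRestrict W from rfl,
    LinearMap.range_domRestrict] at h7
  refine pl_iff.2 ⟨_, hW.map_sub_le, by simp at h3 h7; omega, fun w hw => ?_⟩
  have := h1 hw w hw
  rwa [QuadraticMap.polarBilin_apply_apply, QuadraticMap.polar_self, two_nsmul, ← two_mul,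
    mul_eq_zero, or_iff_right h2] at this

variable [Finite F] (p : ℕ) [hp : Fact p.Prime] [CharP F p]

omit [Finite F] [FiniteDimensional F V] in
theorem pow_char_of_sq (h : (f - 1) ^ 2 = 0) : f ^ p = 1 :=
  (pow_char_eq_one_iff (F := F) p f).2 (pow_eq_zero_of_le hp.out.two_le h)

omit hp in
theorem inOm_iff_of_char_two (h2 : (2 : F) = 0) (hQ : Q.polarBilin.Nondegenerate)
    (hE : ¬ H56.IsExc Q) (hf : QInv Q f) :
    InOm Q f ↔ Even (finrank F (LinearMap.range (f - 1))) := by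
  obtain ⟨g, rfl⟩ := hf.exists_lin_eq hQ
  refine Iff.trans ?_ (H56.mem_commutator_iff_of_char_two hQ h2 hE g)
  exact ⟨fun ⟨k, hk, h⟩ => by
    rwa [← H56.O.ext (g := k) (h := g) fun x => LinearMap.congr_fun h x], fun h => ⟨g, h, rfl⟩⟩

theorem exists_inOm_atype (hQ : Q.polarBilin.Nondegenerate) (hE : ¬ H56.IsExc Q) {k : ℕ}
    (h0 : 0 < k) (hk : 4 * k ≤ finrank F V) (hk' : 4 * k = finrank F V → IsPlus Q) :
    ∃ f, InOm Q f ∧ f ^ p = 1 ∧ (∀ c : F, f ≠ c • 1) ∧ TS Q (LinearMap.range (f - 1)) ∧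
      finrank F (LinearMap.range (f - 1)) = 2 * k := by
  obtain ⟨U, h1, h2⟩ := (exists_ts_iff hQ (2 * k)).2 ⟨by omega, fun h => hk' (by omega)⟩
  obtain ⟨f, h3, rfl⟩ := exists_qatype hQ h2 (h1 ▸ even_two_mul k)
  have h4 := sq_eq_zero_of_ti (isSF_polar hQ) h3.inv h2.ti
  have h5 := pow_char_of_sq p h4
  refine ⟨f, ?_, h5, ?_, h2, h1⟩
  · by_cases h6 : (2 : F) = 0
    · exact (inOm_iff_of_char_two h6 hQ hE h3).2 (h1 ▸ even_two_mul k)
    · exact inOm_of_odd hQ hE h3 (odd_char' p h6) h5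
  · rintro c rfl
    have : Nontrivial V := Module.nontrivial_of_finrank_pos (R := F) (by omega)
    rw [show (c • 1 - 1 : End F V) = (c - 1) • 1 by rw [sub_smul, one_smul]] at h4 h1
    rw [_root_.smul_pow, one_pow, smul_eq_zero, or_iff_left one_ne_zero,
      pow_eq_zero_iff two_ne_zero] at h4
    rw [h4, zero_smul, LinearMap.range_zero, finrank_bot] at h1
    omega

theorem AllFix.atype {Φ : Submodule F V → Prop} (H : AllFix Q p Φ)
    (hQ : Q.polarBilin.Nondegenerate) (hE : ¬ H56.IsExc Q) (hΦ : ∀ W, Φ W → ND Q.polarBilin W)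
    {k : ℕ} (h0 : 0 < k) (hk : 4 * k ≤ finrank F V) (hk' : 4 * k = finrank F V → IsPlus Q) :
    ∃ W, Φ W ∧ ∃ a b, a + b = k ∧ (4 * a ≤ finrank F W ∧ (4 * a = finrank F W → Pl Q W)) ∧
      4 * b ≤ finrank F (perp Q.polarBilin W) ∧
        (4 * b = finrank F (perp Q.polarBilin W) → Pl Q (perp Q.polarBilin W)) := by
  obtain ⟨f, h1, h2, h3, h4, h5⟩ := exists_inOm_atype p hQ hE h0 hk hk'
  obtain ⟨W, h6, h7⟩ := H f h1 h2 h3
  have hB := isSF_polar hQ
  have key : ∀ W, St f W → ND Q.polarBilin W → ∃ a, rkOn f W = 2 * a ∧ 4 * a ≤ finrank F W ∧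
      (4 * a = finrank F W → Pl Q W) := fun W h8 h9 => by
    obtain ⟨a, ha⟩ := even_rkOn hB (fun v _ => atype_of_ts h1.qinv (h4 _ ⟨v, rfl⟩)) h8 h9
    have := (exists_ts_le_iff hQ h9 _).1 ⟨_, h8.map_sub_le, ha, fun w hw =>
      h4 w (LinearMap.map_le_range hw)⟩
    exact ⟨a, by omega, by omega, fun h => this.2 (by omega)⟩
  obtain ⟨a, h8, h9⟩ := key W h7 (hΦ W h6)
  obtain ⟨b, h10, h11⟩ := key _ (h1.qinv.inv.perp_mapsTo hB h7) (hB.disjoint_perp (hΦ W h6))
  have := rkOn_add_perp hB h1.qinv.inv h7 (hΦ W h6)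
  exact ⟨W, h6, a, b, by omega, h9, h11⟩

omit [Finite F] hp in
theorem ND.inf_perp {σ : F →+* F} {B : V →ₛₗ[σ] V →ₗ[F] F} (hB : IsSF ε B) (hA : ND B A)
    (hW : ND B W) (h : A ≤ W) : ND B (W ⊓ perp B A) ∧ A ⊔ W ⊓ perp B A = W ∧
      finrank F A + finrank F ↥(W ⊓ perp B A) = finrank F W := by
  have h1 : A ⊔ W ⊓ perp B A = W := by
    rw [inf_comm, ← sup_inf_assoc_of_le _ h, (hB.isCompl_perp hA).sup_eq_top, top_inf_eq]
  exact ⟨ND.right hB (h1.symm ▸ hW) inf_le_right, h1, by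
    rw [← finrank_sup_of_disjoint (hA.disjoint inf_le_right), h1]⟩

omit [Finite F] hp in
theorem edOn_eq_add_inf {σ : F →+* F} {B : V →ₛₗ[σ] V →ₗ[F] F} (hB : IsSF ε B) (hf : Inv B f)
    (h1 : St f A) (hA : ND B A) (h2 : St f W) (hW : ND B W) (h : A ≤ W) :
    edOn f W = edOn f A + edOn f (W ⊓ perp B A) := by
  rw [← edOn_sup h1 (h2.inf (hf.perp_mapsTo hB h1)) (hA.disjoint inf_le_right),
    (hA.inf_perp hB hW h).2.1]

omit [Finite F] hp [FiniteDimensional F V] in
theorem nd_span_singleton {σ : F →+* F} {B : V →ₛₗ[σ] V →ₗ[F] F} (hB : IsSF ε B) {w : V}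
    (h : B w w ≠ 0) : ND B (F ∙ w) := (nd_iff hB).2 fun u hu h0 => by
  obtain ⟨c, rfl⟩ := Submodule.mem_span_singleton.1 hu
  refine ⟨w, Submodule.mem_span_singleton_self w, ?_⟩
  simpa [h] using left_ne_zero_of_smul h0

omit [Finite F] hp in
theorem edOn_span_fix {w : V} (h0 : w ≠ 0) (h : f w = w) :
    St f (F ∙ w) ∧ edOn f (F ∙ w) = {X - 1} := by
  have h1 : ∀ v ∈ F ∙ w, f v = (1 : F) • v := fun v hv => by
    obtain ⟨c, rfl⟩ := Submodule.mem_span_singleton.1 hv
    simp [h]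
  have h2 := st_of_le_eigen h1 le_rfl
  exact ⟨h2, by simp [edOn_eq_replicate h2 h1, finrank_span_singleton h0]⟩

omit [Finite F] hp [FiniteDimensional F V] in
theorem qisom_span_singleton {v w : V} (h0 : Q v ≠ 0) (h : Q w = Q v) : QIsom Q (F ∙ v) (F ∙ w) := by
  have h1 : v ≠ 0 := by rintro rfl; simp at h0
  have h2 : w ≠ 0 := by rintro rfl; simp [← h] at h0
  refine ⟨(LinearEquiv.toSpanNonzeroSingleton F V v h1).symm.trans
    (LinearEquiv.toSpanNonzeroSingleton F V w h2), fun u => ?_⟩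
  obtain ⟨c, rfl⟩ := (LinearEquiv.toSpanNonzeroSingleton F V v h1).surjective u
  rw [LinearEquiv.trans_apply, LinearEquiv.symm_apply_apply]
  simp [h, QuadraticMap.map_smul]

omit hp in
theorem QIsom.perp (h2 : (2 : F) ≠ 0) (hQ : Q.polarBilin.Nondegenerate) (hA : ND Q.polarBilin A)
    (h : QIsom Q W A) : QIsom Q (perp Q.polarBilin W) (perp Q.polarBilin A) := by
  have hB := isSF_polar hQ
  obtain ⟨h1, h3, h4⟩ := (qisom_iff_disc h2 hQ hA).1 h
  have h5 := hB.finrank_add_finrank_perp A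
  have h6 := hB.finrank_add_finrank_perp W
  refine (qisom_iff_disc h2 hQ (hB.disjoint_perp hA)).2 ⟨by omega, hB.disjoint_perp h3, ?_⟩
  have := (disc_eq_mul_perp hQ hA).symm.trans (disc_eq_mul_perp hQ h3)
  rw [h4] at this
  exact (mul_left_cancel this).symm

theorem AllFix.not_qisom_one (H : AllFix Q p (QIsom Q · A)) (h2 : (2 : F) ≠ 0)
    (hQ : Q.polarBilin.Nondegenerate) (hA : ND Q.polarBilin A) {e : ℕ}
    (hn : finrank F V = 4 * (e + 1)) (hm : finrank F A % 4 = 1) : False := by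
  have hB := isSF_polar hQ
  have hq : ∀ {w}, Q w ≠ 0 → Q.polarBilin w w ≠ 0 := fun h => by
    simpa [two_nsmul, ← two_mul, h2] using h
  obtain ⟨δ, hδ⟩ : ∃ δ, δ ≠ disc (Q.restrict A) := by
    have h := H56.card_SqCl h2
    have : Finite (SqCl F) := Nat.finite_of_card_ne_zero (by omega)
    have : Nontrivial (SqCl F) := Finite.one_lt_card_iff_nontrivial.1 (by omega)
    exact exists_ne _
  obtain ⟨L, -, hL, h1, rfl⟩ := exists_nd_disc h2 hQ (nd_top hB) one_pos
    (by rw [finrank_top]; omega) δ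
  have h3 := hB.finrank_add_finrank_perp L
  obtain ⟨g, h4, h5⟩ := exists_qinv_unip h2 (nondeg_restrict hQ (hB.disjoint_perp hL))
    (μ := Multiset.replicate (2 * e) 2 + Multiset.replicate 1 3)
    (by simp only [Multiset.mem_add, Multiset.mem_replicate]; omega) (fun k hk => by
      rw [Nat.even_iff] at hk ⊢
      simp only [Multiset.count_add, Multiset.count_replicate]
      split_ifs <;> omega) (by simp; omega) (Or.inl ⟨2 * e + 1, by omega⟩)
  obtain ⟨f, h6, h7, h8, -, -, h9, h10⟩ := exists_qinv_add hQ hL QInv.one h4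
  have h11 : ed f = up F (Multiset.replicate 1 1 + Multiset.replicate (2 * e) 2 +
      Multiset.replicate 1 3) := by
    rw [h10, h5, ← one_smul F (1 : End F L), ed_smul_one, h1]
    simp
    rfl
  have := three_le_char p h2
  obtain ⟨W, h12, h13⟩ := H.exists_up p h2 hQ h6 h11
    (by simp only [Multiset.mem_add, Multiset.mem_replicate]; omega) (k := 3) (by simp) (by omega)
  obtain ⟨h14, h15, h16⟩ := (qisom_iff_disc h2 hQ hA).1 h12
  obtain ⟨ν, ρ, h17, h18, -, h19⟩ := exists_up_of_nd hB h6.inv h11 h13 h15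
  obtain ⟨x, hx, y, -, z, hz, rfl⟩ := le_three_parts (h17 ▸ Multiset.le_add_right ν ρ)
  obtain ⟨u, hu⟩ := even_count_of_edOn h2 hQ h6 h13 h15 h18 2 even_two
  simp [Multiset.count_replicate] at hu h19
  obtain ⟨rfl, rfl⟩ : x = 1 ∧ z = 0 := by omega
  obtain ⟨w, h20, h21, h22⟩ : ∃ w ∈ W, f w = w ∧ Q w ≠ 0 := by
    by_contra! h
    obtain ⟨h20, h21⟩ := jt_eq_of_ed_eq_map (edOn_eq h13 ▸ h18)
    have h22 := finrank_ker_sub_one h20
    have := ((exists_ts_le_iff hQ h15 _).1 ⟨_, Submodule.map_subtype_le W _,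
      (Submodule.finrank_map_subtype_eq _ _).trans h22, by
        rintro _ ⟨v, hv, rfl⟩
        exact h v v.2 (sub_eq_zero.1 (congrArg Subtype.val hv))⟩).1
    simp [h21] at this
    omega
  have h23 := nd_span_singleton hB (hq h22)
  obtain ⟨h24, h25⟩ := edOn_span_fix (f := f) (w := w) (by rintro rfl; simp at h22) h21
  have h26 := (Submodule.span_singleton_le_iff_mem _ _).2 h20
  obtain ⟨h27, h28, h29⟩ := h23.inf_perp hB h15 h26
  have h30 := edOn_eq_add_inf hB h6.inv h24 h23 h13 h15 h26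
  rw [h18, h25] at h30
  have h31 := pl_of_edOn_two h2 h6 (h13.inf (h6.inv.perp_mapsTo hB h24)) (k := y)
    (by simpa using h30.symm)
  rw [finrank_span_singleton (by rintro rfl; simp at h22)] at h29
  rw [Pl, isPlus_iff_disc h2 (nondeg_restrict hQ h27) (k := y) (by omega),
    (sqcl_neg_one_pow h2 y).2 (Or.inr ⟨u, hu⟩)] at h31
  rw [← h28, disc_sup hQ h23 h27 inf_le_right, h31, mul_one] at h16
  obtain ⟨a, b, rfl⟩ := H59.exists_add_eq_of_isCompl (hB.isCompl_perp hL) w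
  have h32 : f b = b := by simpa [h8] using h21
  have h33 : Q b = 0 := by
    by_contra h
    obtain ⟨h33, h34⟩ := edOn_span_fix (f := f) (w := b) (fun h0 => h (by simp [h0])) h32
    have := edOn_eq_add_inf hB h6.inv h33 (nd_span_singleton hB (hq h))
      (h6.inv.perp_mapsTo hB h7) (hB.disjoint_perp hL)
      ((Submodule.span_singleton_le_iff_mem _ _).2 b.2)
    rw [h9, h5, h34] at this
    obtain ⟨k, h35, h36⟩ := Multiset.mem_map.1 (this ▸ Multiset.mem_add.2
      (Or.inl (Multiset.mem_singleton_self _)))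
    rw [X_sub_one_pow_injective (h36.trans (pow_one _).symm)] at h35
    simp [Multiset.mem_replicate] at h35
  have h34 : Q a = Q (a + b) := by
    rw [QuadraticMap.map_add Q, h33, show QuadraticMap.polar Q (a : V) b = 0 from b.2 a a.2]
    simp
  have h35 := qisom_span_singleton h22 h34
  rw [Submodule.eq_of_le_of_finrank_eq ((Submodule.span_singleton_le_iff_mem _ _).2 a.2) (by
    rw [h1, finrank_span_singleton fun h => h22 (by rw [← h34, h, map_zero])])] at h35
  exact hδ (((qisom_iff_disc h2 hQ hL).1 h35).2.2.symm.trans h16)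

theorem AllFix.not_qisom (H : AllFix Q p (QIsom Q · A)) (h2 : (2 : F) ≠ 0)
    (hQ : Q.polarBilin.Nondegenerate) (hA : ND Q.polarBilin A) {d : ℕ}
    (hn : finrank F V = 2 * d) (hd : 3 ≤ d) (hm : Odd (finrank F A)) : False := by
  have hB := isSF_polar hQ
  have h1 := hB.finrank_add_finrank_perp A
  rw [Nat.odd_iff] at hm
  have key := H.three_parts p h2 hQ (m := finrank F A) (fun W h =>
    ⟨((qisom_iff_disc h2 hQ hA).1 h).1, h.nd hQ hA⟩) (by omega)
  rcases d.even_or_odd' with ⟨e, rfl | rfl⟩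
  · by_cases h3 : finrank F A % 4 = 1
    · exact H.not_qisom_one p h2 hQ hA (e := e - 1) (by omega) h3
    · refine AllFix.not_qisom_one p (A := perp Q.polarBilin A) (fun f h4 h5 h6 => ?_) h2 hQ
        (hB.disjoint_perp hA) (e := e - 1) (by omega) (by omega)
      obtain ⟨W, h7, h8⟩ := H f h4 h5 h6
      exact ⟨_, h7.perp h2 hQ hA, h4.qinv.inv.perp_mapsTo hB h8⟩
  · obtain ⟨x, h3, y, -, z, h4, h5⟩ := key 2 e 0 (by omega) (Or.inr (by omega))
    obtain ⟨x, h3, y, -, z, h4, h5⟩ := key 0 (e - 1) 2 (by omega) (Or.inr (by omega))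
    omega

end H58
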