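import Cfsg.Agent.H58.ElAT

/-!
Translation of the geometric predicates of the prelude.
-/

open Polynomial Module

namespace H58

open H53
open H59 (perp mem_perp)
open H56 (O SqCl sqcl)

variable {F : Type*} [Field F]

section mat

variable {ι : Type} {Q : QuadraticForm F (ι → F)} {W A : Submodule F (ι → F)}

theorem nondegOn_iff (hQ : Q.polarBilin.Nondegenerate) :
    Cfsg.Geo.IsNondegenerateOn (QuadraticMap.polar Q) W ↔ ND Q.polarBilin W := by
  rw [nd_iff (isSF_polar hQ)]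
  exact ⟨fun h u hu h0 => (h u hu h0).2, fun h u hu h0 =>
    ⟨(h u hu h0).imp fun v hv => ⟨hv.1, QuadraticMap.polar_comm Q u v ▸ hv.2⟩, h u hu h0⟩⟩

theorem plusOn_iff : Cfsg.Geo.IsPlusTypeOn Q W ↔ Pl Q W := by
  rw [pl_iff]
  exact exists_congr fun U => and_congr_right fun _ => and_comm

theorem isomFor_iff : Cfsg.Geo.AreIsometricFor Q W A ↔ QIsom Q W A := Iff.rfl

end mat

variable {V : Type*} [AddCommGroup V] [Module F V] [FiniteDimensional F V] [Finite F]
variable {Q : QuadraticForm F V} {A : Submodule F V} {m : ℕ}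

theorem exists_model_plus (hQ : Q.polarBilin.Nondegenerate) (h0 : 0 < m) (hm : m < finrank F V)
    (he : Even m) : ∃ A, ND Q.polarBilin A ∧ finrank F A = m ∧ Pl Q A ∧
      ∀ W : Submodule F V, (finrank F W = m ∧ ND Q.polarBilin W ∧ Pl Q W) ↔ QIsom Q W A := by
  obtain ⟨A, -, h1, h2, h3⟩ := exists_nd_pl hQ (nd_top (isSF_polar hQ)) h0 (by rwa [finrank_top])
    he True
  exact ⟨A, h1, h2, h3.2 trivial, fun W => by simp [qisom_iff_pl hQ h1 (h2 ▸ he), h2, h3]⟩

theorem exists_model_minus (hQ : Q.polarBilin.Nondegenerate) (h0 : 0 < m) (hm : m < finrank F V)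
    (he : Even m) : ∃ A, ND Q.polarBilin A ∧ finrank F A = m ∧ ¬ Pl Q A ∧
      ∀ W : Submodule F V, (finrank F W = m ∧ ND Q.polarBilin W ∧ ¬ Pl Q W) ↔ QIsom Q W A := by
  obtain ⟨A, -, h1, h2, h3⟩ := exists_nd_pl hQ (nd_top (isSF_polar hQ)) h0 (by rwa [finrank_top])
    he False
  exact ⟨A, h1, h2, h3.1, fun W => by simp [qisom_iff_pl hQ h1 (h2 ▸ he), h2, h3]⟩

omit [Finite F] [FiniteDimensional F V] in
theorem qisom_and_iff (hQ : Q.polarBilin.Nondegenerate) (hA : ND Q.polarBilin A)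
    (hm : finrank F A = m) (W : Submodule F V) :
    (finrank F W = m ∧ ND Q.polarBilin W ∧ QIsom Q W A) ↔ QIsom Q W A :=
  ⟨fun h => h.2.2, fun h => ⟨h.choose.finrank_eq.trans hm, h.nd hQ hA, h⟩⟩

omit [FiniteDimensional F V] [Finite F] in
theorem allFix_of_pomega {p : ℕ} {Φ : Submodule F V → Prop}
    (H : ∀ g : O Q, g ∈ commutator (O Q) → (∃ z : F, g.lin ^ p = z • 1) → (∀ z : F, g.lin ≠ z • 1) →
      ∃ W, Φ W ∧ St g.lin W) : AllFix Q p Φ := by
  rintro _ ⟨g, h1, rfl⟩ h2 h3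
  exact H g h1 ⟨1, by rw [h2, one_smul]⟩ h3

omit [FiniteDimensional F V] [Finite F] in
theorem allFix_of_omega {p : ℕ} {Φ : Submodule F V → Prop}
    (H : ∀ g : O Q, g ∈ commutator (O Q) → g.lin ^ p = 1 → g.lin ≠ 1 → ∃ W, Φ W ∧ St g.lin W) :
    AllFix Q p Φ := by
  rintro _ ⟨g, h1, rfl⟩ h2 h3
  exact H g h1 h2 (by simpa using h3 1)

omit [FiniteDimensional F V] [Finite F] in
theorem not_isPlus_of_odd (h : Odd (finrank F V)) : ¬ IsPlus Q := fun ⟨_, h1, _⟩ =>
  Nat.not_even_iff_odd.2 h (h1 ▸ even_two_mul _)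

theorem AllFix.exists_pl_of_odd {p : ℕ} [Fact p.Prime] [CharP F p] {Φ : Submodule F V → Prop}
    (H : AllFix Q p Φ) (hQ : Q.polarBilin.Nondegenerate) {d : ℕ} (hd : finrank F V = 2 * d + 1)
    (h0 : 0 < d) (hΦ : ∀ W, Φ W → Even (finrank F W) ∧ ND Q.polarBilin W) :
    ∃ W, Φ W ∧ Pl Q W ∧ finrank F W % 4 = 0 := by
  have ho : Odd (finrank F V) := hd ▸ odd_two_mul_add_one d
  have h2 := two_ne_zero_of_odd hQ ho
  have h3 := three_le_char p h2
  obtain ⟨f, h4, h5⟩ := exists_qinv_unip h2 hQ (μ := Multiset.replicate (1 - d % 2) 1 +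
      Multiset.replicate (2 * (d / 2)) 2 + Multiset.replicate (d % 2) 3)
    (by simp only [Multiset.mem_add, Multiset.mem_replicate]; omega) (fun k hk => by
      rw [Nat.even_iff] at hk ⊢
      simp only [Multiset.count_add, Multiset.count_replicate]
      split_ifs <;> omega) (by simp; omega) (Or.inl ho)
  obtain ⟨W, h6, h7⟩ := H.exists_up p h2 hQ h4 h5
    (by simp only [Multiset.mem_add, Multiset.mem_replicate]; omega) (k := 2 + d % 2)
    (by simp only [Multiset.mem_add, Multiset.mem_replicate]; omega) (by omega)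
  obtain ⟨⟨k, h8⟩, h9⟩ := hΦ W h6
  obtain ⟨ν, ρ, h10, h11, -, h12⟩ := exists_up_of_nd (isSF_polar hQ) h4.inv h5 h7 h9
  obtain ⟨x, hx, y, -, z, hz, rfl⟩ := le_three_parts (h10 ▸ Multiset.le_add_right ν ρ)
  obtain ⟨u, hu⟩ := even_count_of_edOn h2 hQ h4 h7 h9 h11 2 even_two
  simp [Multiset.count_replicate] at hu h12
  obtain ⟨rfl, rfl⟩ : x = 0 ∧ z = 0 := by omega
  exact ⟨W, h6, pl_of_edOn_two h2 h4 h7 (k := y) (by simpa using h11), by omega⟩

theorem even_add_div_iff {c n m : ℕ} (hc : 0 < c) (h : m % c = n % c) :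
    Even ((n + m - 2 * (n % c)) / c) ↔ (Even (n / c) ↔ Even (m / c)) := by
  rw [← Nat.even_add, show n + m - 2 * (n % c) = (n / c + m / c) * c by
    have := Nat.div_add_mod' n c
    have := Nat.div_add_mod' m c
    rw [add_mul]
    omega, Nat.mul_div_cancel _ hc]

end H58
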