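import Cfsg.Agent.H58.ElBr

/-!
Involutions of symplectic and orthogonal groups in characteristic two.
-/

open Polynomial Module

namespace H58

open H53
open H59 (perp mem_perp)
open H56 (O)

variable {F : Type*} [Field F] {ε : F}
variable {V : Type*} [AddCommGroup V] [Module F V] [FiniteDimensional F V]
variable {B : V →ₗ[F] V →ₗ[F] F} {f : End F V} {Q : QuadraticForm F V} {A E W : Submodule F V}
variable {m d : ℕ}

omit [FiniteDimensional F V] in
theorem nd_span_pair (hB : IsSF (σ := RingHom.id F) ε B) (ha : ∀ x, B x x = 0) {x y : V}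
    (h : B x y ≠ 0) : ND B (Submodule.span F {x, y}) ∧ finrank F (Submodule.span F {x, y}) = 2 := by
  have h1 : B y x ≠ 0 := fun h' => h (hB.eq_zero_comm.1 h')
  refine ⟨(nd_iff hB).2 fun u hu h0 => ?_, ?_⟩
  · obtain ⟨a, b, rfl⟩ := Submodule.mem_span_pair.1 hu
    by_cases h2 : a = 0
    · refine ⟨x, Submodule.subset_span (by simp), ?_⟩
      simpa [h2, h1] using fun h3 => h0 (by simp [h2, h3])
    · exact ⟨y, Submodule.subset_span (by simp), by simp [ha, h, h2]⟩
  · have := finrank_span_eq_card (LinearIndependent.pair_iff.2 fun a b hab => by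
      have h2 := congrArg (B · y) hab
      have h3 := congrArg (B · x) hab
      exact ⟨by simpa [ha, h] using h2, by simpa [ha, h1] using h3⟩ : LinearIndependent F ![x, y])
    rwa [Matrix.range_cons_cons_empty] at this

omit [FiniteDimensional F V] in
theorem st_span_pair (h : f ^ 2 = 1) (v : V) : St f (Submodule.span F {v, f v}) := by
  intro u hu
  obtain ⟨a, b, rfl⟩ := Submodule.mem_span_pair.1 hu
  exact Submodule.mem_span_pair.2 ⟨b, a, by
    rw [map_add, map_smul, map_smul, ← End.mul_apply f f, ← sq, h, add_comm, End.one_apply]⟩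

omit [FiniteDimensional F V] in
theorem sub_one_sq_of_char_two (h2 : (2 : F) = 0) (h : f ^ 2 = 1) : (f - 1) ^ 2 = 0 := by
  rw [sq, sub_mul, mul_sub, mul_sub, ← sq, h, mul_one, one_mul, one_mul,
    show (1 - f - (f - 1) : End F V) = (2 : F) • (1 - f) by rw [two_smul]; abel, h2, zero_smul]

theorem two_mul_rkOn_le (hB : IsSF (σ := RingHom.id F) ε B) (h2 : (2 : F) = 0) (hf : Inv B f)
    (h : f ^ 2 = 1) (hW : St f W) (hd : ND B W) : 2 * rkOn f W ≤ finrank F W :=
  (ti_of_sq_eq_zero hf fun v _ => by simp [sub_one_sq_of_char_two h2 h]).two_mul_le_of_le hB hd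
    hW.map_sub_le

theorem rkOn_eq_add_inf (hB : IsSF (σ := RingHom.id F) ε B) (hf : Inv B f) (h1 : St f A)
    (hA : ND B A) (h2 : St f W) (hW : ND B W) (h : A ≤ W) :
    rkOn f W = rkOn f A + rkOn f (W ⊓ perp B A) := by
  rw [← rkOn_sup h1 (h2.inf (hf.perp_mapsTo hB h1)) (hA.disjoint inf_le_right),
    (hA.inf_perp hB hW h).2.1]

theorem exists_ablock (hB : IsSF (σ := RingHom.id F) ε B) (ha : ∀ x, B x x = 0) (h2 : (2 : F) = 0)
    (hf : Inv B f) (h : f ^ 2 = 1) (hE : St f E) (hd : ND B E) (h1 : ∀ v ∈ E, B (f v - v) v = 0)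
    (h0 : rkOn f E ≠ 0) : ∃ A ≤ E, St f A ∧ ND B A ∧ finrank F A = 4 ∧ rkOn f A = 2 := by
  obtain ⟨w, hw, h3⟩ : ∃ w ∈ E, f w ≠ w := by
    by_contra! h3
    exact h0 (rkOn_eq_zero_iff.2 h3)
  have hN : ∀ v, f (f v - v) = f v - v := fun v => by
    simpa [sq, sub_eq_zero] using LinearMap.congr_fun (sub_one_sq_of_char_two h2 h) v
  have hm : ∀ v ∈ E, f v - v ∈ E := fun v hv => E.sub_mem (hE v hv) hv
  obtain ⟨v, hv, h4⟩ := (nd_iff hB).1 hd _ (hm w hw) (sub_ne_zero.2 h3)
  obtain ⟨z, hz, h5, h6⟩ : ∃ z ∈ E, f z - z = f w - w ∧ B z v = 0 :=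
    ⟨w - (B w v / B (f w - w) v) • (f w - w), E.sub_mem hw (E.smul_mem _ (hm w hw)),
      by rw [map_sub, map_smul, hN]; abel, by
        rw [map_sub, map_smul, LinearMap.sub_apply, LinearMap.smul_apply, smul_eq_mul,
          div_mul_cancel₀ _ h4, sub_self]⟩
  rw [← h5] at h4
  have h7 : B (f v - v) z ≠ 0 := fun h7 => h4 (by
    have := h1 _ (E.add_mem hv hz)
    rw [show f (v + z) - (v + z) = (f v - v) + (f z - z) by rw [map_add]; abel] at this
    simpa only [map_add, LinearMap.add_apply, h1 v hv, h1 z hz, h7, zero_add, add_zero] using this)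
  obtain ⟨h8, h9⟩ := nd_span_pair hB ha h4
  obtain ⟨h10, h11⟩ := nd_span_pair hB ha h7
  have h12 : Submodule.span F {f v - v, z} ≤ perp B (Submodule.span F {f z - z, v}) := by
    intro y hy x hx
    obtain ⟨a, b, rfl⟩ := Submodule.mem_span_pair.1 hy
    obtain ⟨c, e, rfl⟩ := Submodule.mem_span_pair.1 hx
    simp only [map_add, map_smul, LinearMap.add_apply, LinearMap.smul_apply,
      Inv.apply_sub_fix hf z (hN v), h1 z hz, hB.eq_zero_comm.1 (h1 v hv), hB.eq_zero_comm.1 h6,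
      smul_zero, add_zero]
  have h13 : St f (Submodule.span F {f z - z, v} ⊔ Submodule.span F {f v - v, z}) := by
    intro x hx
    obtain ⟨_, hx', _, hy, rfl⟩ := Submodule.mem_sup.1 hx
    obtain ⟨a, b, rfl⟩ := Submodule.mem_span_pair.1 hx'
    obtain ⟨c, e, rfl⟩ := Submodule.mem_span_pair.1 hy
    refine Submodule.mem_sup.2 ⟨(a + e) • (f z - z) + b • v,
      Submodule.mem_span_pair.2 ⟨a + e, b, rfl⟩, (c + b) • (f v - v) + e • z,
      Submodule.mem_span_pair.2 ⟨c + b, e, rfl⟩, ?_⟩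
    simp only [map_add, map_smul, hN]
    module
  have h14 := h8.sup hB h10 h12
  have h15 : _ ≤ E := sup_le (Submodule.span_le.2 (Set.pair_subset (hm z hz) hv))
    (Submodule.span_le.2 (Set.pair_subset (hm v hv) hz))
  have h16 := finrank_sup_of_disjoint (h8.disjoint h12)
  have h17 := two_mul_rkOn_le hB h2 hf h h13 h14
  obtain ⟨k, hk⟩ := even_rkOn hB (fun x hx => h1 x (h15 hx)) h13 h14
  have h18 : rkOn f (Submodule.span F {f z - z, v} ⊔ Submodule.span F {f v - v, z}) ≠ 0 :=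
    fun h0 => h4 (by
      rw [rkOn_eq_zero_iff.1 h0 z (Submodule.mem_sup_right (Submodule.subset_span (by simp))),
        sub_self, map_zero, LinearMap.zero_apply])
  exact ⟨_, h15, h13, h14, by omega, by omega⟩

theorem exists_achain (hB : IsSF (σ := RingHom.id F) ε B) (ha : ∀ x, B x x = 0) (h2 : (2 : F) = 0)
    (hf : Inv B f) (h : f ^ 2 = 1) (hE : St f E) (hd : ND B E) (h1 : ∀ v ∈ E, B (f v - v) v = 0)
    (b : ℕ) (hb : 2 * b ≤ rkOn f E) :
    ∃ W ≤ E, St f W ∧ ND B W ∧ finrank F W = 4 * b ∧ rkOn f W = 2 * b := by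
  induction b with
  | zero => exact ⟨⊥, bot_le, st_bot f, nd_bot, by simp, by simp [rkOn]⟩
  | succ b ih =>
    obtain ⟨W, h3, h4, h5, h6, h7⟩ := ih (by omega)
    have h8 := rkOn_eq_add_inf hB hf h4 h5 hE hd h3
    obtain ⟨A, h9, h10, h11, h12, h13⟩ := exists_ablock hB ha h2 hf h
      (hE.inf (hf.perp_mapsTo hB h4)) (h5.inf_perp hB hd h3).1 (fun v hv => h1 v hv.1) (by omega)
    have h14 := h9.trans inf_le_right
    exact ⟨W ⊔ A, sup_le h3 (h9.trans inf_le_left), h4.sup h10, h5.sup hB h11 h14,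
      by rw [finrank_sup_of_disjoint (h5.disjoint h14)]; omega,
      by rw [rkOn_sup h4 h10 (h5.disjoint h14)]; omega⟩

theorem exists_asplit (hB : IsSF (σ := RingHom.id F) ε B) (ha : ∀ x, B x x = 0) (h2 : (2 : F) = 0)
    (hf : Inv B f) (h : f ^ 2 = 1) (hE : St f E) (hd : ND B E) (h1 : ∀ v ∈ E, B (f v - v) v = 0) :
    ∃ u, ∃ A ≤ E, St f A ∧ ND B A ∧ finrank F A = 4 * u ∧ rkOn f A = 2 * u ∧ rkOn f E = 2 * u ∧
      (∀ U ≤ E ⊓ perp B A, St f U) ∧
      ∀ b ≤ u, ∃ W ≤ A, St f W ∧ ND B W ∧ finrank F W = 4 * b ∧ rkOn f W = 2 * b := by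
  obtain ⟨u, hu⟩ := even_rkOn hB h1 hE hd
  obtain ⟨A, h3, h4, h5, h6, h7⟩ := exists_achain hB ha h2 hf h hE hd h1 u (by omega)
  have h8 := rkOn_eq_add_inf hB hf h4 h5 hE hd h3
  refine ⟨u, A, h3, h4, h5, h6, h7, by omega, fun U hU v hv => ?_, fun b hb =>
    exists_achain hB ha h2 hf h h4 h5 (fun v hv => h1 v (h3 hv)) b (by omega)⟩
  rwa [rkOn_eq_zero_iff.1 (by omega) v (hU hv)]

omit [FiniteDimensional F V] in
theorem isSF_neg_one (hB : IsSF (σ := RingHom.id F) ε B) (ha : ∀ x, B x x = 0) :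
    IsSF (σ := RingHom.id F) (-1) B := isSF_of_isAlt hB.nondegenerate ha

theorem exists_nd_or_atype (hB : IsSF (σ := RingHom.id F) ε B) (ha : ∀ x, B x x = 0)
    (h2 : (2 : F) = 0) (hf : Inv B f) (h : f ^ 2 = 1) (n : ℕ) :
    ∀ E : Submodule F V, finrank F E = n → St f E → ND B E → ∀ j, Even j → j ≤ n →
      (∃ W ≤ E, St f W ∧ ND B W ∧ finrank F W = j) ∨
        ((∀ v ∈ E, B (f v - v) v = 0) ∧ 2 * rkOn f E = n ∧ j % 4 = 2) := by
  induction n using Nat.strong_induction_on with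
  | _ n ih =>
  intro E hn hE hd j hj hjn
  rw [Nat.even_iff] at hj
  obtain ⟨e, he⟩ := H54.even_finrank_of_isAlt (hB.restrict hd).nondegenerate fun x => ha x
  by_cases h1 : ∀ v ∈ E, B (f v - v) v = 0
  · obtain ⟨u, A, h3, -, h5, h6, -, h7, h8, h9⟩ := exists_asplit hB ha h2 hf h hE hd h1
    obtain ⟨h10, -, h11⟩ := h5.inf_perp hB hd h3
    by_cases h12 : 4 * u = n ∧ j % 4 = 2
    · exact Or.inr ⟨h1, by omega, h12.2⟩
    obtain ⟨W, h13, h14, h15, h16, -⟩ := h9 (min u (j / 4)) (min_le_left _ _)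
    obtain ⟨U, h17, h18, h19⟩ := exists_nd_le_alt (isSF_neg_one hB ha) ha h10
      (j := j - 4 * min u (j / 4)) (by omega) (Nat.even_iff.2 (by omega))
    have h20 := le_perp_of_le h13 (h17.trans inf_le_right)
    exact Or.inl ⟨W ⊔ U, sup_le (h13.trans h3) (h17.trans inf_le_left), h14.sup (h8 U h17),
      h15.sup hB h18 h20, by rw [finrank_sup_of_disjoint (h15.disjoint h20)]; omega⟩
  left
  obtain ⟨v, hv, h1⟩ : ∃ v ∈ E, B (f v - v) v ≠ 0 := by simpa using h1
  obtain ⟨h3, h4⟩ := nd_span_pair hB ha (x := v) (y := f v)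
    (fun h3 => h1 (by simp [ha, hB.eq_zero_comm.1 h3]))
  have h5 := st_span_pair h v
  have h6 : _ ≤ E := Submodule.span_le.2 (Set.pair_subset hv (hE v hv))
  obtain ⟨h7, -, h8⟩ := h3.inf_perp hB hd h6
  have h9 := ih _ (by omega) _ rfl (hE.inf (hf.perp_mapsTo hB h5)) h7
  by_cases h10 : j = n
  · exact ⟨E, le_rfl, hE, hd, by omega⟩
  rcases h9 j (Nat.even_iff.2 hj) (by omega) with ⟨W, h11, h12⟩ | ⟨-, -, h11⟩
  · exact ⟨W, h11.trans inf_le_left, h12⟩
  obtain ⟨W, h12, h13, h14, h15⟩ := (h9 (j - 2) (Nat.even_iff.2 (by omega)) (by omega)).resolve_right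
    (by omega)
  have h16 := h12.trans inf_le_right
  exact ⟨_, sup_le h6 (h12.trans inf_le_left), h5.sup h13, h3.sup hB h14 h16,
    by rw [finrank_sup_of_disjoint (h3.disjoint h16)]; omega⟩

omit [FiniteDimensional F V] in
theorem polar_self_of_char_two (h2 : (2 : F) = 0) (x : V) : Q.polarBilin x x = 0 := by
  rw [QuadraticMap.polarBilin_apply_apply, QuadraticMap.polar_self, two_nsmul, ← two_mul, h2,
    zero_mul]

omit [FiniteDimensional F V] in
theorem Q_sub_of_char_two (h2 : (2 : F) = 0) (hf : QInv Q f) (v : V) :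
    Q (f v - v) = Q.polarBilin (f v - v) v := by
  have h4 := QuadraticMap.map_add Q (f v - v) v
  rw [sub_add_cancel, hf v] at h4
  rw [QuadraticMap.polarBilin_apply_apply]
  linear_combination -h4 - QuadraticMap.polar Q (f v - v) v * h2

omit [FiniteDimensional F V] in
theorem pl_of_rkOn (h2 : (2 : F) = 0) (hf : QInv Q f) (hW : St f W)
    (h1 : ∀ v ∈ W, Q.polarBilin (f v - v) v = 0) (h : 2 * rkOn f W = finrank F W) : Pl Q W :=
  pl_iff.2 ⟨_, hW.map_sub_le, h, by
    rintro _ ⟨v, hv, rfl⟩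
    exact (Q_sub_of_char_two h2 hf v).trans (h1 v hv)⟩

omit [FiniteDimensional F V] in
theorem pl_iff_of_two (h : finrank F W = 2) : Pl Q W ↔ ∃ z ∈ W, z ≠ 0 ∧ Q z = 0 := by
  rw [pl_iff]
  constructor
  · rintro ⟨U, h1, h2, h3⟩
    obtain ⟨z, h4, h5⟩ := Submodule.exists_mem_ne_zero_of_ne_bot (p := U) (by
      rintro rfl; simp [h] at h2)
    exact ⟨z, h1 h4, h5, h3 z h4⟩
  · rintro ⟨z, h1, h2, h3⟩
    refine ⟨F ∙ z, (Submodule.span_singleton_le_iff_mem _ _).2 h1,
      by rw [finrank_span_singleton h2, h], fun w hw => ?_⟩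
    obtain ⟨c, rfl⟩ := Submodule.mem_span_singleton.1 hw
    simp [QuadraticMap.map_smul, h3]

variable [Finite F]

theorem exists_mul_self_eq (h2 : (2 : F) = 0) (c : F) : ∃ b, b * b = c := by
  have : CharP F 2 := CharTwo.of_one_ne_zero_of_two_eq_zero one_ne_zero h2
  simpa only [sq] using exists_pow_char_eq 2 c

omit [FiniteDimensional F V] in
theorem exists_plane_type (h2 : (2 : F) = 0) (hQ : Q.polarBilin.Nondegenerate) (hf : QInv Q f)
    {v u : V} (hv : Q.polarBilin v (f v) ≠ 0) (hu : f u = u) (h1 : Q u ≠ 0)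
    (h3 : Q.polarBilin v u = 0) (η : Prop) :
    ∃ c : F, Q.polarBilin (v + c • u) (f (v + c • u)) ≠ 0 ∧
      (Pl Q (Submodule.span F {v + c • u, f (v + c • u)}) ↔ η) := by
  have hB := isSF_polar hQ
  have ha := polar_self_of_char_two (Q := Q) h2
  have h4 : Q.polarBilin u (f v) = 0 := by rw [← hu, hf.inv, hB.eq_zero_comm, h3]
  have h5 : ∀ c : F, Q.polarBilin (v + c • u) (f (v + c • u)) = Q.polarBilin v (f v) := fun c => by
    simp only [map_add, map_smul, LinearMap.add_apply, LinearMap.smul_apply, hu, h3, h4, ha,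
      smul_zero, add_zero]
  have h6 : ∀ t, ∃ c : F, Q (v + c • u) = t := fun t => by
    obtain ⟨c, hc⟩ := exists_mul_self_eq h2 ((t - Q v) / Q u)
    refine ⟨c, ?_⟩
    rw [QuadraticMap.map_add Q, QuadraticMap.polar_smul_right, show QuadraticMap.polar Q v u = 0
      from h3, QuadraticMap.map_smul, hc, smul_eq_mul, div_mul_cancel₀ _ h1]
    simp
  by_cases h : η
  · obtain ⟨c, hc⟩ := h6 0
    refine ⟨c, h5 c ▸ hv, iff_of_true ((pl_iff_of_two (nd_span_pair hB ha (h5 c ▸ hv)).2).2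
      ⟨_, Submodule.subset_span (by simp), fun h0 => hv ?_, hc⟩) h⟩
    rw [← h5 c, h0, map_zero, LinearMap.zero_apply]
  · obtain ⟨ζ, hζ⟩ := exists_irreducible_quad F
    obtain ⟨s, hs⟩ := exists_mul_self_eq h2 ζ
    obtain ⟨c, hc⟩ := h6 (s * Q.polarBilin v (f v))
    refine ⟨c, h5 c ▸ hv, iff_of_false (fun h7 => ?_) h⟩
    obtain ⟨z, h8, h9, h10⟩ := (pl_iff_of_two (nd_span_pair hB ha (h5 c ▸ hv)).2).1 h7
    obtain ⟨a, b, rfl⟩ := Submodule.mem_span_pair.1 h8
    rw [QuadraticMap.map_add Q, QuadraticMap.polar_smul_left, QuadraticMap.polar_smul_right,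
      QuadraticMap.map_smul, QuadraticMap.map_smul, hf, hc,
      show QuadraticMap.polar Q (v + c • u) (f (v + c • u)) = _ from h5 c] at h10
    have h11 : s ≠ 0 := by rintro rfl; simpa [← hs] using hζ 0
    obtain ⟨h12, rfl⟩ := aniso_one_of_no_root hζ (a * s) b (mul_left_cancel₀ hv (by
      simp only [smul_eq_mul] at h10
      linear_combination s * h10 - Q.polarBilin v (f v) * b ^ 2 * hs))
    exact h9 (by simp [(mul_eq_zero.1 h12).resolve_right h11])

theorem exists_pl_of_invol_two (h2 : (2 : F) = 0) (hQ : Q.polarBilin.Nondegenerate) (hf : QInv Q f)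
    (h : f ^ 2 = 1) (he : Even (finrank F (LinearMap.range (f - 1)))) (hd : finrank F V = 2 * d)
    (hm : Even m) (hmn : m + 2 ≤ 2 * d) (H : m % 4 = 0 ∨ (IsPlus Q ↔ Odd d)) :
    ∃ W : Submodule F V, (finrank F W = m ∧ ND Q.polarBilin W ∧ Pl Q W) ∧ St f W := by
  have hB := isSF_polar hQ
  have ha := polar_self_of_char_two (Q := Q) h2
  rw [Nat.even_iff] at hm
  by_cases h1 : ∀ v, Q.polarBilin (f v - v) v = 0
  · obtain ⟨u, A, -, h4, h5, h6, h7, -, h8, h9⟩ := exists_asplit hB ha h2 hf.inv h (st_top f)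
      (nd_top hB) fun v _ => h1 v
    rw [top_inf_eq] at h8
    have h10 := hB.finrank_add_finrank_perp A
    have h11 := isPlus_iff_perp hQ h5 ⟨2 * u, by omega⟩ ⟨d, by omega⟩
    rw [iff_true_intro (pl_of_rkOn h2 hf h4 (fun v _ => h1 v) (by omega)), true_iff] at h11
    obtain ⟨W, h13, h14, h15, h16, h17⟩ := h9 (min u (m / 4)) (min_le_left _ _)
    obtain ⟨U, h18, h19, h20, h21⟩ : ∃ U ≤ perp Q.polarBilin A, ND Q.polarBilin U ∧
        finrank F U = m - 4 * min u (m / 4) ∧ Pl Q U := by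
      by_cases h18 : m - 4 * min u (m / 4) = 0
      · exact ⟨⊥, bot_le, nd_bot, by simp [h18], pl_bot⟩
      have h19 : finrank F (perp Q.polarBilin A) = 0 → IsPlus Q := fun h0 =>
        h11.2 (Submodule.finrank_eq_zero.1 h0 ▸ pl_bot)
      rw [Nat.odd_iff] at H
      by_cases h20 : m - 4 * min u (m / 4) = finrank F (perp Q.polarBilin A)
      · exact ⟨_, le_rfl, hB.disjoint_perp h5, h20.symm,
          h11.1 ((H.resolve_left (by omega)).2 (by omega))⟩
      have h21 : m - 4 * min u (m / 4) < finrank F (perp Q.polarBilin A) := by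
        by_contra h21
        have := (H.resolve_left (by omega)).1 (h19 (by omega))
        omega
      simpa using exists_nd_pl hQ (hB.disjoint_perp h5) (by omega) h21
        (Nat.even_iff.2 (by omega)) True
    have h22 := le_perp_of_le h13 h18
    refine ⟨W ⊔ U, ⟨by rw [finrank_sup_of_disjoint (h15.disjoint h22)]; omega,
      h15.sup hB h19 h22, ?_⟩, h14.sup (h8 U h18)⟩
    exact (pl_sup_iff hQ h15 h19 h22 (Nat.even_iff.2 (by omega)) (Nat.even_iff.2 (by omega))).2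
      (iff_of_true (pl_of_rkOn h2 hf h14 (fun v _ => h1 v) (by omega)) h21)
  by_cases h0 : m = 0
  · exact ⟨⊥, ⟨by simp [h0], nd_bot, pl_bot⟩, st_bot f⟩
  have key : ∀ v, Q.polarBilin (f v - v) v ≠ 0 → Q.polarBilin v (f v) ≠ 0 := fun v h1 h3 =>
    h1 (by rw [map_sub, LinearMap.sub_apply, ha, hB.eq_zero_comm.1 h3, sub_zero])
  obtain ⟨v, h1⟩ := not_forall.1 h1
  obtain ⟨h3, h4⟩ := nd_span_pair hB ha (key v h1)
  have h5 := st_span_pair h v
  have h6 := hf.inv.perp_mapsTo hB h5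
  obtain ⟨w, hw, h7⟩ : ∃ w ∈ perp Q.polarBilin (Submodule.span F {v, f v}),
      Q.polarBilin (f w - w) w ≠ 0 := by
    by_contra! h7
    have h8 := Nat.even_iff.1 (even_rkOn hB h7 h6 (hB.disjoint_perp h3))
    have h9 := rkOn_add_perp hB hf.inv h5 h3
    have h10 := two_mul_rkOn_le hB h2 hf.inv h h5 h3
    have h11 : rkOn f (Submodule.span F {v, f v}) ≠ 0 := fun h0 => h1 (by
      rw [rkOn_eq_zero_iff.1 h0 v (Submodule.subset_span (by simp)), sub_self, map_zero,
        LinearMap.zero_apply])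
    rw [Nat.even_iff] at he
    omega
  obtain ⟨h8, h9⟩ := nd_span_pair hB ha (key w h7)
  have h10 : _ ≤ perp Q.polarBilin _ := Submodule.span_le.2 (Set.pair_subset hw (h6 w hw))
  have h11 := h3.sup hB h8 h10
  have h12 := hB.finrank_add_finrank_perp (Submodule.span F {v, f v} ⊔ Submodule.span F {w, f w})
  rw [finrank_sup_of_disjoint (h3.disjoint h10)] at h12
  have h13 := hf.inv.perp_mapsTo hB (h5.sup (st_span_pair h w))
  rcases exists_nd_or_atype hB ha h2 hf.inv h _ _ rfl h13 (hB.disjoint_perp h11) (m - 2)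
    (Nat.even_iff.2 (by omega)) (by omega) with ⟨W, h14, h15, h16, h17⟩ | ⟨h14, h15, h16⟩
  · have h18 : f (f w - w) = f w - w := by
      simpa [sq, sub_eq_zero] using LinearMap.congr_fun (sub_one_sq_of_char_two h2 h) w
    have h19 : f w - w ∈ Submodule.span F {w, f w} :=
      sub_mem (Submodule.subset_span (by simp)) (Submodule.subset_span (by simp))
    obtain ⟨c, h20, h21⟩ := exists_plane_type h2 hQ hf (key v h1) h18
      (Q_sub_of_char_two h2 hf w ▸ h7) (h10 h19 v (Submodule.subset_span (by simp))) (Pl Q W)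
    obtain ⟨h22, h23⟩ := nd_span_pair hB ha h20
    have h24 : v + c • (f w - w) ∈ Submodule.span F {v, f v} ⊔ Submodule.span F {w, f w} :=
      Submodule.add_mem_sup (Submodule.subset_span (by simp)) (Submodule.smul_mem _ _ h19)
    have h25 := le_perp_of_le (Submodule.span_le.2
      (Set.pair_subset h24 (h5.sup (st_span_pair h w) _ h24))) h14
    exact ⟨_, ⟨by rw [finrank_sup_of_disjoint (h22.disjoint h25)]; omega, h22.sup hB h16 h25,
      (pl_sup_iff hQ h22 h16 h25 (h23 ▸ even_two) (Nat.even_iff.2 (by omega))).2 h21⟩,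
      (st_span_pair h _).sup h15⟩
  · obtain ⟨k, hk⟩ := even_rkOn hB h14 h13 (hB.disjoint_perp h11)
    obtain ⟨W, h17, h18, h19, h20, h21⟩ := exists_achain hB ha h2 hf.inv h h13
      (hB.disjoint_perp h11) h14 (m / 4) (by omega)
    exact ⟨W, ⟨by omega, h19, pl_of_rkOn h2 hf h18 (fun v hv => h14 v (h17 hv)) (by omega)⟩, h18⟩

end H58
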