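import Cfsg.Agent.H58.ElCh2

/-!
Fixed subspaces of involutions in characteristic two; nonsingular points.
-/

open Polynomial Module

namespace H58

open H53
open H59 (perp mem_perp)
open H56 (O)

variable {F : Type*} [Field F] {ε : F}
variable {V : Type*} [AddCommGroup V] [Module F V] [FiniteDimensional F V]
variable {B : V →ₗ[F] V →ₗ[F] F} {f : End F V} {Q : QuadraticForm F V} {A E W : Submodule F V}
variable {m d r : ℕ}

theorem eq_one_of_mul_self_two (h2 : (2 : F) = 0) {z : F} (h : z * z = 1) : z = 1 :=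
  sub_eq_zero.1 (mul_self_eq_zero.1 (by linear_combination h + (1 - z) * h2))

omit [FiniteDimensional F V] in
theorem sq_eq_one_of_char_two [Nontrivial V] (hB : IsSF (σ := RingHom.id F) ε B)
    (h2 : (2 : F) = 0) (hf : Inv B f) {z : F} (h : f ^ 2 = z • 1) : f ^ 2 = 1 := by
  have h1 : Inv B (z • 1) := h ▸ fun x y => by rw [sq, End.mul_apply, End.mul_apply, hf, hf]
  rw [h, eq_one_of_mul_self_two h2 (mul_eq_one_of_inv_smul hB h1), one_smul]

omit [FiniteDimensional F V] in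
theorem exists_st_line_iff (h2 : (2 : F) = 0) (hf : QInv Q f) :
    (∃ W : Submodule F V, (finrank F W = 1 ∧ ∃ v ∈ W, Q v ≠ 0) ∧ St f W) ↔
      ∃ v, Q v ≠ 0 ∧ f v = v := by
  constructor
  · rintro ⟨W, ⟨h1, v, hv, h3⟩, h4⟩
    have h5 : v ≠ 0 := by rintro rfl; simp at h3
    obtain ⟨c, hc⟩ := (finrank_eq_one_iff_of_nonzero' (⟨v, hv⟩ : W) (by simpa using h5)).1 h1
      ⟨f v, h4 v hv⟩
    have h6 : f v = c • v := by simpa using congrArg Subtype.val hc.symm
    have h7 := hf v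
    rw [h6, QuadraticMap.map_smul, smul_eq_mul, mul_left_eq_self₀] at h7
    exact ⟨v, h3, by rw [h6, eq_one_of_mul_self_two h2 (h7.resolve_right h3), one_smul]⟩
  · rintro ⟨v, h1, h3⟩
    have h5 : v ≠ 0 := by rintro rfl; simp at h1
    refine ⟨F ∙ v, ⟨finrank_span_singleton h5, v, Submodule.mem_span_singleton_self v, h1⟩,
      fun w hw => ?_⟩
    obtain ⟨c, rfl⟩ := Submodule.mem_span_singleton.1 hw
    rwa [map_smul, h3]

variable [Finite F]

theorem o_pl_char_two (h2 : (2 : F) = 0) (hQ : Q.polarBilin.Nondegenerate) (hE : ¬ H56.IsExc Q)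
    (hd : finrank F V = 2 * d) (hd3 : 3 ≤ d) (hm : Even m) (hmn : m + 2 ≤ 2 * d) :
    (∀ f, InOm Q f → (∃ z : F, f ^ 2 = z • 1) → (∀ z : F, f ≠ z • 1) →
      ∃ W : Submodule F V, (finrank F W = m ∧ ND Q.polarBilin W ∧ Pl Q W) ∧ St f W) ↔
      (m % 4 = 0 ∨ (IsPlus Q ↔ Odd d)) := by
  have : CharP F 2 := CharTwo.of_one_ne_zero_of_two_eq_zero one_ne_zero h2
  have : Nontrivial V := Module.nontrivial_of_finrank_pos (R := F) (by omega)
  refine ⟨fun H => ?_, fun H f hf ⟨z, hz⟩ _ => exists_pl_of_invol_two h2 hQ hf.qinv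
    (sq_eq_one_of_char_two (isSF_polar hQ) h2 hf.qinv.inv hz)
    ((inOm_iff_of_char_two h2 hQ hE hf.qinv).1 hf) hd hm hmn H⟩
  by_contra h
  rw [not_or, Nat.odd_iff] at h
  obtain ⟨W, ⟨h1, h3, h4⟩, a, b, h5, ⟨h6, -⟩, h7, h8⟩ := AllFix.atype 2
    (fun f h1 h3 h4 => H f h1 ⟨1, by rw [h3, one_smul]⟩ h4) hQ hE (fun W h => h.2.1) (k := d / 2)
    (by omega) (by omega) fun h1 => by_contra fun h3 => h.2 (iff_of_false h3 (by omega))
  have h9 := (isSF_polar hQ).finrank_add_finrank_perp W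
  have h10 := isPlus_iff_perp hQ h3 (h1 ▸ hm) (hd ▸ even_two_mul d)
  rw [Nat.even_iff] at hm
  by_cases h11 : d % 2 = 1
  · exact h.2 (iff_of_true (h10.2 (iff_of_true h4 (h8 (by omega)))) h11)
  · omega

theorem o_npl_char_two (h2 : (2 : F) = 0) (hQ : Q.polarBilin.Nondegenerate) (hE : ¬ H56.IsExc Q)
    (hP : ¬ IsPlus Q) (hd : finrank F V = 2 * d) (hd3 : 3 ≤ d) (hm : Even m) (h0 : 2 ≤ m)
    (hmn : m ≤ 2 * d) :
    (∀ f, InOm Q f → (∃ z : F, f ^ 2 = z • 1) → (∀ z : F, f ≠ z • 1) →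
      ∃ W : Submodule F V, (finrank F W = m ∧ ND Q.polarBilin W ∧ ¬ Pl Q W) ∧ St f W) ↔
      (Even d ∨ m % 4 = 2) := by
  have hB := isSF_polar hQ
  have h1 : Even (2 * d - m) := by rw [Nat.even_iff] at hm ⊢; omega
  have key : ∀ {k l : ℕ} {η : Prop} f, k + l = 2 * d → Even k → InOm Q f →
      (∃ W : Submodule F V, (finrank F W = k ∧ ND Q.polarBilin W ∧ (Pl Q W ↔ η)) ∧ St f W) →
      ∃ W : Submodule F V, (finrank F W = l ∧ ND Q.polarBilin W ∧ (Pl Q W ↔ ¬ η)) ∧ St f W := by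
    rintro k l η f h3 h4 hf ⟨W, ⟨h5, h6, h7⟩, h8⟩
    have h9 := hB.finrank_add_finrank_perp W
    have h10 := isPlus_iff_perp hQ h6 (h5 ▸ h4) (hd ▸ even_two_mul d)
    exact ⟨_, ⟨by omega, hB.disjoint_perp h6, by clear * - h7 h10 hP; tauto⟩,
      hf.qinv.inv.perp_mapsTo hB h8⟩
  refine Iff.trans ?_ ((o_pl_char_two h2 hQ hE hd hd3 h1 (by omega)).trans ?_)
  · refine forall₂_congr fun f hf => imp_congr_right fun _ => imp_congr_right fun _ => ?_
    exact ⟨fun h => by simpa using key (η := False) f (by omega) hm hf (by simpa using h),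
      fun h => by simpa using key (η := True) f (by omega) h1 hf (by simpa using h)⟩
  · simp only [hP, false_iff, Nat.odd_iff, Nat.even_iff] at hm ⊢
    omega

theorem nonsing_char_two (h2 : (2 : F) = 0) (hQ : Q.polarBilin.Nondegenerate)
    (hE : ¬ H56.IsExc Q) (hd : finrank F V = 2 * d) (h0 : 0 < d) :
    (∀ f, InOm Q f → (∃ z : F, f ^ 2 = z • 1) → (∀ z : F, f ≠ z • 1) →
      ∃ W : Submodule F V, (finrank F W = 1 ∧ ∃ v ∈ W, Q v ≠ 0) ∧ St f W) ↔
      (IsPlus Q → Odd d) := by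
  have : CharP F 2 := CharTwo.of_one_ne_zero_of_two_eq_zero one_ne_zero h2
  have : Nontrivial V := Module.nontrivial_of_finrank_pos (R := F) (by omega)
  have hB := isSF_polar hQ
  have key : ∀ f : End F V, f ^ 2 = 1 → LinearMap.range (f - 1) ≤ LinearMap.ker (f - 1) :=
    fun f h => LinearMap.range_le_ker_iff.2 ((sq (f - 1)).symm.trans (sub_one_sq_of_char_two h2 h))
  refine ⟨fun H hP => ?_, fun H f hf ⟨z, hz⟩ _ => (exists_st_line_iff h2 hf.qinv).2 ?_⟩
  · by_contra h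
    rw [Nat.odd_iff] at h
    obtain ⟨f, h1, h3, h4, h5, h6⟩ := exists_inOm_atype 2 hQ hE (k := d / 2) (by omega) (by omega)
      fun _ => hP
    obtain ⟨v, h7, h8⟩ := (exists_st_line_iff h2 h1.qinv).1 (H f h1 ⟨1, by rw [h3, one_smul]⟩ h4)
    have h9 := LinearMap.finrank_range_add_finrank_ker (f - 1)
    rw [Submodule.eq_of_le_of_finrank_le (key f h3) (by omega)] at h5
    exact h7 (h5 v (by simp [h8]))
  · by_contra! h
    have h1 : TS Q (LinearMap.ker (f - 1)) := fun v hv => by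
      by_contra h1
      exact h v h1 (by simpa [sub_eq_zero] using hv)
    have h3 := Submodule.finrank_mono (key f (sq_eq_one_of_char_two hB h2 hf.qinv.inv hz))
    have h4 := h1.ti.two_mul_le hB
    have h5 := LinearMap.finrank_range_add_finrank_ker (f - 1)
    have h6 := Nat.even_iff.1 ((inOm_iff_of_char_two h2 hQ hE hf.qinv).1 hf)
    have h7 := Nat.odd_iff.1 (H (pl_top.1 (pl_iff.2 ⟨_, le_top, by simp; omega, h1⟩)))
    omega

theorem card_nonsing (hQ : Q.polarBilin.Nondegenerate) (hd : finrank F V = 2 * (d + 1)) :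
    Nat.card {W : Submodule F V // finrank F W = 1 ∧ ∃ v ∈ W, Q v ≠ 0} =
      Nat.card F ^ d * sg (Nat.card F) (d + 1) (IsPlus Q) := by
  classical
  have : Finite V := Module.finite_of_finite F
  have h1 := card_sub_mul (fun W : Submodule F V => ∀ w ∈ W, w ≠ 0 → Q w ≠ 0)
    (fun U W h h' w hw => h' w (h hw)) (by simp) (fun _ => Nat.card {v // Q v ≠ 0}) 1
    fun j hj U h _ => by
      obtain rfl : U = ⊥ := Submodule.finrank_eq_zero.1 (by omega)
      refine Nat.card_congr (Equiv.subtypeEquivRight fun v => ⟨fun ⟨h1, h2⟩ =>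
        h2 v (by simp) (by simpa using h1), fun h1 => ⟨by rintro rfl; simp at h1, fun w hw h0 => ?_⟩⟩)
      obtain ⟨c, rfl⟩ := Submodule.mem_span_singleton.1 (by simpa using hw)
      simpa [QuadraticMap.map_smul, h1] using left_ne_zero_of_smul h0
  have h2 : Nat.card {W : Submodule F V // finrank F W = 1 ∧ ∃ v ∈ W, Q v ≠ 0} =
      Nat.card {W : Submodule F V // finrank F W = 1 ∧ ∀ w ∈ W, w ≠ 0 → Q w ≠ 0} := by
    refine Nat.card_congr (Equiv.subtypeEquivRight fun W => and_congr_right fun h => ⟨?_, fun h' => ?_⟩)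
    · rintro ⟨v, hv, h3⟩ w hw h0
      obtain ⟨c, hc⟩ := (finrank_eq_one_iff_of_nonzero' (⟨w, hw⟩ : W) (by simpa using h0)).1 h ⟨v, hv⟩
      obtain rfl : c • w = v := congrArg Subtype.val hc
      exact fun h4 => h3 (by simp [QuadraticMap.map_smul, h4])
    · obtain ⟨v, hv, h3⟩ := Submodule.exists_mem_ne_zero_of_ne_bot (p := W) (by
        rintro rfl; simp at h)
      exact ⟨v, hv, h' v hv h3⟩
  have h3 : Nat.card {v // Q v ≠ 0} + (Nat.card {v // v ≠ 0 ∧ Q v = 0} + 1) = Nat.card V := by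
    have := Fintype.ofFinite V
    simp only [Nat.card_eq_fintype_card, Fintype.card_subtype]
    rw [← Finset.card_insert_of_notMem (a := 0) (by simp), ← Finset.card_union_of_disjoint
      (Finset.disjoint_left.2 fun v h1 h2 => by
        rcases Finset.mem_insert.1 h2 with rfl | h2 <;> simp_all), ← Finset.card_univ]
    congr 1
    ext v
    by_cases h : v = 0 <;> simp [h, em']
  rw [card_sing hQ, Module.natCard_eq_pow_finrank (K := F) (V := V), hd] at h3
  have h4 : 1 < Nat.card F := Finite.one_lt_card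
  rw [← h2, Finset.prod_range_one, glo, Finset.prod_range_one, pow_one, pow_zero] at h1
  refine Nat.eq_of_mul_eq_mul_right (m := Nat.card F - 1) (by omega) (h1.trans ?_)
  generalize Nat.card F = q at *
  have h5 : ∀ k, 1 ≤ q ^ k := fun k => Nat.one_le_pow _ _ (by omega)
  simp only [numSing, sg, Nat.mul_mod_right, Nat.mul_div_cancel_left _ two_pos, zero_ne_one,
    if_false, Nat.add_sub_cancel] at h3 ⊢
  split_ifs at h3 ⊢ <;> zify [h5, h4.le] at h3 ⊢ <;> linear_combination h3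

theorem nonsing_odd (h2 : (2 : F) = 0) (hQ : Q.polarBilin.Nondegenerate) (hr : r.Prime)
    (hr2 : r ≠ 2) (hd : finrank F V = 2 * (d + 1))
    (h : r ∣ Nat.card {W : Submodule F V // finrank F W = 1 ∧ ∃ v ∈ W, Q v ≠ 0}) :
    ¬ ∀ f, QInv Q f → f ^ r = 1 → f ≠ 1 →
      ∃ W : Submodule F V, (finrank F W = 1 ∧ ∃ v ∈ W, Q v ≠ 0) ∧ St f W := by
  classical
  intro H
  have : CharP F 2 := CharTwo.of_one_ne_zero_of_two_eq_zero one_ne_zero h2
  have h0 := natCast_ne_zero_of_prime_ne (F := F) 2 hr hr2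
  rw [card_nonsing hQ hd] at h
  obtain ⟨a, h1, h3, h4⟩ := blk_of_dvd_sg Nat.card_pos hr hr2 rfl (orderOf_card_pos h0) d.succ_pos
    ((hr.dvd_mul.1 h).resolve_left fun h => not_dvd_card_of_ne_zero hr h0 (hr.dvd_of_dvd_pow h))
  obtain ⟨s, h5, h6, h7⟩ := (dich_id hr hr2 h0).blk_exists a
  obtain ⟨f, h8, h9⟩ := (exists_qinv_blk_iff hQ hr hr2 h0 (N := 0) h5 h6 rfl h7
    (by rw [h7, blk_mul rfl, h3, hd, add_zero])).1 fun _ => h4
  obtain ⟨v, h10, h11⟩ := (exists_st_line_iff h2 h8).1 (H f h8 (pow_eq_one_of_ed h0 h5 h9)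
    ((ne_one_iff_of_ed hr.ne_one h0 h5 h9).2 (by
      rintro rfl
      simp only [Multiset.card_zero] at h7
      split_ifs at h7 <;> omega)))
  refine h10 ?_
  rw [eq_zero_of_edOn_coprime (st_top f) (c := 1) (fun P hP => by
    simpa using isCoprime_sub_one_of_mem_cycF hr.ne_one h0 (h5 P (by simpa [edOn_top, h9] using hP)))
    v trivial (by rw [h11, one_smul]), map_zero]

end H58
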