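import Cfsg.Agent.H58.ElSpU

/-!
Direct sum decompositions whose summands are permuted by an endomorphism.
-/

open Polynomial Module
open scoped Pointwise

namespace H58

open H53
open H59 (perp mem_perp)

variable {F : Type*} [Field F] {σ : F →+* F} {ε : F}
variable {V : Type*} [AddCommGroup V] [Module F V]
variable {B : V →ₛₗ[σ] V →ₗ[F] F} {f : End F V} {U W A E E' : Submodule F V} {P : F[X]}
variable {Φ : Submodule F V → Prop} {a t t' r k : ℕ} {c : F}

/-- elementary divisors of the cyclic module `F[X] / P` -/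
noncomputable def reg (P : F[X]) : Multiset F[X] :=
  open Classical in if h : P = 0 then 0 else haveI := finite_adjoinRoot h; ed (cyc P)

theorem reg_eq (h : P ≠ 0) : reg P = (haveI := finite_adjoinRoot h; ed (cyc P)) := dif_neg h

theorem reg_of_isPP (h : IsPP P) : reg P = {P} := by
  have := finite_adjoinRoot h.ne_zero
  rw [reg_eq h.ne_zero, ed_eq_singleton_of_sim_cyc h (Sim.refl _)]

theorem reg_cyc (hr : r.Prime) (h0 : (r : F) ≠ 0) :
    reg (X ^ r - C 1 : F[X]) = (cycF F r).val + {X - 1} := by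
  have hm : (X ^ r - C 1 : F[X]).Monic := monic_X_pow_sub_C _ hr.ne_zero
  have := finite_adjoinRoot hm.ne_zero
  have := Fact.mk hr
  have h1 : cyc (X ^ r - C 1 : F[X]) ^ r = (1 : F) • 1 := by
    have := (aeval_cyc_eq_zero_iff (X ^ r - C 1 : F[X]) _).2 dvd_rfl
    simpa [sub_eq_zero] using this
  rw [reg_eq hm.ne_zero]
  refine multiset_eq_of_prod_eq (fun P hP => ⟨(ed_isPP _ P hP).monic,
    irreducible_of_ss (isSemisimple_of_pow h0 one_ne_zero h1) P hP⟩) (fun P hP => ?_) ?_
  · rcases Multiset.mem_add.1 hP with h | h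
    · exact ⟨((mem_cycF h0).1 h).1, ((mem_cycF h0).1 h).2.1⟩
    · rw [Multiset.mem_singleton.1 h]
      exact ⟨monic_X_sub_one, irreducible_X_sub_one⟩
  · rw [← charpoly_eq_prod_ed, charpoly_cyc hm, Multiset.prod_add, Multiset.prod_singleton,
      show (cycF F r).val.prod = _ from (Finset.prod_val _).trans (prod_cycF h0),
      cyclotomic_prime_mul_X_sub_one, C_1]

theorem exists_ev (hP : P.Monic) (h0 : aeval f P = 0) (v : V) :
    ∃ e : AdjoinRoot P →ₗ[F] V, ∀ p, e (AdjoinRoot.mk P p) = aeval f p v :=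
  ⟨(LinearMap.applyₗ v ∘ₗ (aeval f).toLinearMap) ∘ₗ AdjoinRoot.modByMonicHom hP, fun p => by
    conv_rhs => rw [← modByMonic_add_div p P, mul_comm]
    simp [h0]⟩

theorem map_pow_succ (i : ℕ) : (A.map (f ^ i)).map f = A.map (f ^ (i + 1)) := by
  rw [pow_succ', End.mul_eq_comp, Submodule.map_comp]

theorem map_pow_eq (h : f ^ r = c • 1) (hc : c ≠ 0) : A.map (f ^ r) = A := by
  rw [h, Submodule.map_smul _ _ _ hc, End.one_eq_id, Submodule.map_id]

theorem injective_of_pow (hr : r ≠ 0) (h : f ^ r = c • 1) (hc : c ≠ 0) : Function.Injective f :=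
  End.injective_of_iterate_injective hr (h ▸ fun x y e => by simpa [hc] using e)

theorem factorial_dvd_card {α : Type*} (Ψ : (Fin t → α) → Prop)
    (h1 : ∀ D, Ψ D → Function.Injective D) (h2 : ∀ D (s : Equiv.Perm (Fin t)), Ψ D → Ψ (D ∘ s)) :
    t.factorial ∣ Nat.card {D // Ψ D} := by
  let _ : MulAction (Equiv.Perm (Fin t)) {D // Ψ D} :=
    { smul := fun s D => ⟨D.1 ∘ ⇑s⁻¹, h2 _ _ D.2⟩, one_smul := fun _ => rfl,
      mul_smul := fun _ _ _ => rfl }
  rw [Nat.card_congr (MulAction.selfEquivOrbitsQuotientProd (G := Equiv.Perm (Fin t)) fun D =>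
    eq_bot_iff.2 fun s hs => inv_eq_one.1 (Equiv.ext fun j =>
      h1 _ D.2 (congrFun (congrArg Subtype.val hs) j))), Nat.card_prod, Nat.card_perm, Nat.card_fin]
  exact dvd_mul_left _ _

theorem exists_equiv_of_indep {ι : Type*} {D D' : ι → Submodule F V} (h1 : iSupIndep D)
    (h2 : iSup D = ⊤) (h1' : iSupIndep D') (h2' : iSup D' = ⊤) (e : ∀ j, D j ≃ₗ[F] D' j) :
    ∃ g : V ≃ₗ[F] V, ∀ j (v : D j), g v = e j v := by
  classical
  let φ := LinearEquiv.ofBijective (DirectSum.coeLinearMap D)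
    (DirectSum.isInternal_submodule_of_iSupIndep_of_iSup_eq_top h1 h2)
  let φ' := LinearEquiv.ofBijective (DirectSum.coeLinearMap D')
    (DirectSum.isInternal_submodule_of_iSupIndep_of_iSup_eq_top h1' h2')
  refine ⟨φ.symm ≪≫ₗ DFinsupp.mapRange.linearEquiv e ≪≫ₗ φ', fun j v => ?_⟩
  have h : φ.symm v = DirectSum.of _ j v := φ.symm_apply_eq.2 (DirectSum.coeLinearMap_of D j v).symm
  rw [LinearEquiv.trans_apply, LinearEquiv.trans_apply, h, ← DirectSum.coeLinearMap_of D' j]
  exact congrArg φ' (DFinsupp.mapRange_single (hf := fun i => (e i).map_zero))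

/-- decompositions of the whole space into subspaces of dimension `a` -/
structure MDec (B : V →ₛₗ[σ] V →ₗ[F] F) (Φ : Submodule F V → Prop) (a : ℕ) {ι : Type*}
    (D : ι → Submodule F V) : Prop where
  dim : ∀ j, finrank F (D j) = a
  indep : iSupIndep D
  top : iSup D = ⊤
  prop : ∀ j, Φ (D j)
  orth : ∀ j k, j ≠ k → ∀ u ∈ D j, ∀ v ∈ D k, B u v = 0

theorem MDec.injective {ι : Type*} {D : ι → Submodule F V} (h : MDec B Φ a D) (ha : 0 < a) :
    Function.Injective D :=
  h.indep.injective fun j e => by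
    have := h.dim j
    rw [e, finrank_bot] at this
    omega

theorem card_mdec_dvd (hΦ : ∀ U W : Submodule F V, Φ U → Φ W → finrank F U = finrank F W →
      ∃ e : U ≃ₗ[F] W, ∀ x y, B (e x) (e y) = B x y)
    (hΦ' : ∀ g ∈ H59.isom B, ∀ U, Φ U → Φ (g • U)) {D : Fin t → Submodule F V}
    (h : MDec B Φ a D) :
    Nat.card {D : Fin t → Submodule F V // MDec B Φ a D} ∣ Nat.card (H59.isom B) := by
  refine Dvd.intro _ (H54.card_eq_card_mul_card_of_orbit _ (_ ⊓ MulAction.stabilizer _ D) D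
    {D | MDec B Φ a D} (fun D' => ⟨fun h' => ?_, ?_⟩) fun _ => Iff.rfl).symm
  · choose e he using fun j => hΦ _ _ (h.prop j) (h'.prop j) ((h.dim j).trans (h'.dim j).symm)
    obtain ⟨g, hg⟩ := exists_equiv_of_indep h.indep h.top h'.indep h'.top e
    refine ⟨g, fun x y => ?_, funext fun j => smul_eq_of_equiv g (e j) (hg j)⟩
    refine Submodule.iSup_induction D (motive := fun x => B (g x) (g y) = B x y)
      (h.top.ge trivial) (fun j x hx => ?_) (by simp) fun a b ha hb => by simp [ha, hb]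
    refine Submodule.iSup_induction D (motive := fun y => B (g x) (g y) = B x y)
      (h.top.ge trivial) (fun k y hy => ?_) (by simp) fun a b ha hb => by simp [ha, hb]
    rw [hg j ⟨x, hx⟩, hg k ⟨y, hy⟩]
    by_cases e1 : j = k
    · subst e1
      exact he j _ _
    · rw [h'.orth j k e1 _ (e j _).2 _ (e k _).2, h.orth j k e1 x hx y hy]
  · rintro ⟨g, hg, rfl⟩
    refine ⟨fun j => (finrank_smul_sub g _).trans (h.dim j),
      h.indep.map_orderIso (Submodule.orderIsoMapComap g), ?_, fun j => hΦ' g hg _ (h.prop j), ?_⟩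
    · exact (Submodule.map_iSup (g : V →ₗ[F] V) D).symm.trans (by simp [h.top])
    · rintro j k e _ ⟨u, hu, rfl⟩ _ ⟨v, hv, rfl⟩
      exact (hg u v).trans (h.orth j k e u hu v hv)

/-- `E` is a sum of `t` mutually perpendicular subspaces of dimension `a` permuted by `f` -/
def Dec (B : V →ₛₗ[σ] V →ₗ[F] F) (Φ : Submodule F V → Prop) (f : End F V) (a t : ℕ)
    (E : Submodule F V) : Prop :=
  ∃ (ι : Type) (_ : Fintype ι) (D : ι → Submodule F V), Fintype.card ι = t ∧ iSup D = E ∧
    (∀ j, finrank F (D j) = a ∧ Φ (D j) ∧ ∃ k, (D j).map f = D k) ∧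
    ∀ j k, j ≠ k → D k ≤ perp B (D j)

theorem Dec.zero : Dec B Φ f a 0 ⊥ :=
  ⟨Empty, inferInstance, Empty.elim, rfl, iSup_of_empty _, fun j => j.elim, fun j => j.elim⟩

theorem perp_mono' (h : U ≤ W) : perp B W ≤ perp B U := fun _ hv x hx => hv x (h hx)

theorem Dec.add (h : Dec B Φ f a t E) (h' : Dec B Φ f a t' E') (h1 : E' ≤ perp B E)
    (h2 : E ≤ perp B E') : Dec B Φ f a (t + t') (E ⊔ E') := by
  obtain ⟨ι, _, D, rfl, rfl, h3, h4⟩ := h
  obtain ⟨κ, _, D', rfl, rfl, h3', h4'⟩ := h'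
  refine ⟨ι ⊕ κ, inferInstance, Sum.elim D D', Fintype.card_sum, iSup_sum, ?_, ?_⟩
  · rintro (j | j)
    · exact (h3 j).imp_right (.imp_right fun ⟨k, e⟩ => ⟨.inl k, e⟩)
    · exact (h3' j).imp_right (.imp_right fun ⟨k, e⟩ => ⟨.inr k, e⟩)
  · rintro (j | j) (k | k) e
    · exact h4 j k fun e' => e (e' ▸ rfl)
    · exact (le_iSup D' k).trans (h1.trans (perp_mono' (le_iSup D j)))
    · exact (le_iSup D k).trans (h2.trans (perp_mono' (le_iSup D' j)))
    · exact h4' j k fun e' => e (e' ▸ rfl)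

theorem Dec.smul (h : Dec B Φ (c • f) a t E) (hc : c ≠ 0) : Dec B Φ f a t E := by
  simpa only [Dec, Submodule.map_smul _ _ _ hc] using h

theorem finrank_map_of_inj (hf : Function.Injective f) : finrank F (A.map f) = finrank F A :=
  (Submodule.equivMapOfInjective f hf A).finrank_eq.symm

theorem Dec.cycle (hr : r ≠ 0) (h : f ^ r = c • 1) (hc : c ≠ 0) (hA : finrank F A = a)
    (h1 : ∀ i < r, Φ (A.map (f ^ i)))
    (h2 : ∀ i < r, ∀ j < r, i ≠ j → A.map (f ^ j) ≤ perp B (A.map (f ^ i))) :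
    Dec B Φ f a r (⨆ i : Fin r, A.map (f ^ i.1)) := by
  refine ⟨Fin r, inferInstance, _, Fintype.card_fin r, rfl, fun i => ⟨(finrank_map_of_inj
    (End.iterate_injective (injective_of_pow hr h hc) _)).trans hA, h1 i i.2, ?_⟩,
    fun i j e => h2 i i.2 j j.2 fun e' => e (Fin.ext e')⟩
  rw [map_pow_succ]
  by_cases e : i + 1 < r
  · exact ⟨⟨_, e⟩, rfl⟩
  · exact ⟨⟨0, Nat.pos_of_ne_zero hr⟩, by
      rw [show i + 1 = r by omega, map_pow_eq h hc, pow_zero, End.one_eq_id, Submodule.map_id]⟩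

variable [FiniteDimensional F V]

theorem St.map_eq (h : St f U) (hf : Function.Injective f) : U.map f = U :=
  Submodule.eq_of_le_of_finrank_eq (st_iff_map.1 h) (finrank_map_of_inj hf)

theorem Dec.single (hf : Function.Injective f) (h : St f U) (ha : finrank F U = a) (h1 : Φ U) :
    Dec B Φ f a 1 U :=
  ⟨Unit, inferInstance, fun _ => U, rfl, iSup_const, fun _ => ⟨ha, h1, (), h.map_eq hf⟩,
    fun _ _ e => (e rfl).elim⟩

theorem Dec.exists_mdec (h : Dec B Φ f a t ⊤) (hf : Function.Injective f) (ha : 0 < a)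
    (hn : finrank F V = a * t) : ∃ D : Fin t → Submodule F V, MDec B Φ a D ∧
      ∃ s : Equiv.Perm (Fin t), ∀ j, (D j).map f = D (s j) := by
  classical
  obtain ⟨ι, _, D, rfl, h1, h2, h3⟩ := h
  have h4 := (DirectSum.range_coeLinearMap (A := D)).trans h1
  have h5 : iSupIndep D := DirectSum.IsInternal.submodule_iSupIndep ⟨
    (LinearMap.injective_iff_surjective_of_finrank_eq_finrank (f := DirectSum.coeLinearMap D) (by
      simp [fun j => (h2 j).1, hn, mul_comm])).2 (LinearMap.range_eq_top.1 h4),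
    LinearMap.range_eq_top.1 h4⟩
  have hD : MDec B Φ a D := ⟨fun j => (h2 j).1, h5, h1, fun j => (h2 j).2.1,
    fun j k e u hu v hv => h3 j k e hv u hu⟩
  choose s hs using fun j => (h2 j).2.2
  have h6 : Function.Injective s := fun j k e => hD.injective ha
    (Submodule.map_injective_of_injective hf (by rw [hs, hs, e]))
  let e := (Fintype.equivFin ι).symm
  refine ⟨D ∘ e, ⟨fun j => hD.dim _, h5.comp e.injective, e.iSup_comp.trans h1, fun j => hD.prop _,
    fun j k h => hD.orth _ _ (e.injective.ne h)⟩,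
    e.symm.permCongr (Equiv.ofBijective s (Finite.injective_iff_bijective.1 h6)), fun j => ?_⟩
  simp [hs]

theorem edOn_free {κ : Type*} [Fintype κ] (hP : P.Monic) (h0 : aeval f P = 0) (g : κ → V)
    (hU : St f U) (hg : ∀ k, g k ∈ U) (hs : ∀ W, St f W → (∀ k, g k ∈ W) → U ≤ W)
    (hd : finrank F U = Fintype.card κ * P.natDegree) : edOn f U = Fintype.card κ • reg P := by
  classical
  have := finite_adjoinRoot hP.ne_zero
  choose e he using fun k => exists_ev hP h0 (g k)
  let φ : (κ → AdjoinRoot P) →ₗ[F] V := ∑ k, e k ∘ₗ LinearMap.proj k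
  have h1 : ∀ x, φ x = ∑ k, e k (x k) := fun x => by simp [φ]
  have h2 : ∀ x, φ (model (fun _ => P) x) = f (φ x) := fun x => by
    rw [h1, h1, map_sum]
    refine Finset.sum_congr rfl fun k _ => ?_
    obtain ⟨p, hp⟩ := AdjoinRoot.mk_surjective (x k)
    rw [piEnd_apply, cyc_apply, ← hp, ← AdjoinRoot.mk_X, ← map_mul, he, he]
    simp
  have h3 : LinearMap.range φ = U := le_antisymm (by
    rintro _ ⟨x, rfl⟩
    rw [h1]
    refine sum_mem fun k _ => ?_
    obtain ⟨p, hp⟩ := AdjoinRoot.mk_surjective (x k)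
    exact hp ▸ he k p ▸ hU.aeval p _ (hg k)) (hs _ (by
      rintro _ ⟨x, rfl⟩
      exact ⟨_, h2 x⟩) fun k => ⟨Pi.single k 1, by
        rw [h1, Finset.sum_eq_single k (fun j _ e => by simp [e]) (by simp), Pi.single_eq_same,
          ← map_one (AdjoinRoot.mk P), he]
        simp⟩)
  have h4 := φ.finrank_range_add_finrank_ker
  rw [h3, hd, finrank_pi_fintype, Finset.sum_const, finrank_adjoinRoot hP.ne_zero, smul_eq_mul,
    Finset.card_univ, add_eq_left, Submodule.finrank_eq_zero, LinearMap.ker_eq_bot] at h4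
  rw [← h3, edOn_range φ h4 h2, ed_piEnd, reg_eq hP.ne_zero, Finset.sum_const, Finset.card_univ]

theorem exists_cycle (hP : P.Monic) (h0 : 0 < P.natDegree) (hU : St f U)
    (h : edOn f U = a • reg P) :
    ∃ A : Submodule F V, finrank F A = a ∧ ⨆ i : Fin P.natDegree, A.map (f ^ i.1) = U := by
  classical
  have := finite_adjoinRoot hP.ne_zero
  have : Nontrivial (AdjoinRoot P) :=
    nontrivial_of_finrank_pos (R := F) (by rwa [finrank_adjoinRoot hP.ne_zero])
  obtain ⟨e, he⟩ : Sim (model fun _ : Fin a => P) (f.restrict hU) := sim_of_ed_eq (by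
    rw [ed_piEnd, ← edOn_eq, h, reg_eq hP.ne_zero, Finset.sum_const, Finset.card_fin])
  let φ := U.subtype ∘ₗ e.toLinearMap
  let ψ := φ ∘ₗ (Algebra.linearMap F (AdjoinRoot P)).compLeft (Fin a)
  have hψ : Function.Injective ψ := U.injective_subtype.comp
    (e.injective.comp (Function.Injective.comp_left (algebraMap F (AdjoinRoot P)).injective))
  refine ⟨LinearMap.range ψ, (LinearMap.finrank_range_of_inj hψ).trans (finrank_fin_fun F),
    le_antisymm (iSup_le fun i => ?_) fun v hv => ?_⟩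
  · rintro _ ⟨_, ⟨x, rfl⟩, rfl⟩
    exact hU.pow i _ (e _).2
  · have h1 := (Submodule.eq_top_iff_forall_basis_mem
      (Pi.basis fun _ : Fin a => (AdjoinRoot.powerBasis' hP).basis)
      (p := (⨆ i : Fin P.natDegree, (LinearMap.range ψ).map (f ^ i.1)).comap φ)).2 fun ⟨k, i⟩ =>
        Submodule.mem_iSup_of_mem i ⟨_, ⟨Pi.single k 1, rfl⟩, by
          rw [LinearMap.comp_apply, ← intertwine_pow φ fun v => congrArg Subtype.val (he v)]
          congr 1
          funext j
          rw [← aeval_X_pow (R := F), aeval_piEnd, piEnd_apply, aeval_cyc_apply]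
          by_cases e : j = k <;> simp [e]⟩
    simpa [φ] using h1.ge (Submodule.mem_top (x := e.symm ⟨v, hv⟩))

theorem edOn_biSup' {ι : Type*} {D : ι → Submodule F V} (hi : iSupIndep D) (S : Finset ι)
    (hA : ∀ i ∈ S, St f (D i)) :
    St f (⨆ i ∈ S, D i) ∧ edOn f (⨆ i ∈ S, D i) = ∑ i ∈ S, edOn f (D i) := by
  simpa only [Finset.mem_univ, iSup_true, iSup_subtype, Finset.sum_coe_sort S fun i => edOn f (D i)]
    using edOn_biSup (fun i : S => hA i i.2) (hi.comp Subtype.val_injective) Finset.univ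

omit [FiniteDimensional F V] in
theorem dg_sum {ι : Type*} (S : Finset ι) (s : ι → Multiset F[X]) :
    dgs (∑ i ∈ S, s i) = ∑ i ∈ S, dgs (s i) := by
  classical
  induction S using Finset.induction_on with
  | empty => rfl
  | insert i S hi ih => rw [Finset.sum_insert hi, Finset.sum_insert hi, dg_add, ih]

theorem finrank_biSup {ι : Type*} {D : ι → Submodule F V} (hi : iSupIndep D) (S : Finset ι)
    (ha : ∀ j, finrank F (D j) = a) : finrank F ↥(⨆ i ∈ S, D i) = S.card * a := by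
  have h : ∀ W : Submodule F V, St 1 W := fun _ _ => id
  rw [← dg_edOn (h _), (edOn_biSup (fun _ => h _) hi S).2, dg_sum]
  simp [dg_edOn (h _), ha]

omit [FiniteDimensional F V] in
theorem map_pow_perm {ι : Type*} {D : ι → Submodule F V} {s : Equiv.Perm ι}
    (hs : ∀ j, (D j).map f = D (s j)) (i : ℕ) (j : ι) : (D j).map (f ^ i) = D ((s ^ i) j) := by
  induction i with
  | zero => simp [End.one_eq_id]
  | succ i ih => rw [← map_pow_succ, ih, hs, pow_succ', Equiv.Perm.mul_apply]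

omit [FiniteDimensional F V] in
theorem le_of_basis {κ : Type*} (b : Basis κ F U) (h : ∀ k, (b k : V) ∈ W) : U ≤ W := fun v hv =>
  ((Submodule.eq_top_iff_forall_basis_mem b (p := W.comap U.subtype)).2 h).ge
    (Submodule.mem_top (x := ⟨v, hv⟩))

omit [FiniteDimensional F V] in
theorem isCompl_biSup {ι : Type*} [Fintype ι] [DecidableEq ι] {D : ι → Submodule F V}
    (h1 : iSupIndep D) (h2 : iSup D = ⊤) (S : Finset ι) :
    IsCompl (⨆ j ∈ S, D j) (⨆ j ∈ Sᶜ, D j) := by
  refine ⟨?_, codisjoint_iff.2 ?_⟩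
  · have := h1.disjoint_biSup_biSup (s := (S : Set ι)) (t := (Sᶜ : Finset ι))
      (Finset.disjoint_coe.2 disjoint_compl_right)
    simpa only [Finset.mem_coe] using this
  · rw [← Finset.iSup_union, Finset.union_compl, ← h2]
    simp only [Finset.mem_univ, iSup_true]

theorem edOn_support {ι : Type*} [Fintype ι] [DecidableEq ι] {D : ι → Submodule F V}
    (hi : iSupIndep D) (hd : ∀ j, finrank F (D j) = a) (hr : r ≠ 0) (h : f ^ r = c • 1)
    {s : Equiv.Perm ι} (hs : ∀ j, (D j).map f = D (s j)) (h4 : St f (⨆ j ∈ s.support, D j))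
    (h2 : s.cycleFactorsFinset.card * r = s.support.card) :
    edOn f (⨆ j ∈ s.support, D j) = (s.cycleFactorsFinset.card * a) • reg (X ^ r - C c) := by
  choose x hx using fun c : s.cycleFactorsFinset =>
    (Equiv.Perm.mem_cycleFactorsFinset_iff.1 c.2).1.nonempty_support
  let b := fun j => finBasisOfFinrankEq F (D j) (hd j)
  have h3 : ∀ p : s.cycleFactorsFinset × Fin a, (b (x p.1) p.2 : V) ∈ ⨆ j ∈ s.support, D j :=
    fun p => Submodule.mem_iSup_of_mem (x p.1) (Submodule.mem_iSup_of_mem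
      (Equiv.Perm.mem_cycleFactorsFinset_support_le p.1.2 (hx _)) (b _ _).2)
  have h6 : finrank F ↥(⨆ j ∈ s.support, D j) =
      Fintype.card (s.cycleFactorsFinset × Fin a) * (X ^ r - C c).natDegree := by
    rw [finrank_biSup hi _ hd, ← h2, natDegree_X_pow_sub_C, Fintype.card_prod, Fintype.card_coe,
      Fintype.card_fin, mul_right_comm]
  rw [edOn_free (monic_X_pow_sub_C c hr) (aeval_X_pow_sub_C_eq_zero h) _ h4 h3
    (fun W h7 h8 => iSup₂_le fun j hj => ?_) h6, Fintype.card_prod, Fintype.card_coe,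
    Fintype.card_fin]
  obtain ⟨d, hd⟩ : ∃ d, s.SameCycle (x d) j := ⟨_, (Equiv.Perm.mem_support_cycleOf_iff.1
    (hx ⟨_, Equiv.Perm.cycleOf_mem_cycleFactorsFinset_iff.2 hj⟩)).1.symm⟩
  obtain ⟨i, -, e⟩ := hd.exists_pow_eq'
  rw [← e, ← map_pow_perm hs]
  exact (Submodule.map_mono (le_of_basis (b (x d)) fun k => h8 (d, k))).trans
    (st_iff_map.1 (h7.pow i))

/-- the elementary divisors of an endomorphism permuting the summands of a decomposition -/
theorem MDec.ed_eq {ι : Type*} [Fintype ι] {D : ι → Submodule F V} (hD : MDec B Φ a D)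
    (ha : 0 < a) (hr : r.Prime) (h : f ^ r = c • 1) (hc : c ≠ 0) {s : Equiv.Perm ι}
    (hs : ∀ j, (D j).map f = D (s j)) : ∃ k, ∃ S : Finset ι, Fintype.card ι = k * r + S.card ∧
      (∀ j ∈ S, St f (D j)) ∧ ed f = (k * a) • reg (X ^ r - C c) + ∑ j ∈ S, edOn f (D j) := by
  classical
  have := Fact.mk hr
  have h1 : s ^ r = 1 := Equiv.ext fun j => hD.injective ha
    ((map_pow_perm hs r j).symm.trans (map_pow_eq h hc))
  have h2 := s.sum_cycleType
  rw [Equiv.Perm.cycleType_of_pow_prime_eq_one h1, Multiset.sum_replicate, smul_eq_mul,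
    Equiv.Perm.cycleType_def, Multiset.card_map, Finset.card_val] at h2
  have h3 : ∀ j ∈ s.supportᶜ, St f (D j) := fun j hj => st_iff_map.2 (by
    rw [hs, Equiv.Perm.notMem_support.1 (Finset.mem_compl.1 hj)])
  have h4 : St f (⨆ j ∈ s.support, D j) := st_iff_map.2 (by
    simp only [Submodule.map_iSup, hs]
    exact iSup₂_le fun j hj => le_iSup₂_of_le (s j) (Equiv.Perm.apply_mem_support.2 hj) le_rfl)
  obtain ⟨h5, h6⟩ := edOn_biSup' hD.indep _ h3
  refine ⟨_, _, by rw [h2, Finset.card_add_card_compl], h3, ?_⟩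
  rw [ed_eq_edOn_add h4 h5 (isCompl_biSup hD.indep hD.top _), h6,
    edOn_support hD.indep hD.dim hr.ne_zero h hs h4 h2]

theorem exists_elt_of_dvd [Finite F] {K : Subgroup (V ≃ₗ[F] V)} (hr : r.Prime)
    (h : r ∣ Nat.card K) : ∃ g ∈ K, (g : End F V) ^ r = 1 ∧ (g : End F V) ≠ 1 := by
  have := Fact.mk hr
  have := Module.finite_of_finite F (M := V)
  have : Finite (V ≃ₗ[F] V) := Finite.of_injective _ DFunLike.coe_injective
  obtain ⟨g, hg⟩ := exists_prime_orderOf_dvd_card' r h
  refine ⟨g, g.2, ?_, fun e => hr.ne_one (hg ▸ orderOf_eq_one_iff.2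
    (Subtype.ext (LinearEquiv.toLinearMap_injective e)))⟩
  have e := congrArg (LinearEquiv.automorphismGroup.toLinearMapMonoidHom.comp K.subtype)
    (pow_orderOf_eq_one g)
  rwa [map_pow, hg, map_one] at e

end H58
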