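import Cfsg.Agent.H58.ElImp

/-!
Elements of prime order of linear groups on direct sum decompositions.
-/

open Polynomial Module

namespace H58

open H53
open H59 (perp mem_perp)

section arith

variable {a c e h m n t u N : ℕ}

theorem bins_step (h1 : h * c + N = (u + 1) * a) (h2 : h ≤ (u + 1) * (a / c)) :
    ∃ b h' j N', h = b + h' ∧ N = j + N' ∧ b * c + j = a ∧ h' * c + N' = u * a ∧
      h' ≤ u * (a / c) := by
  have h3 := Nat.div_add_mod a c
  rcases le_total h (a / c) with e | e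
  · have := Nat.mul_le_mul_right c e
    exact ⟨h, 0, a - h * c, u * a, rfl, by lia, by lia, by lia, Nat.zero_le _⟩
  · obtain ⟨k, rfl⟩ := Nat.exists_eq_add_of_le e
    have h4 : k ≤ u * (a / c) := by lia
    have := Nat.mul_le_mul_right c h4
    have h5 : u * a = u * (a / c) * c + u * (a % c) := by
      conv_lhs => rw [← h3]
      ring
    exact ⟨a / c, k, a % c, u * a - k * c, rfl, by lia, by lia, by lia, h4⟩

theorem le_mul_div_iff (hc : 0 < c) (hn : n = a * t) :
    n / c ≤ t * (a / c) ↔ n % c = t * (a % c) := by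
  have h1 : n = t * (a % c) + c * (t * (a / c)) := by
    conv_lhs => rw [hn, ← Nat.div_add_mod a c]
    ring
  rw [h1, Nat.add_mul_div_left _ _ hc, Nat.add_mul_mod_self_left, add_le_iff_nonpos_left,
    nonpos_iff_eq_zero, Nat.div_eq_zero_iff, Nat.mod_eq_iff_lt hc.ne']
  omega

theorem arith_imp (he : 0 < e) (hc : 0 < c) (hcn : c ≤ n) (hn : n = a * t)
    (H : ∀ h, 0 < h → h * c ≤ n → ∃ k, k * a * m ≤ h * e ∧ k * a ≤ n - h * c ∧
      h * e ≤ k * a * m + t * (a / c) * e) :
    (c ≤ a ∧ n % c = t * (a % c)) ∨ ((∃ k, k * a * m = e) ∧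
      ∃ k, n / c * e ≤ k * a * m ∧ k * a ≤ n % c) := by
  obtain ⟨k, -, h2, h3⟩ := H (n / c) (Nat.div_pos hcn hc) (Nat.div_mul_le_self n c)
  have h4 : n - n / c * c = n % c := by have := Nat.div_add_mod n c; lia
  rw [h4] at h2
  rcases le_or_gt c a with e | e
  · obtain rfl : k = 0 := by
      by_contra h5
      have := Nat.le_mul_of_pos_left a (Nat.pos_of_ne_zero h5)
      have := Nat.mod_lt n hc
      omega
    exact Or.inl ⟨e, (le_mul_div_iff hc hn).1 (Nat.le_of_mul_le_mul_right (by simpa using h3) he)⟩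
  · obtain ⟨k', h5, -, h6⟩ := H 1 one_pos (by omega)
    simp only [Nat.div_eq_of_lt e, mul_zero, zero_mul, add_zero, one_mul] at h3 h5 h6
    exact Or.inr ⟨⟨k', le_antisymm h5 h6⟩, k, h3, h2⟩

theorem two_bins {k : ℕ} (h1 : k < a) (h2 : k * 2 + N = u * a) : k ≤ u * (a / 2) := by
  rcases u with _ | _ | u
  · omega
  · omega
  · have := Nat.mul_le_mul_right (a / 2) (show 2 ≤ u + 1 + 1 by omega)
    omega

end arith

variable {F : Type*} [Field F] {σ : F →+* F} {ε : F}
variable {V : Type*} [AddCommGroup V] [Module F V] [FiniteDimensional F V]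
variable {B : V →ₛₗ[σ] V →ₗ[F] F} {f : End F V} {U W A E : Submodule F V} {P : F[X]}
variable {Φ : Submodule F V → Prop} {a t r k u h N c : ℕ} {z : F} {s w : Multiset F[X]}

theorem dec_of_peel (hf : Function.Injective f) (I : ℕ → Submodule F V → Prop)
    (h0 : ∀ E, I 0 E → E = ⊥) (h1 : ∀ u E, I (u + 1) E → ∃ A E', St f A ∧ finrank F A = a ∧ Φ A ∧
      I u E' ∧ A ⊔ E' = E ∧ E' ≤ perp B A ∧ A ≤ perp B E') (u : ℕ) :
    ∀ E, I u E → Dec B Φ f a u E := by
  induction u with
  | zero => exact fun E h => h0 E h ▸ Dec.zero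
  | succ u ih =>
    intro E h
    obtain ⟨A, E', h2, h3, h4, h5, rfl, h6, h7⟩ := h1 u E h
    exact add_comm 1 u ▸ (Dec.single hf h2 h3 h4).add (ih E' h5) h6 h7

/-- decompositions without a form -/
abbrev LDec (f : End F V) (a t : ℕ) (E : Submodule F V) : Prop :=
  Dec (0 : V →ₗ[F] V →ₗ[F] F) (fun _ => True) f a t E

omit [FiniteDimensional F V] in
theorem le_perp_zero : U ≤ perp (0 : V →ₗ[F] V →ₗ[F] F) W := fun _ _ _ _ => rfl

theorem ldec_bins (hf : Function.Injective f) (hE : St f E)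
    (h1 : (edOn f E).map natDegree = Multiset.replicate h c + Multiset.replicate N 1)
    (h2 : h * c + N = u * a) (h3 : h ≤ u * (a / c)) : LDec f a u E := by
  refine dec_of_peel hf (fun u E => St f E ∧ ∃ h N, (edOn f E).map natDegree =
    Multiset.replicate h c + Multiset.replicate N 1 ∧ h * c + N = u * a ∧ h ≤ u * (a / c))
    ?_ ?_ u E ⟨hE, h, N, h1, h2, h3⟩
  · rintro E ⟨hE, h, N, h1, h2, -⟩
    rw [← Submodule.finrank_eq_zero, ← dg_edOn hE, dgs, h1]
    simpa using h2
  · rintro u E ⟨hE, _, _, h1, h2, h3⟩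
    obtain ⟨b, h, j, N, rfl, rfl, h4, h5, h6⟩ := bins_step h2 h3
    rw [Multiset.replicate_add, Multiset.replicate_add, add_add_add_comm] at h1
    obtain ⟨s, w, e, e1, e2⟩ := exists_add_of_map_eq_add h1
    obtain ⟨A, E', hA, hE', -, e3, rfl, rfl⟩ := exists_split hE e
    exact ⟨A, E', hA, by rw [← dg_edOn hA, dgs, e1]; simpa using h4, trivial,
      ⟨hE', h, N, e2, h5, h6⟩, e3, le_perp_zero, le_perp_zero⟩

theorem ldec_reg (hr : r ≠ 0) (h : f ^ r = z • 1) (hz : z ≠ 0) (k : ℕ) : ∀ E, St f E →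
    edOn f E = (k * a) • reg (X ^ r - C z) → LDec f a (k * r) E := by
  induction k with
  | zero => exact fun E hE e => by simpa [(edOn_eq_zero_iff hE).1 (by simpa using e)] using Dec.zero
  | succ k ih =>
    intro E hE e
    rw [add_one_mul, add_nsmul] at e
    obtain ⟨A, U, hA, hU, -, rfl, e1, e2⟩ := exists_split hE e
    obtain ⟨D, hD, e3⟩ := exists_cycle (monic_X_pow_sub_C z hr)
      (by rw [natDegree_X_pow_sub_C]; omega) hU e2
    rw [natDegree_X_pow_sub_C] at e3
    exact add_one_mul k r ▸ (ih A hA e1).add (e3 ▸ Dec.cycle hr h hz hD (fun _ _ => trivial)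
      fun _ _ _ _ _ => le_perp_zero) le_perp_zero le_perp_zero

theorem ldec_top (hr : r ≠ 0) (hf : f ^ r = z • 1) (hz : z ≠ 0)
    (h0 : ed f = (k * a) • reg (X ^ r - C z) + w)
    (h1 : w.map natDegree = Multiset.replicate h c + Multiset.replicate N 1)
    (h2 : h * c + N = u * a) (h3 : h ≤ u * (a / c)) : LDec f a (k * r + u) ⊤ := by
  obtain ⟨A, U, hA, hU, -, e, e1, rfl⟩ := exists_split (st_top f) ((edOn_top f).trans h0)
  exact e ▸ (ldec_reg hr hf hz k A hA e1).add
    (ldec_bins (injective_of_pow hr hf hz) hU h1 h2 h3) le_perp_zero le_perp_zero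

theorem ldec_two (hf : f ^ 2 = z • 1) (hz : z ≠ 0) (ha : 0 < a) (hn : finrank F V = a * t) :
    LDec f a t ⊤ := by
  classical
  set P : F[X] := X ^ 2 - C z
  have hP : P.natDegree = 2 := natDegree_X_pow_sub_C
  have h1 : ((ed f).filter (P ≠ ·)).map natDegree = Multiset.replicate _ 1 :=
    Multiset.eq_replicate_card.2 fun d hd => by
      obtain ⟨Q, hQ, rfl⟩ := Multiset.mem_map.1 hd
      obtain ⟨h1, h2⟩ := Multiset.mem_filter.1 hQ
      have h3 := (pow_eq_smul_one_iff_ed f 2 z).1 hf Q h1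
      have h4 := jt_pos f _ (Multiset.mem_map_of_mem _ h1)
      have h5 := natDegree_le_of_dvd h3 (monic_X_pow_sub_C z two_ne_zero).ne_zero
      have h6 := mt (eq_of_monic_of_dvd_of_natDegree_le (ed_isPP f Q h1).monic
        (monic_X_pow_sub_C z two_ne_zero) h3) h2
      rw [natDegree_X_pow_sub_C] at h5 h6
      omega
  have h2 := Multiset.filter_add_not (P = ·) (ed f)
  rw [Multiset.filter_eq] at h2
  have h3 := dg_ed f
  set k := (ed f).count P
  rw [← h2, dg_add, dg_replicate, dgs, h1, Multiset.sum_replicate, smul_eq_mul, mul_one, hP, hn] at h3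
  have h4 := Nat.div_add_mod k a
  obtain ⟨u, rfl⟩ := Nat.exists_eq_add_of_le (show k / a * 2 ≤ t from
    Nat.le_of_mul_le_mul_left (by lia) ha)
  have h5 : k % a * 2 + _ = u * a := Nat.add_left_cancel (n := a * (k / a) * 2) (by
    rw [← add_assoc, ← add_mul, h4, h3]; ring)
  refine ldec_top (w := Multiset.replicate (k % a) P + (ed f).filter (P ≠ ·)) two_ne_zero hf hz ?_
    (by rw [Multiset.map_add, Multiset.map_replicate, hP, ← h1]) h5 (two_bins (Nat.mod_lt k ha) h5)
  have h6 : (k / a * a) • reg P = Multiset.replicate (k / a * a) P := by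
    by_cases e : k = 0
    · simp [e]
    · rw [reg_of_isPP (ed_isPP f P (Multiset.count_ne_zero.1 e)), Multiset.nsmul_singleton]
  rw [h6, ← add_assoc, ← Multiset.replicate_add, mul_comm, h4, h2]

theorem map_natDegree_cyc [Finite F] (h0 : (r : F) ≠ 0) (hs : ∀ P ∈ s, P ∈ cycF F r) (N : ℕ) :
    (s + Multiset.replicate N (X - 1)).map natDegree =
      Multiset.replicate s.card (orderOf (Nat.card F : ZMod r)) + Multiset.replicate N 1 := by
  rw [Multiset.map_add, Multiset.map_replicate, ← C_1, natDegree_X_sub_C, ← Multiset.card_map natDegree]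
  congr 1
  exact Multiset.eq_replicate_card.2 fun d hd => by
    obtain ⟨Q, hQ, rfl⟩ := Multiset.mem_map.1 hd
    exact natDegree_of_mem_cycF h0 (hs Q hQ)

theorem ldec_odd [Finite F] (hr : r.Prime) (h0 : (r : F) ≠ 0) (hf : f ^ r = z • 1) (hz : z ≠ 0)
    (hn : finrank F V = a * t) (hc : c = orderOf (Nat.card F : ZMod r))
    (H : (a = 1 ∧ c = r - 1 ∧ finrank F V ≤ finrank F V % c * r) ∨
      finrank F V % c = t * (a % c)) : LDec f a t ⊤ := by
  by_cases e : ∃ d, d ^ r = z
  · obtain ⟨d, rfl⟩ := e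
    have hd : d ≠ 0 := fun e => hz (by rw [e, zero_pow hr.ne_zero])
    have h1 := smul_pow_eq_one hd hf
    refine Dec.smul (c := d⁻¹) ?_ (inv_ne_zero hd)
    obtain ⟨s, N, hs, e⟩ := exists_ed_of_pow_eq_one hr h0 h1
    have h2 := dg_ed (d⁻¹ • f)
    rw [e, dg_cyc h0 hs, ← hc] at h2
    have h3 : 0 < c := hc ▸ orderOf_card_pos h0
    rcases H with ⟨rfl, h4, h5⟩ | H
    · have h6 := card_cycF_eq_div hr h0
      rw [← hc, ← h4, Nat.div_self h3, Finset.card_eq_one] at h6
      obtain ⟨φ, h6⟩ := h6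
      have h7 : s = Multiset.replicate s.card φ :=
        Multiset.eq_replicate_card.2 fun P hP => by simpa [h6] using hs P hP
      have h8 := Nat.mul_le_mul_right r (mod_le_of_eq h2)
      obtain ⟨u, rfl⟩ := Nat.exists_eq_add_of_le (show s.card ≤ N from
        Nat.le_of_mul_le_mul_right (by rw [show r = c + 1 by omega] at h8 h5; lia) h3)
      rw [show t = s.card * r + u by rw [show r = c + 1 by omega]; lia]
      refine ldec_top (z := 1) (w := Multiset.replicate u (X - 1)) (h := 0) (c := 1) (N := u)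
        hr.ne_zero (by simpa using h1) one_ne_zero ?_ (by simp [← C_1, -map_one]) (by simp) (by simp)
      rw [e, reg_cyc hr h0, h6, mul_one, nsmul_add, Finset.singleton_val, Multiset.nsmul_singleton,
        Multiset.nsmul_singleton, ← h7, add_assoc, Multiset.replicate_add]
    · refine ldec_bins (injective_of_pow (c := 1) hr.ne_zero (by simpa using h1) one_ne_zero)
        (st_top _) (by rw [edOn_top, e, map_natDegree_cyc h0 hs, ← hc]) (by lia)
        (le_trans ?_ ((le_mul_div_iff h3 hn).2 H))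
      exact (Nat.le_div_iff_mul_le h3).2 (by omega)
  · obtain ⟨k, h1, e⟩ := ed_of_nonpow hr (not_exists.1 e) hf
    rcases (Nat.Prime.dvd_mul hr).1 (show r ∣ a * t from ⟨k, by lia⟩) with ⟨b, rfl⟩ | ⟨b, rfl⟩
    · refine ldec_bins (h := k) (c := r) (N := 0) (injective_of_pow hr.ne_zero hf hz) (st_top _)
        (by simp [edOn_top, e]) (by lia) ?_
      rw [Nat.mul_div_cancel_left _ hr.pos]
      exact Nat.le_of_mul_le_mul_right (by lia) hr.pos
    · obtain rfl : k = b * a := Nat.eq_of_mul_eq_mul_right hr.pos (by lia)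
      rw [mul_comm r]
      refine ldec_reg hr.ne_zero hf hz b ⊤ (st_top f) ?_
      by_cases e1 : b * a = 0
      · simp [edOn_top, e, e1]
      · rw [edOn_top, reg_of_isPP (ed_isPP f _ (e ▸ Multiset.mem_replicate.2 ⟨e1, rfl⟩)), e,
          Multiset.nsmul_singleton]

/-- counting elementary divisors along a decomposition -/
theorem MDec.count_cyc [Finite F] {D : Fin t → Submodule F V} (hD : MDec B Φ a D) (ha : 0 < a)
    (hr : r.Prime) (h0 : (r : F) ≠ 0) (hs : ∀ P ∈ s, P ∈ cycF F r)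
    (he : ed f = s + Multiset.replicate N (X - 1)) {π : Equiv.Perm (Fin t)}
    (hπ : ∀ j, (D j).map f = D (π j)) {e : ℕ} (hc : c = e * orderOf (Nat.card F : ZMod r))
    (h1 : ∀ U w n, Φ U → St f U → (∀ P ∈ w, P ∈ cycF F r) →
      edOn f U = w + Multiset.replicate n (X - 1) → e ∣ w.card) :
    ∃ k, k * a * (cycF F r).card ≤ s.card ∧ k * a ≤ N ∧
      s.card ≤ k * a * (cycF F r).card + t * (a / c) * e := by
  classical
  have hf := pow_eq_one_of_ed h0 hs he
  obtain ⟨k, S, -, h2, h3⟩ := hD.ed_eq (c := 1) ha hr (by simpa using hf) one_ne_zero hπ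
  have h4 : ∀ j ∈ S, ∃ w n, (∀ P ∈ w, P ∈ cycF F r) ∧
      edOn f (D j) = w + Multiset.replicate n (X - 1) := fun j hj =>
    exists_cyc_of_forall fun P hP => eq_or_mem_cycF_of_dvd hr h0 (edOn_isPP _ _ P hP)
      (dvd_of_mem_edOn (h2 j hj) (fun v _ => by simp [hf]) P hP)
  choose! w n h4 h5 using h4
  have h6 : (X - 1 : F[X]) ∉ cycF F r := fun e =>
    irreducible_X_sub_one.not_isUnit (isCoprime_self.1 (isCoprime_sub_one_of_mem_cycF hr.ne_one h0 e))
  have h7 : ∀ {w : Multiset F[X]} {n}, (∀ P ∈ w, P ∈ cycF F r) → Multiset.countP (· ∈ cycF F r)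
      (w + Multiset.replicate n (X - 1)) = w.card := fun h => by
    rw [Multiset.countP_add, Multiset.countP_eq_card.2 h, Multiset.countP_eq_zero.2 fun P hP =>
      Multiset.eq_of_mem_replicate hP ▸ h6, add_zero]
  have h8 := congrArg (Multiset.countPAddMonoidHom (· ∈ cycF F r)) h3
  have h9 := congrArg (Multiset.count (X - 1)) h3
  rw [map_add, map_nsmul, map_sum, he, reg_cyc hr h0, ← Multiset.replicate_one] at h8
  simp only [Multiset.coe_countPAddMonoidHom] at h8
  rw [h7 hs, h7 fun _ h => h, Finset.sum_congr rfl fun j hj => by rw [h5 j hj, h7 (h4 j hj)],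
    smul_eq_mul, Finset.card_val] at h8
  rw [he, reg_cyc hr h0, Multiset.count_add, Multiset.count_add, Multiset.count_nsmul,
    Multiset.count_add, Multiset.count_eq_zero.2 fun h => h6 (hs _ h), Multiset.count_replicate_self,
    Multiset.count_singleton_self] at h9
  refine ⟨k, by omega, by lia, h8.trans_le (Nat.add_le_add_left ?_ _)⟩
  refine (Finset.sum_le_card_nsmul S _ (a / c * e) fun j hj => ?_).trans ?_
  · obtain ⟨b, hb⟩ := h1 _ _ _ (hD.prop j) (h2 j hj) (h4 j hj) (h5 j hj)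
    have h10 := dg_edOn (h2 j hj)
    rw [h5 j hj, dg_cyc h0 (h4 j hj), hD.dim, hb] at h10
    rcases e.eq_zero_or_pos with rfl | he
    · simp [hb]
    rw [hb, mul_comm]
    exact Nat.mul_le_mul_right e ((Nat.le_div_iff_mul_le
      (hc ▸ Nat.mul_pos he (orderOf_card_pos h0))).2 (by rw [hc]; lia))
  · rw [smul_eq_mul, ← mul_assoc]
    exact Nat.mul_le_mul_right e (Nat.mul_le_mul_right _ (by simpa using S.card_le_univ))

omit [FiniteDimensional F V] in
theorem dvd_card_isom (ha : 0 < a) (hΦ : ∀ U W : Submodule F V, Φ U → Φ W →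
      finrank F U = finrank F W → ∃ e : U ≃ₗ[F] W, ∀ x y, B (e x) (e y) = B x y)
    (hΦ' : ∀ g ∈ H59.isom B, ∀ U, Φ U → Φ (U.map (g : V →ₗ[F] V))) {D : Fin t → Submodule F V}
    (h : MDec B Φ a D)
    (hr : r ∣ Nat.card {D : Fin t → Submodule F V // MDec B Φ a D} / t.factorial) :
    r ∣ Nat.card (H59.isom B) := by
  refine (hr.trans (Nat.div_dvd_of_dvd (factorial_dvd_card _ (fun D h => h.injective ha)
    fun D π h => ?_))).trans (card_mdec_dvd hΦ hΦ' h)
  exact ⟨fun j => h.dim _, h.indep.comp π.injective, π.iSup_comp.trans h.top, fun j => h.prop _,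
    fun j k e => h.orth _ _ (π.injective.ne e)⟩

section mat

variable {ι : Type} {D : Fin t → Submodule F (ι → F)}

theorem isMDec_iff (ht : 2 ≤ t) (ha : 0 < a) : Cfsg.Geo.IsMDecomposition a D ↔
    MDec (0 : (ι → F) →ₗ[F] (ι → F) →ₗ[F] F) (fun _ => True) a D :=
  ⟨fun h => ⟨h.finrank_eq, h.indep, h.iSup_eq_top, fun _ => trivial, fun _ _ _ _ _ _ _ => rfl⟩,
    fun h => ⟨ht, ha, h.dim, h.indep, h.top⟩⟩

end mat

end H58
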