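import Cfsg.Agent.H58.ElImp2
import Cfsg.Agent.H58.ElCh3

/-!
Elements of prime order of symplectic groups on orthogonal decompositions and on pairs of
complementary totally isotropic subspaces.
-/

open Polynomial Module
open scoped Pointwise

namespace H58

open H53
open H59 (perp mem_perp)

variable {F : Type*} [Field F]
variable {V : Type*} [AddCommGroup V] [Module F V] [FiniteDimensional F V]
variable {B : V →ₗ[F] V →ₗ[F] F} {f : End F V} {U W U' W' A D E : Submodule F V}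
variable {a t r u h N c i d : ℕ} {z : F} {s : Multiset F[X]}
variable (hB : IsSF (σ := RingHom.id F) (-1) B) (ha : ∀ x, B x x = 0)

omit [FiniteDimensional F V] in
theorem le_perp_sup (h1 : A ≤ perp B U) (h2 : A ≤ perp B W) : A ≤ perp B (U ⊔ W) :=
  (le_inf h1 h2).trans (H59.perp_sup U W).ge

omit [FiniteDimensional F V] in
theorem st_sup_map (h : f ^ 2 = z • 1) : St f (D ⊔ D.map f) := by
  rw [st_iff_map, Submodule.map_sup, ← Submodule.map_comp, ← End.mul_eq_comp, ← sq, h]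
  exact sup_le le_sup_right (le_sup_of_le_left (st_iff_map.1 (St.smul (fun _ => id) z)))

include hB

omit [FiniteDimensional F V] in
theorem ND.map (hf : Inv B f) (h : ND B D) : ND B (D.map f) := (nd_iff hB).2 <| by
  rintro _ ⟨u, hu, rfl⟩ h0
  obtain ⟨v, hv, h1⟩ := (nd_iff hB).1 h u hu (mt (by rintro rfl; simp) h0)
  exact ⟨f v, ⟨v, hv, rfl⟩, (hf u v).symm ▸ h1⟩

omit [FiniteDimensional F V] in
theorem Dec.swap (hf : Inv B f) (h : f ^ 2 = z • 1) (hz : z ≠ 0) (hD : ND B D)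
    (h1 : finrank F D = a) (h2 : D.map f ≤ perp B D) : Dec B (ND B) f a 2 (D ⊔ D.map f) := by
  refine ⟨Bool, inferInstance, fun b => bif b then D else D.map f, rfl, iSup_bool_eq, ?_, ?_⟩
  · rintro (_ | _)
    · refine ⟨(finrank_map_of_inj (hf.injective hB)).trans h1, hD.map hB hf, true, ?_⟩
      exact (by rw [← Submodule.map_comp, ← End.mul_eq_comp, ← sq, map_pow_eq h hz] :
        (D.map f).map f = D)
    · exact ⟨h1, hD, false, rfl⟩
  · rintro (_ | _) (_ | _) e
    exacts [(e rfl).elim, le_perp_comm hB h2, h2, (e rfl).elim]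

include ha

theorem exists_swap (h2 : (2 : F) = 0) (hf : Inv B f) (h : f ^ 2 = 1) (b : ℕ) :
    ∀ E, St f E → ND B E → (∀ v ∈ E, B (f v - v) v = 0) → 2 * rkOn f E = finrank F E →
      4 * b ≤ finrank F E → ∃ D ≤ E, ND B D ∧ finrank F D = 2 * b ∧ D.map f ≤ perp B D := by
  induction b with
  | zero => exact fun E _ _ _ _ _ => ⟨⊥, bot_le, nd_bot, by simp, by simp⟩
  | succ b ih =>
    intro E hE hd h1 h0 hb
    obtain ⟨w, hw, h3⟩ : ∃ w ∈ E, f w ≠ w := by
      by_contra! h3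
      have := rkOn_eq_zero_iff.2 h3
      omega
    have hff : ∀ v, f (f v) = v := fun v => by simpa [sq] using LinearMap.congr_fun h v
    have hm : ∀ v ∈ E, f v - v ∈ E := fun v hv => E.sub_mem (hE v hv) hv
    have h1' : ∀ v ∈ E, B (f v) v = 0 := fun v hv => by simpa [ha] using h1 v hv
    obtain ⟨v, hv, h4⟩ := (nd_iff hB).1 hd _ (hm w hw) (sub_ne_zero.2 h3)
    obtain ⟨x, hx, h5, h6⟩ : ∃ x ∈ E, f x - x = f w - w ∧ B x v = 0 :=
      ⟨w - (B w v / B (f w - w) v) • (f w - w), E.sub_mem hw (E.smul_mem _ (hm w hw)), by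
        rw [map_sub, map_smul, show f (f w - w) = f w - w by
          simpa [sq, sub_eq_zero] using LinearMap.congr_fun (sub_one_sq_of_char_two h2 h) w]
        abel, by
        rw [map_sub, map_smul, LinearMap.sub_apply, LinearMap.smul_apply, smul_eq_mul,
          div_mul_cancel₀ _ h4, sub_self]⟩
    obtain ⟨h7, h8⟩ := nd_span_pair hB ha (x := f x) (y := v) (by simpa [← h5, h6] using h4)
    have h9 : (Submodule.span F {f x, v}).map f ≤ perp B (Submodule.span F {f x, v}) := by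
      rw [Submodule.map_span, Submodule.span_le, Set.image_pair, hff]
      exact Set.pair_subset (H59.mem_perp_pair.2 ⟨h1' x hx, hB.eq_zero_comm.1 h6⟩)
        (H59.mem_perp_pair.2 ⟨(hf x v).trans h6, hB.eq_zero_comm.1 (h1' v hv)⟩)
    have h10 : Submodule.span F {f x, v} ≤ E := Submodule.span_le.2 (Set.pair_subset (hE x hx) hv)
    generalize Submodule.span F {f x, v} = P at h7 h8 h9 h10
    have h11 : St f (P ⊔ P.map f) := st_sup_map (z := 1) (by simpa using h)
    have h12 := h7.sup hB (h7.map hB hf) h9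
    have h13 : P ⊔ P.map f ≤ E := sup_le h10 ((Submodule.map_mono h10).trans (st_iff_map.1 hE))
    have h14 := finrank_sup_of_disjoint (h7.disjoint h9)
    rw [finrank_map_of_inj (hf.injective hB)] at h14
    obtain ⟨h15, -, h16⟩ := ND.inf_perp hB h12 hd h13
    have h17 := hE.inf (hf.perp_mapsTo hB h11)
    have h18 := rkOn_eq_add_inf hB hf h11 h12 hE hd h13
    have h19 := two_mul_rkOn_le hB h2 hf h h11 h12
    have h20 := two_mul_rkOn_le hB h2 hf h h17 h15
    obtain ⟨D, h21, h22, h23, h24⟩ := ih _ h17 h15 (fun v hv => h1 v hv.1) (by omega) (by omega)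
    have h25 := (Submodule.map_mono (f := f) h21).trans (st_iff_map.1 h17)
    have h26 := h21.trans (inf_le_right.trans (perp_anti le_sup_left))
    refine ⟨P ⊔ D, sup_le h10 (h21.trans inf_le_left), h7.sup hB h22 h26, by
      rw [finrank_sup_of_disjoint (h7.disjoint h26)]; omega, ?_⟩
    rw [Submodule.map_sup]
    exact sup_le (le_perp_sup h9 (le_perp_comm hB (h21.trans (inf_le_right.trans
      (perp_anti le_sup_right))))) (le_perp_sup (h25.trans (inf_le_right.trans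
        (perp_anti le_sup_left))) h24)

theorem exists_nd_le_two [Finite F] (h2 : (2 : F) ≠ 0) (hf : Inv B f) (h : f ^ 2 = z • 1)
    (hE : St f E) (hd : ND B E) (h1 : a ≤ finrank F E) (h0 : 0 < a) (he : Even a) :
    ∃ W ≤ E, St f W ∧ ND B W ∧ finrank F W = a := by
  by_cases e : ∃ c : F, f.restrict hE = c • 1
  · obtain ⟨c, e⟩ := e
    obtain ⟨W, h3, h4, h5⟩ := exists_nd_le_alt hB ha hd h1 he
    exact ⟨W, h3, st_of_le_eigen (c := c)
      (fun v hv => congrArg Subtype.val (LinearMap.congr_fun e ⟨v, hv⟩)) h3, h4, h5⟩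
  have : Nontrivial E := nontrivial_of_finrank_pos (R := F) (by omega)
  obtain ⟨W, ⟨h3, h4⟩, h5⟩ := sp_nd_two (hB.restrict hd) (fun x => ha x) h2 h1 he _
    (hf.restrict hE) ⟨z, LinearMap.ext fun v => Subtype.ext (LinearMap.congr_fun h v)⟩
    (not_exists.1 e)
  exact ⟨_, Submodule.map_subtype_le E W, h5.map E.subtype fun _ => rfl,
    (nd_map_subtype hB hd).2 h4, by rw [Submodule.finrank_map_subtype_eq, h3]⟩

theorem sp_dec_two [Finite F] [Nontrivial V] (hf : Inv B f) (h : f ^ 2 = z • 1) (hz : z ≠ 0)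
    (h0 : 0 < a) (he : Even a) (u : ℕ) :
    ∀ E, St f E → ND B E → finrank F E = u * a → Dec B (ND B) f a u E := by
  induction u using Nat.strong_induction_on with | _ u ih => ?_
  intro E hE hd h1
  have key : ∀ k A, 0 < k → k ≤ u → A ≤ E → St f A → ND B A → finrank F A = k * a →
      Dec B (ND B) f a k A → Dec B (ND B) f a u E := fun k A h2 h3 h4 h5 h6 h7 h8 => by
    obtain ⟨h9, h10, h11⟩ := ND.inf_perp hB h6 hd h4
    obtain ⟨l, rfl⟩ := Nat.exists_eq_add_of_le h3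
    exact h10 ▸ h8.add (ih l (by omega) _ (hE.inf (hf.perp_mapsTo hB h5)) h9 (by lia))
      inf_le_right (le_perp_comm hB inf_le_right)
  rcases u.eq_zero_or_pos with rfl | hu
  · exact Submodule.finrank_eq_zero.1 (h1.trans (zero_mul a)) ▸ Dec.zero
  have h2 : a ≤ finrank F E := h1 ▸ Nat.le_mul_of_pos_left a hu
  have one : (∃ W ≤ E, St f W ∧ ND B W ∧ finrank F W = a) → Dec B (ND B) f a u E :=
    fun ⟨W, h3, h4, h5, h6⟩ => key 1 W one_pos hu h3 h4 h5 (by omega)
      (Dec.single (hf.injective hB) h4 h6 h5)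
  by_cases h3 : (2 : F) = 0
  swap
  · exact one (exists_nd_le_two hB ha h3 hf h hE hd h2 h0 he)
  have h4 := sq_eq_one_of_char_two hB h3 hf h
  refine (exists_nd_or_atype hB ha h3 hf h4 _ E rfl hE hd a he h2).elim one fun ⟨h5, h6, h7⟩ => ?_
  obtain ⟨k, hk⟩ := even_rkOn hB h5 hE hd
  have h8 : 2 ≤ u := by
    by_contra h8
    obtain rfl : u = 1 := by omega
    omega
  have h9 := Nat.mul_le_mul_right a h8
  obtain ⟨D, h10, h11, h12, h13⟩ := exists_swap hB ha h3 hf h4 (a / 2) E hE hd h5 h6 (by omega)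
  exact key 2 _ two_pos h8 (sup_le h10 ((Submodule.map_mono h10).trans (st_iff_map.1 hE)))
    (st_sup_map h) (h11.sup hB (h11.map hB hf) h13) (by
      rw [finrank_sup_of_disjoint (h11.disjoint h13), finrank_map_of_inj (hf.injective hB)]; omega)
    (Dec.swap hB hf h hz h11 (by omega) h13)

theorem sp_dec_blk [Finite F] (hf : Inv B f) (hr : r.Prime) (h2 : r ≠ 2) (h0 : (r : F) ≠ 0)
    (hi : i = orderOf (Nat.card F : ZMod r)) (hc : c = if Even i then i else 2 * i)
    (he : Even a) (hs : ∀ P ∈ s, P ∈ cycF F r) (h1 : ed f = s + Multiset.replicate N (X - 1))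
    (h3 : s.card = h * (if Even i then 1 else 2)) (h4 : h * c + N = t * a) (h5 : h ≤ t * (a / c)) :
    Dec B (ND B) f a t ⊤ := by
  classical
  have hr2 : 2 < r := lt_of_le_of_ne hr.two_le h2.symm
  obtain ⟨A, h6, h7, h8, h9, h10, -⟩ := exists_fix_split hB hf h1
    fun P hP => isCoprime_sub_one_of_mem_cycF hr.ne_one h0 (hs P hP)
  refine dec_of_peel (hf.injective hB) (fun u E => ∃ A C h, St f A ∧ ND B A ∧ ND B C ∧
    C ≤ perp B A ∧ (∀ W ≤ C, St f W) ∧ (∀ P ∈ edOn f A, P ∈ cycF F r) ∧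
    (edOn f A).card = h * (if Even i then 1 else 2) ∧ h * c + finrank F C = u * a ∧
    h ≤ u * (a / c) ∧ E = A ⊔ C) ?_ ?_ t ⊤ ⟨A, _, h, h6, h7, hB.disjoint_perp h7, le_rfl, h10,
      h8 ▸ hs, h8 ▸ h3, h9 ▸ h4, h5, (hB.isCompl_perp h7).sup_eq_top.symm⟩
  · rintro _ ⟨A, C, h, h1, -, -, -, -, -, h3, h4, h5, rfl⟩
    obtain rfl : h = 0 := by omega
    rw [(edOn_eq_zero_iff h1).1 (by simpa using h3), show C = ⊥ by simpa using h4, bot_sup_eq]
  · rintro u _ ⟨A, C, _, h1, h3, h4, h5, h6, h7, h8, h9, h10, rfl⟩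
    obtain ⟨b, h, j, N, rfl, e, h11, h12, h13⟩ := bins_step h9 h10
    obtain ⟨W, h14, h15, h16, h17, h18, -⟩ := exists_nd_blk hB hf (hi ▸ dich_id hr h2 h0) h1 h3 h7
      (Or.inr (cyc_facts hr2 h0 h7).2.2.2) (fun P hP => hi ▸ natDegree_of_mem_cycF h0 hP) hc h8
      (Nat.le_add_right b h)
    obtain ⟨U, h19, h20, h21⟩ := exists_nd_le_alt hB ha h4 (j := j) (by omega)
      ((Nat.even_add.1 (h11 ▸ he)).1 ((even_blk hc).mul_left b))
    obtain ⟨h22, h23, -⟩ := ND.inf_perp hB h16 h3 h14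
    obtain ⟨h24, h25, h26⟩ := ND.inf_perp hB h20 h4 h19
    have h27 := edOn_eq_add_inf hB hf h15 h16 h1 h3 h14
    have h28 : A ⊓ perp B W ⊔ C ⊓ perp B U ≤ perp B (W ⊔ U) :=
      sup_le (le_perp_sup inf_le_right (inf_le_left.trans (le_perp_comm hB (h19.trans h5))))
        (le_perp_sup (inf_le_left.trans (h5.trans (perp_anti h14))) inf_le_right)
    refine ⟨W ⊔ U, _, h15.sup (h6 U h19), by rw [finrank_sup_of_le h3 h14 (h19.trans h5)]; omega,
      h16.sup hB h20 (le_perp_of_le h14 (h19.trans h5)), ⟨_, _, h, h1.inf (hf.perp_mapsTo hB h15),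
        h22, h24, inf_le_left.trans (h5.trans (perp_anti inf_le_left)),
        fun X hX => h6 X (hX.trans inf_le_left), fun P hP => h7 P (h27 ▸ Multiset.mem_add.2 (.inr hP)),
        ?_, by omega, h13, rfl⟩, by rw [sup_sup_sup_comm, h23, h25], h28, le_perp_comm hB h28⟩
    rw [h27, Multiset.card_add, h18, add_mul] at h8
    omega

theorem exists_ti_pair (hf : Inv B f) (P : Submodule F V → Submodule F V → Prop) (h0 : P ⊥ ⊥)
    (h1 : ∀ U W U' W', P U W → P U' W' → P (U ⊔ U') (W ⊔ W'))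
    (h2 : ∀ E, St f E → ND B E → E ≠ ⊥ → ∃ v ∈ E, ∃ w ∈ E, B v w ≠ 0 ∧
      St f ((F ∙ v) ⊔ F ∙ w) ∧ P (F ∙ v) (F ∙ w)) :
    ∃ U W, IsCompl U W ∧ TI B U ∧ TI B W ∧ P U W := by
  have key : ∀ n (E : Submodule F V), finrank F E = n → St f E → ND B E →
      ∃ U W, TI B U ∧ TI B W ∧ U ⊔ W = E ∧ P U W := fun n => by
    induction n using Nat.strong_induction_on with | _ n ih => ?_
    intro E hn hE hd
    by_cases e : E = ⊥
    · exact ⟨⊥, ⊥, bot_le, bot_le, by simp [e], h0⟩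
    obtain ⟨v, hv, w, hw, h3, h4, h5⟩ := h2 E hE hd e
    obtain ⟨h6, h7⟩ := nd_span_pair hB ha h3
    rw [Submodule.span_insert] at h6 h7
    obtain ⟨h8, h9, h10⟩ := ND.inf_perp hB h6 hd (sup_le ((Submodule.span_singleton_le_iff_mem v E).2 hv)
      ((Submodule.span_singleton_le_iff_mem w E).2 hw))
    obtain ⟨U, W, h11, h12, h13, h14⟩ := ih _ (by omega) _ rfl (hE.inf (hf.perp_mapsTo hB h4)) h8
    have h15 : ∀ x, TI B (F ∙ x) := fun x =>
      (Submodule.span_singleton_le_iff_mem _ _).2 (H59.mem_perp_singleton.2 (ha x))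
    exact ⟨_, _, (h15 v).sup hB h11 ((le_sup_left.trans h13.le).trans
      (inf_le_right.trans (perp_anti le_sup_left))), (h15 w).sup hB h12 ((le_sup_right.trans
        h13.le).trans (inf_le_right.trans (perp_anti le_sup_right))),
      by rw [sup_sup_sup_comm, h13, h9], h1 _ _ _ _ h5 h14⟩
  obtain ⟨U, W, h3, h4, h5, h6⟩ := key _ ⊤ rfl (st_top f) (nd_top hB)
  have h7 := Submodule.finrank_sup_add_finrank_inf_eq U W
  have h8 := h3.two_mul_le hB
  have h9 := h4.two_mul_le hB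
  rw [h5, finrank_top] at h7
  exact ⟨U, W, ⟨disjoint_iff.2 (Submodule.finrank_eq_zero.1 (by omega)), codisjoint_iff.2 h5⟩,
    h3, h4, h6⟩

theorem sp_pair_two [Nontrivial V] (h2 : (2 : F) ≠ 0) (hf : Inv B f) (h : f ^ 2 = z • 1) :
    ∃ U W, IsCompl U W ∧ TI B U ∧ TI B W ∧
      (U.map f = U ∧ W.map f = W ∨ U.map f = W ∧ W.map f = U) := by
  have h1 : Inv B (z • 1) := h ▸ hf.pow 2
  have hff : ∀ v, f (f v) = z • v := fun v => by simpa [sq] using LinearMap.congr_fun h v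
  rcases mul_self_eq_one_iff.1 (mul_eq_one_of_inv_smul hB h1) with rfl | rfl
  · obtain ⟨U, W, h3, h4, h5, h6, h7⟩ := exists_ti_pair hB ha hf (fun U W => St f U ∧ St f W)
      ⟨st_bot f, st_bot f⟩ (fun _ _ _ _ h h' => ⟨h.1.sup h'.1, h.2.sup h'.2⟩) fun E hE hd e => by
      have h3 : ∀ x, St f (F ∙ (x + f x)) ∧ St f (F ∙ (x - f x)) := fun x =>
        ⟨st_of_le_eigen (c := 1) (fun v hv => by
          obtain ⟨c, rfl⟩ := Submodule.mem_span_singleton.1 hv
          simp [hff, add_comm]) le_rfl, st_of_le_eigen (c := -1) (fun v hv => by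
          obtain ⟨c, rfl⟩ := Submodule.mem_span_singleton.1 hv
          simp [hff, smul_sub, neg_add_eq_sub]) le_rfl⟩
      have h4 : ∀ φ : V →ₗ[F] F, (∃ x ∈ E, φ x ≠ 0) → ∃ v ∈ E, φ v ≠ 0 ∧ St f (F ∙ v) :=
        fun φ ⟨x, hx, e⟩ => by
          by_cases e' : φ (x + f x) = 0
          · refine ⟨_, E.sub_mem hx (hE x hx), fun e'' => e ((mul_eq_zero.1 ?_).resolve_left h2),
              (h3 x).2⟩
            simp only [map_add, map_sub] at e' e''
            linear_combination e' + e''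
          · exact ⟨_, E.add_mem hx (hE x hx), e', (h3 x).1⟩
      obtain ⟨x, hx, e⟩ := (Submodule.ne_bot_iff E).1 e
      obtain ⟨w, hw, h5, h6⟩ := h4 (B x) ((nd_iff hB).1 hd x hx e)
      obtain ⟨v, hv, h7, h8⟩ := h4 (B.flip w) ⟨x, hx, h5⟩
      exact ⟨v, hv, w, hw, h7, h8.sup h6, h8, h6⟩
    exact ⟨U, W, h3, h4, h5, Or.inl ⟨h6.map_eq (hf.injective hB), h7.map_eq (hf.injective hB)⟩⟩
  · obtain ⟨U, W, h3, h4, h5, h6⟩ := exists_ti_pair hB ha hf (fun U W => U.map f = W)
      (Submodule.map_bot f) (fun _ _ _ _ h h' => by rw [Submodule.map_sup, h, h']) fun E hE hd e => by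
      obtain ⟨v, hv, h3⟩ : ∃ v ∈ E, B v (f v) ≠ 0 := by
        by_contra! h3
        obtain ⟨x, hx, e⟩ := (Submodule.ne_bot_iff E).1 e
        obtain ⟨y, hy, e'⟩ := (nd_iff hB).1 hd x hx e
        have h4 := h3 _ (E.add_mem hx (hE y hy))
        simp only [map_add, LinearMap.add_apply, h3 x hx, hB.eq_zero_comm.1 (h3 y hy), hf y x, hff,
          neg_smul, one_smul, map_neg, hB.symm x y, RingHom.id_apply] at h4
        exact e' ((mul_eq_zero.1 (by linear_combination -h4)).resolve_left h2)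
      have h4 : (F ∙ v).map f = F ∙ f v := by rw [Submodule.map_span, Set.image_singleton]
      exact ⟨v, hv, _, hE v hv, h3, h4 ▸ st_sup_map h, h4⟩
    refine ⟨U, W, h3, h4, h5, Or.inr ⟨h6, ?_⟩⟩
    rw [← h6, ← Submodule.map_comp, ← End.mul_eq_comp, ← sq, map_pow_eq h (by simp)]

omit ha in
theorem finrank_of_pair (hc : IsCompl U W) (hU : TI B U) (hW : TI B W) :
    2 * finrank F U = finrank F V ∧ finrank F W = finrank F U := by
  have h1 := Submodule.finrank_add_eq_of_isCompl hc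
  have h2 := hU.two_mul_le hB
  have h3 := hW.two_mul_le hB
  omega

omit ha in
theorem bijective_pair (hc : IsCompl U W) (hU : TI B U) (hW : TI B W) :
    Function.Bijective (B.domRestrict₁₂ U W).flip := by
  have h1 : Function.Injective (B.domRestrict₁₂ U W).flip :=
    (injective_iff_map_eq_zero _).2 fun w e => Subtype.ext (hB.nondeg' _ fun x => by
      obtain ⟨a, b, rfl⟩ := H59.exists_add_eq_of_isCompl hc x
      rw [map_add, LinearMap.add_apply, hW w.2 b b.2, add_zero]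
      exact LinearMap.congr_fun e a)
  exact ⟨h1, (LinearMap.injective_iff_surjective_of_finrank_eq_finrank (by
    rw [Subspace.dual_finrank_eq, (finrank_of_pair hB hc hU hW).2])).1 h1⟩

omit ha in
theorem exists_isom_pair (hc : IsCompl U W) (hU : TI B U) (hW : TI B W) (hc' : IsCompl U' W')
    (hU' : TI B U') (hW' : TI B W') (e : U ≃ₗ[F] U') :
    ∃ g ∈ H59.isom B, (∀ u : U, g u = e u) ∧ g • W = W' := by
  let φ := LinearEquiv.ofBijective _ (bijective_pair hB hc hU hW)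
  let φ' := LinearEquiv.ofBijective _ (bijective_pair hB hc' hU' hW')
  let e' := φ ≪≫ₗ e.symm.dualMap ≪≫ₗ φ'.symm
  have h1 : ∀ (u : U) (w : W), B (e u) (e' w) = B u w := fun u w =>
    (LinearMap.congr_fun (φ'.apply_symm_apply (e.symm.dualMap (φ w))) (e u)).trans
      (congrArg (φ w) (e.symm_apply_apply u))
  obtain ⟨g, h2, h3⟩ := exists_equiv_of_isCompl hc hc' e e'
  refine ⟨g, fun x y => ?_, h2, smul_eq_of_equiv g e' h3⟩
  obtain ⟨a, b, rfl⟩ := H59.exists_add_eq_of_isCompl hc x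
  obtain ⟨c, d, rfl⟩ := H59.exists_add_eq_of_isCompl hc y
  simp [h2, h3, h1, hU c.2 a a.2, hW d.2 b b.2, hU' (e c).2 _ (e a).2, hW' (e' d).2 _ (e' b).2,
    hB.symm (e c : V) (e' b), hB.symm (c : V) b]

theorem exists_dvd_pair [Finite F] (hd : finrank F V = 2 * d) (hr : r.Prime) (h0 : (r : F) ≠ 0)
    (h : r ∣ Nat.card {P : Submodule F V × Submodule F V // IsCompl P.1 P.2 ∧ TI B P.1 ∧ TI B P.2}) :
    ∃ j < d, r ∣ Nat.card F ^ (j + 1) + 1 := by
  obtain ⟨U, W, hc, hU, hW, -⟩ := exists_ti_pair hB ha Inv.one (fun _ _ => True) trivial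
    (fun _ _ _ _ _ _ => trivial) fun E _ hE e => by
      obtain ⟨x, hx, e⟩ := (Submodule.ne_bot_iff E).1 e
      obtain ⟨y, hy, e'⟩ := (nd_iff hB).1 hE x hx e
      exact ⟨x, hx, y, hy, e', fun _ => id, trivial⟩
  have h1 := H54.card_eq_card_mul_card_of_orbit (H59.isom B) (_ ⊓ MulAction.stabilizer _ (U, W)) (U, W)
    {P | IsCompl P.1 P.2 ∧ TI B P.1 ∧ TI B P.2} (fun P => ⟨fun ⟨h1, h2, h3⟩ => by
      obtain ⟨g, h4, h5, h6⟩ := exists_isom_pair hB hc hU hW h1 h2 h3 (LinearEquiv.ofFinrankEq _ _ (by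
        have := (finrank_of_pair hB hc hU hW).1
        have := (finrank_of_pair hB h1 h2 h3).1
        omega))
      exact ⟨g, h4, Prod.ext (smul_eq_of_equiv g _ h5) h6⟩, by
      rintro ⟨g, hg, rfl⟩
      refine ⟨(Submodule.orderIsoMapComap g).isCompl hc, ?_, ?_⟩ <;>
        rintro _ ⟨y, hy, rfl⟩ _ ⟨x, hx, rfl⟩
      exacts [(hg x y).trans (hU hy x hx), (hg x y).trans (hW hy x hx)]⟩) fun _ => Iff.rfl
  let ρ : ↥(H59.isom B ⊓ MulAction.stabilizer (V ≃ₗ[F] V) (U, W)) →* U ≃ₗ[F] U :=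
    { toFun := fun g => g.1.ofSubmodules U U (congrArg Prod.fst g.2.2)
      map_one' := rfl
      map_mul' := fun _ _ => rfl }
  obtain ⟨m, h2⟩ := Subgroup.card_dvd_of_surjective ρ fun e => by
    obtain ⟨g, h2, h3, h4⟩ := exists_isom_pair hB hc hU hW hc hU hW e
    exact ⟨⟨g, h2, Prod.ext (smul_eq_of_equiv g e h3) h4⟩,
      LinearEquiv.ext fun u => Subtype.ext (h3 u)⟩
  have h3 := (finrank_of_pair hB hc hU hW).1
  have hq : 1 < Nat.card F := Finite.one_lt_card
  have h4 : ∀ d, H54.spOrder (Nat.card F) d = glo (Nat.card F) d *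
      ∏ j ∈ Finset.range d, (Nat.card F ^ (j + 1) * (Nat.card F ^ (j + 1) + 1)) := fun d => by
    induction d with
    | zero => simp [H54.spOrder_zero, glo]
    | succ d ih =>
      rw [H54.spOrder_succ, ih, glo_succ, Finset.prod_range_succ, mul_comm 2 (d + 1), pow_mul,
        ← one_pow 2, Nat.sq_sub_sq, one_pow]
      ring
  rw [show Nat.card (H59.isom B) = _ from H54.card_Isom hB.nondegenerate ha hd, h2,
    card_linearEquiv_eq, show finrank F U = d by omega, h4, mul_left_comm,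
    Nat.mul_right_inj (glo_pos hq d).ne'] at h1
  exact exists_dvd_of_dvd_prod hr (not_dvd_card_of_ne_zero hr h0) (h1 ▸ h.mul_right m)

end H58
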