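import Cfsg.Agent.H58.ElCh2
import Cfsg.Agent.H53.Wall

/-!
Orthogonal splitting of unipotent isometries into Jordan blocks; symplectic groups.
-/

open Polynomial Module

namespace H58

open H53
open H59 (perp mem_perp)

variable {F : Type*} [Field F] {ε : F}
variable {V : Type*} [AddCommGroup V] [Module F V] [FiniteDimensional F V]
variable {B : V →ₗ[F] V →ₗ[F] F} {f : End F V} {A E W : Submodule F V} {μ ν : Multiset ℕ}
variable {m d k : ℕ}

theorem eq_replicate_of_sum {N K : ℕ} (h1 : ∀ j ∈ μ, j ≤ K) (h2 : μ.card ≤ N) (h0 : 0 < K)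
    (h3 : μ.sum = N * K) : μ = Multiset.replicate N K := by
  have h4 : ∀ ν : Multiset ℕ, (∀ j ∈ ν, j ≤ K) → ν.sum ≤ ν.card * K := fun ν h => by
    simpa using Multiset.sum_le_card_nsmul ν K h
  have h5 : μ.card = N := le_antisymm h2 (Nat.le_of_mul_le_mul_right (h3 ▸ h4 μ h1) h0)
  refine Multiset.eq_replicate.2 ⟨h5, fun j hj => ?_⟩
  obtain ⟨ν, rfl⟩ := Multiset.exists_cons_of_mem hj
  have h6 := h4 ν fun i hi => h1 i (Multiset.mem_cons_of_mem hi)
  have h7 := h1 j hj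
  rw [Multiset.card_cons] at h5
  rw [Multiset.sum_cons, ← h5, add_mul, one_mul] at h3
  omega

theorem sh_pow_apply (ι : Type*) (j : ℕ) (v : ι × Fin (k + 1) → F) (p : ι × Fin (k + 1))
    (h : p.2.1 < j) : (sh F ι k ^ j) v p = 0 := by
  induction j generalizing p with
  | zero => omega
  | succ j ih =>
    obtain ⟨i, l⟩ := p
    rw [pow_succ', End.mul_apply]
    cases l using Fin.cases with
    | zero => rfl
    | succ l => exact ih (i, l.castSucc) (by simpa using h)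

theorem ed_fM (ι : Type*) [Fintype ι] [DecidableEq ι] (k : ℕ) :
    ed (fM ι k (1 : F)) = up F (Multiset.replicate (Fintype.card ι) (k + 1)) := by
  have h1 : fM ι k (1 : F) - 1 = sh F ι k := by rw [fM, map_one, add_sub_cancel_right]
  have h2 : (fM ι k (1 : F) - 1) ^ (k + 1) = 0 :=
    h1 ▸ LinearMap.ext fun v => funext fun p => sh_pow_apply ι _ v p p.2.2
  rw [ed_eq_map_jt ⟨_, h2⟩, eq_replicate_of_sum ((sub_one_pow_eq_zero_iff_jt ⟨_, h2⟩ _).1 h2)
    (N := Fintype.card ι) ?_ k.succ_pos (by simp [sum_jt])]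
  rw [← finrank_ker_sub_one ⟨_, h2⟩, h1]
  have h3 := LinearMap.finrank_range_add_finrank_ker (sh F ι k)
  have h4 := LinearMap.finrank_range_add_finrank_ker
    (LinearMap.funLeft F F fun i : ι => ((i, 0) : ι × Fin (k + 1)))
  have h5 := Submodule.finrank_mono (show LinearMap.ker (LinearMap.funLeft F F fun i : ι =>
    ((i, 0) : ι × Fin (k + 1))) ≤ LinearMap.range (sh F ι k) from fun v hv => exists_sh (congrFun hv))
  have h6 := Submodule.finrank_le (LinearMap.range (LinearMap.funLeft F F fun i : ι =>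
    ((i, 0) : ι × Fin (k + 1))))
  rw [finrank_fintype_fun_eq_card] at h6
  omega

theorem exists_nd_piece (hB : IsSF (σ := RingHom.id F) ε B) (hf : Inv B f) {N : ℕ}
    (x : Fin N → LinearMap.ker (nl f 1 ^ (k + 1))) (h : gramB (tf B f 1 k) x ≠ 0) :
    ∃ A, St f A ∧ ND B A ∧ edOn f A = up F (Multiset.replicate N (k + 1)) := by
  obtain ⟨hA, hd, h1⟩ := exists_piece hB hf (one_mul 1) (fun i => (x i).2) h
  exact ⟨_, hA, hd, by rw [edOn_eq hA, ← h1.sim.ed_eq, ed_fM, Fintype.card_fin]⟩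

open Classical in
theorem exists_nd_block (hB : IsSF (σ := RingHom.id F) ε B) (h2 : (2 : F) ≠ 0) (hf : Inv B f)
    (h : (X - 1) ^ (k + 1) ∈ ed f) : ∃ A, St f A ∧ ND B A ∧
      edOn f A = up F (Multiset.replicate (if ε * (-1) ^ (k + 1) = 1 then 2 else 1) (k + 1)) := by
  obtain ⟨y, h3, h4⟩ := exists_notMem_range (f := f) (c := 1) (k := k) (by simpa using h)
  obtain ⟨z, h5⟩ : ∃ z, tf B f 1 k ⟨y, h3⟩ z ≠ 0 := by
    by_contra! h5
    exact h4 ((mem_ker_tf hB hf (one_mul 1) ⟨y, h3⟩).1 (LinearMap.ext h5))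
  have h6 := tf_symm (k := k) hB hf (one_mul 1)
  split_ifs with h7
  · have h8 : ε * (-1) ^ k = -1 := by linear_combination -h7
    have h9 : ∀ x, tf B f 1 k x x = 0 := fun x => mul_left_cancel₀ h2 (by
      linear_combination h6 x x + tf B f 1 k x x * h8)
    refine exists_nd_piece hB hf ![⟨y, h3⟩, z] ?_
    simpa [gramB, Matrix.det_fin_two, h9, h6 ⟨y, h3⟩ z, h8] using h5
  · have h8 : ε * (-1) ^ k = 1 := by
      have h9 : (ε * (-1) ^ k) * (ε * (-1) ^ k) = 1 := by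
        rw [mul_mul_mul_comm, ← mul_pow, neg_mul_neg, mul_one, one_pow, mul_one]
        simpa using hB.eps
      exact (mul_self_eq_one_iff.1 h9).resolve_right fun h => h7 (by linear_combination -h)
    obtain ⟨x, hx⟩ : ∃ x, tf B f 1 k x x ≠ 0 := by
      by_contra! h9
      have := h9 (⟨y, h3⟩ + z)
      simp only [map_add, LinearMap.add_apply, h9, h6 ⟨y, h3⟩ z, h8] at this
      exact h5 (mul_left_cancel₀ h2 (by linear_combination this))
    exact exists_nd_piece hB hf ![x] (by simpa [gramB] using hx)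

open Classical in
theorem exists_nd_block_le (hB : IsSF (σ := RingHom.id F) ε B) (h2 : (2 : F) ≠ 0) (hf : Inv B f)
    (hE : St f E) (hd : ND B E) (h : (X - 1) ^ (k + 1) ∈ edOn f E) : ∃ A ≤ E, St f A ∧ ND B A ∧
      edOn f A = up F (Multiset.replicate (if ε * (-1) ^ (k + 1) = 1 then 2 else 1) (k + 1)) := by
  obtain ⟨A, h3, h4, h5⟩ := exists_nd_block (hB.restrict hd) h2 (hf.restrict hE) (edOn_eq hE ▸ h)
  exact ⟨_, E.map_subtype_le A, h3.map E.subtype fun _ => rfl, (nd_map_subtype hB hd).2 h4,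
    (edOn_map_subtype hE h3).trans h5⟩

theorem up_add (μ ν : Multiset ℕ) : up F (μ + ν) = up F μ + up F ν := Multiset.map_add _ _ _

theorem exists_nd_up (hB : IsSF (σ := RingHom.id F) ε B) (h2 : (2 : F) ≠ 0) (hf : Inv B f) (n : ℕ) :
    ∀ (ν ρ : Multiset ℕ) (E : Submodule F V), ν.card = n → St f E → ND B E →
      edOn f E = up F (ν + ρ) → (∀ k, ε * (-1) ^ k = 1 → Even (ν.count k)) →
      ∃ W ≤ E, St f W ∧ ND B W ∧ edOn f W = up F ν := by
  induction n using Nat.strong_induction_on with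
  | _ n ih =>
  classical
  intro ν ρ E hn hE hd he h
  rcases Multiset.empty_or_exists_mem ν with rfl | ⟨k, hk⟩
  · exact ⟨⊥, bot_le, st_bot f, nd_bot, by simp [edOn_bot]⟩
  have h3 : (X - 1) ^ k ∈ edOn f E := he ▸ Multiset.mem_map_of_mem _ (Multiset.mem_add.2 (.inl hk))
  obtain _ | k := k
  · simpa using (edOn_isPP f E _ h3).natDegree_pos
  obtain ⟨A, h4, h5, h6, h7⟩ := exists_nd_block_le hB h2 hf hE hd h3
  obtain ⟨ν, rfl⟩ := Multiset.le_iff_exists_add.1 (Multiset.le_count_iff_replicate_le.1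
    (show (if ε * (-1) ^ (k + 1) = 1 then 2 else 1) ≤ ν.count (k + 1) by
      have := Multiset.one_le_count_iff_mem.2 hk
      split_ifs with h8
      · have := Nat.even_iff.1 (h _ h8)
        omega
      · exact this))
  have h8 := edOn_eq_add_inf hB hf h5 h6 hE hd h4
  rw [he, h7, add_assoc, up_add, add_right_inj] at h8
  obtain ⟨W, h9, h10, h11, h12⟩ := ih _ (by rw [← hn]; split_ifs <;> simp) ν ρ _ rfl
    (hE.inf (hf.perp_mapsTo hB h5)) (h6.inf_perp hB hd h4).1 h8.symm fun j hj => by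
      have := h j hj
      rw [Multiset.count_add, Multiset.count_replicate] at this
      split_ifs at this with h9 h10
      · exact (Nat.even_add.1 this).1 even_two
      · exact absurd (h9 ▸ hj) h10
      · simpa using this
  have h13 := h9.trans inf_le_right
  exact ⟨A ⊔ W, sup_le h4 (h9.trans inf_le_left), h5.sup h10, h6.sup hB h11 h13,
    by rw [edOn_sup h5 h10 (h6.disjoint h13), h7, h12, up_add]⟩

theorem sp_nd_char (p : ℕ) [hp : Fact p.Prime] [CharP F p] (h2 : (2 : F) ≠ 0)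
    (hB : IsSF (σ := RingHom.id F) (-1) B) (ha : ∀ x, B x x = 0) (hm : m ≤ finrank F V)
    (hme : Even m) : (∀ f, Inv B f → f ^ p = 1 → f ≠ 1 →
      ∃ W : Submodule F V, (finrank F W = m ∧ ND B W) ∧ St f W) ↔
    ∀ μ : Multiset ℕ, (∀ a ∈ μ, 0 < a ∧ a ≤ p) → (∀ a, Odd a → Even (μ.count a)) →
      μ.sum = finrank F V → ∃ ν ≤ μ, ν.sum = m ∧ ∀ a, Odd a → Even (ν.count a) := by
  refine ⟨fun H μ h0 h1 h3 => ?_, fun H f hf h0 _ => ?_⟩
  · rcases eq_replicate_one_or fun k hk => (h0 k hk).1 with h4 | ⟨k, h4, h5⟩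
    · refine ⟨Multiset.replicate m 1, h4 ▸ (Multiset.replicate_le_replicate 1).2 (by omega), by simp,
        fun k _ => ?_⟩
      rw [Multiset.count_replicate]
      split_ifs <;> simp [hme]
    obtain ⟨f, h6, h7⟩ := exists_inv_alt hB ha ((real_alt_unip_iff fun k hk => (h0 k hk).1).2 h1)
      (dgs_up.trans h3)
    obtain ⟨W, ⟨h8, h9⟩, h10⟩ := H f h6 (pow_char_of_ed_up p h7 fun k hk => (h0 k hk).2)
      (by simpa using ne_smul_of_ed_up h7 h4 h5 1)
    obtain ⟨ν, ρ, rfl, h11, -, h12⟩ := exists_up_of_nd hB h6 h7 h10 h9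
    exact ⟨ν, Multiset.le_add_right _ _, h12.trans h8, (real_alt_unip_iff fun k hk =>
      (h0 k (Multiset.mem_add.2 (.inl hk))).1).1 (h11 ▸ real_edOn hB (fun _ => ha) h6 h10 h9)⟩
  · have h1 := ed_eq_map_jt (isNilpotent_of_pow_char p h0)
    obtain ⟨ν, h3, h4, h5⟩ := H _ (le_of_pow_char p h0) ((real_alt_unip_iff (jt_pos f)).1
      (h1 ▸ edOn_top f ▸ real_edOn hB (fun _ => ha) hf (st_top f) (nd_top hB))) (sum_jt f)
    obtain ⟨ρ, h6⟩ := Multiset.le_iff_exists_add.1 h3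
    obtain ⟨W, -, h7, h8, h9⟩ := exists_nd_up hB h2 hf _ ν ρ ⊤ rfl (st_top f) (nd_top hB)
      (by rw [edOn_top, h1, h6]) fun k hk => h5 k (Nat.not_even_iff_odd.1 fun h => h2 (by
        rw [h.neg_one_pow] at hk
        linear_combination -hk))
    exact ⟨W, ⟨by rw [← dg_edOn h7, h9, dgs_up, h4], h8⟩, h7⟩

theorem sp_nd_char_two (h2 : (2 : F) = 0) (hB : IsSF (σ := RingHom.id F) (-1) B)
    (ha : ∀ x, B x x = 0) (hd : finrank F V = 2 * d) (h0 : 0 < d) (hm : m ≤ 2 * d) (hme : Even m) :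
    (∀ f, Inv B f → f ^ 2 = 1 → f ≠ 1 →
      ∃ W : Submodule F V, (finrank F W = m ∧ ND B W) ∧ St f W) ↔ (Odd d ∨ m % 4 = 0) := by
  have hm' := Nat.even_iff.1 hme
  rw [Nat.odd_iff]
  refine ⟨fun H => ?_, fun H f hf h _ => ?_⟩
  · by_contra! h
    have : CharP F 2 := CharTwo.of_one_ne_zero_of_two_eq_zero one_ne_zero h2
    obtain ⟨U, h1, h3⟩ := exists_ti_alt hB ha (j := d) (by omega)
    obtain ⟨f, h4, rfl, h5⟩ := exists_atype (CharTwo.neg_eq (1 : F) ▸ hB) h3
      (Nat.even_iff.2 (by omega))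
    have h6 := pow_char_of_sq 2 (sq_eq_zero_of_ti hB h4 h3)
    obtain ⟨W, ⟨h7, h8⟩, h9⟩ := H f h4 h6 (by
      rintro rfl
      rw [sub_self, LinearMap.range_zero, finrank_bot] at h1
      omega)
    have h10 := h4.perp_mapsTo hB h9
    have h11 := rkOn_add_perp hB h4 h9 h8
    have h12 := Nat.even_iff.1 (even_rkOn hB (fun v _ => h5 v) h9 h8)
    have h13 := two_mul_rkOn_le hB h2 h4 h6 h9 h8
    have h14 := two_mul_rkOn_le hB h2 h4 h6 h10 (hB.disjoint_perp h8)
    have h15 := hB.finrank_add_finrank_perp W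
    omega
  · rcases exists_nd_or_atype hB ha h2 hf h _ ⊤ rfl (st_top f) (nd_top hB) m hme
      (by simpa [hd] using hm) with ⟨W, -, h1, h3, h4⟩ | ⟨h1, h3, h4⟩
    · exact ⟨W, ⟨h4, h3⟩, h1⟩
    · have := Nat.even_iff.1 (even_rkOn hB h1 (st_top f) (nd_top hB))
      rw [finrank_top] at h3
      omega

end H58
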