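import Cfsg.Agent.H58.ElImp3
import Cfsg.Agent.H58.ElSpU

/-!
Roots of unity in finite fields; elements whose square is a scalar.
-/

open Polynomial Module

namespace H58

open H53
open H59 (perp mem_perp)

section mu

variable {F : Type*} [Field F] {M n r k q : ℕ}

theorem exists_prim_of_dvd [Finite F] (hM : M ∣ Nat.card F - 1) : ∃ ζ : F, IsPrimitiveRoot ζ M := by
  obtain ⟨g, hg⟩ := IsCyclic.exists_ofOrder_eq_natCard (α := Fˣ)
  rw [← Nat.card_units, ← hg] at hM
  refine ⟨(g ^ (orderOf g / M) : Fˣ), IsPrimitiveRoot.coe_units_iff.2 ?_⟩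
  have := IsPrimitiveRoot.orderOf (g ^ (orderOf g / M))
  rwa [orderOf_pow_orderOf_div (orderOf_pos g).ne' hM] at this

theorem ne_zero_of_dvd_card [Finite F] (hM : M ∣ Nat.card F - 1) : M ≠ 0 := by
  rintro rfl
  have := Finite.one_lt_card (α := F)
  have := Nat.eq_zero_of_zero_dvd hM
  omega

theorem exists_mu_pow_neg_iff [Finite F] (h2 : (2 : F) ≠ 0) (hM : M ∣ Nat.card F - 1) (hn : n ≠ 0) :
    (∃ b : F, b ^ M = 1 ∧ b ^ n = -1) ↔ padicValNat 2 n < padicValNat 2 M := by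
  have h0 := ne_zero_of_dvd_card hM
  obtain ⟨u, n', h1, rfl⟩ := Nat.exists_eq_two_pow_mul_odd hn
  obtain ⟨v, M', h3, rfl⟩ := Nat.exists_eq_two_pow_mul_odd h0
  have key : ∀ u n', Odd n' → padicValNat 2 (2 ^ u * n') = u := fun u n' h => by
    rw [padicValNat.mul (by positivity) h.pos.ne', padicValNat.prime_pow,
      padicValNat.eq_zero_of_not_dvd h.not_two_dvd_nat, add_zero]
  rw [key u n' h1, key v M' h3]
  constructor
  · rintro ⟨b, h4, h5⟩
    by_contra! h6
    obtain ⟨e, rfl⟩ := Nat.exists_eq_add_of_le h6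
    have h7 := congrArg (· ^ M') h5
    simp only [h3.neg_one_pow] at h7
    rw [← pow_mul, show 2 ^ (v + e) * n' * M' = 2 ^ v * M' * (2 ^ e * n') by ring, pow_mul, h4,
      one_pow] at h7
    exact h2 (by linear_combination h7)
  · intro h4
    obtain ⟨e, rfl⟩ := Nat.exists_eq_add_of_lt h4
    obtain ⟨ζ, h5⟩ := exists_prim_of_dvd hM
    refine ⟨ζ ^ (2 ^ e * M'), by rw [← pow_mul, mul_comm, pow_mul, h5.pow_eq_one, one_pow], ?_⟩
    have h6 : IsPrimitiveRoot (ζ ^ (2 ^ (u + e) * M')) 2 := h5.pow h0.bot_lt (by ring)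
    rw [← pow_mul, show 2 ^ e * M' * (2 ^ u * n') = 2 ^ (u + e) * M' * n' by ring, pow_mul,
      h6.eq_neg_one_of_two_right, h1.neg_one_pow]

theorem exists_mu_nonpow_iff [Finite F] [hp : Fact r.Prime] (hM : M ∣ Nat.card F - 1) (hr : r ∣ M)
    (k : ℕ) : (∃ c : F, c ^ M = 1 ∧ (∀ b, b ^ M = 1 → b ^ r ≠ c) ∧ c ^ k = 1) ↔
      r ^ padicValNat r M ∣ k := by
  have : NeZero M := ⟨ne_zero_of_dvd_card hM⟩
  obtain ⟨ζ, h1⟩ := exists_prim_of_dvd hM
  have h2 : Nat.card (rootsOfUnity M F) = M := h1.card_rootsOfUnity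
  have := exists_nonpow_iff (G := rootsOfUnity M F) (h2.symm ▸ hr) k
  rw [h2] at this
  rw [← this]
  constructor
  · rintro ⟨c, h3, h4, h5⟩
    exact ⟨rootsOfUnity.mkOfPowEq c h3, fun b hb => h4 (b.1 : F) (by simpa using congrArg Units.val b.2)
      (by simpa using congrArg (fun x => (x.1 : F)) hb), Subtype.ext (Units.ext (by simpa using h5))⟩
  · rintro ⟨c, h3, h4⟩
    exact ⟨(c.1 : F), by simpa using congrArg Units.val c.2, fun b h5 h6 =>
      h3 (rootsOfUnity.mkOfPowEq b h5) (Subtype.ext (Units.ext (by simpa using h6))),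
      by simpa using congrArg (fun x => (x.1 : F)) h4⟩

theorem exists_pow_pow_eq (h : n.Coprime M) (h0 : M ≠ 0) {c : F} (hc : c ^ M = 1) :
    ∃ u, (c ^ u) ^ n = c := by
  rcases eq_or_ne M 1 with rfl | h1
  · exact ⟨1, by simp [show c = 1 by simpa using hc]⟩
  obtain ⟨u, -, hu⟩ := Nat.exists_mul_mod_eq_one_of_coprime h (by omega)
  exact ⟨u, by rw [← pow_mul, mul_comm, pow_eq_pow_mod _ hc, hu, pow_one]⟩

theorem eq_one_of_coprime (h : n.Coprime M) {c : F} (h1 : c ^ n = 1) (h2 : c ^ M = 1) : c = 1 :=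
  pow_one c ▸ h ▸ pow_gcd_eq_one.2 ⟨h1, h2⟩

theorem lin_of_mem_cycF [Finite F] (h0 : (r : F) ≠ 0) (h : r ∣ Nat.card F - 1) {P : F[X]}
    (hP : P ∈ cycF F r) : ∃ ω, ω ^ r = 1 ∧ P = X - C ω := by
  have h1 := natDegree_of_mem_cycF h0 hP
  rw [(orderOf_eq_one_iff_dvd Nat.card_pos).2 h] at h1
  have h2 := ((mem_cycF h0).1 hP).1.eq_X_add_C h1
  refine ⟨-P.coeff 0, ?_, by rw [C_neg, sub_neg_eq_add, ← h2]⟩
  have h3 := dvd_of_mem_cycF h0 hP
  rw [h2, ← sub_neg_eq_add, ← C_neg, dvd_iff_isRoot] at h3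
  simpa [sub_eq_zero] using h3

end mu

variable {F : Type*} [Field F] {σ : F →+* F} {ε : F}
variable {V : Type*} [AddCommGroup V] [Module F V] [FiniteDimensional F V]
variable {B : V →ₛₗ[σ] V →ₗ[F] F} {f : End F V} {s : Multiset F[X]} {N m r k : ℕ} {y z : F}

theorem det_eq_of_ed (f : End F V) :
    LinearMap.det f = (-1) ^ finrank F V * (ed f).prod.coeff 0 := by
  rw [LinearMap.det_eq_sign_charpoly_coeff, charpoly_eq_prod_ed]

theorem det_of_prod (hr : r ≠ 0) (hn : finrank F V = k * r) (h : (ed f).prod = (X ^ r - C z) ^ k) :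
    LinearMap.det f = ((-1) ^ (r + 1) * z) ^ k := by
  rw [det_eq_of_ed, h, hn, coeff_zero_eq_eval_zero, mul_comm k, pow_mul]
  simp only [eval_pow, eval_sub, eval_X, eval_C, zero_pow hr, ← mul_pow]
  congr 1
  ring

theorem det_of_add (h : ed f = s + Multiset.replicate N (X - 1)) :
    LinearMap.det f = (-1) ^ dgs s * s.prod.coeff 0 := by
  have h1 := dg_ed f
  rw [h, dg_add, dg_replicate, natDegree_X_sub_one, mul_one] at h1
  rw [det_eq_of_ed, h, ← h1, Multiset.prod_add, Multiset.prod_replicate, mul_coeff_zero,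
    coeff_zero_eq_eval_zero (_ ^ N), pow_add]
  simp only [eval_pow, eval_sub, eval_X, eval_one, zero_sub]
  have h2 : (-1 : F) ^ N * (-1) ^ N = 1 := by rw [← mul_pow]; simp
  linear_combination (-1) ^ dgs s * s.prod.coeff 0 * h2

theorem det_of_lin (t : Multiset F) (h : ed f = t.map fun a => X - C a) : LinearMap.det f = t.prod := by
  have h1 := dg_ed f
  rw [det_eq_of_ed, ← h1, h]
  clear h h1
  induction t using Multiset.induction_on with
  | empty => simp [dg_zero]
  | cons a t ih =>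
    rw [Multiset.map_cons, Multiset.prod_cons, Multiset.prod_cons, ← ih, ← Multiset.singleton_add,
      dg_add, dg_singleton, natDegree_X_sub_C, mul_coeff_zero, pow_add]
    simp [mul_left_comm]

theorem mem_ed_of_sq (hs : f.IsSemisimple) (h : f ^ 2 = (y * y) • 1) :
    ∀ P ∈ ed f, P = X - C y ∨ P = X - C (-y) := fun P hP => by
  have h1 := (pow_eq_smul_one_iff_ed f 2 _).1 h P hP
  rw [show (X ^ 2 - C (y * y) : F[X]) = (X - C y) * (X - C (-y)) by rw [C_mul, C_neg]; ring] at h1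
  have h2 := irreducible_of_ss hs P hP
  exact (h2.prime.dvd_or_dvd h1).imp
    (fun e => eq_of_monic_of_associated (ed_isPP f P hP).monic (monic_X_sub_C _)
      (h2.associated_of_dvd (irreducible_X_sub_C _) e))
    fun e => eq_of_monic_of_associated (ed_isPP f P hP).monic (monic_X_sub_C _)
      (h2.associated_of_dvd (irreducible_X_sub_C _) e)

theorem exists_ed_of_sq (h2 : (2 : F) ≠ 0) (hy : y ≠ 0) (h : f ^ 2 = (y * y) • 1) :
    ∃ a b, a + b = finrank F V ∧
      ed f = Multiset.replicate a (X - C y) + Multiset.replicate b (X - C (-y)) := by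
  classical
  have h1 := mem_ed_of_sq (isSemisimple_of_pow (by simpa using h2) (mul_ne_zero hy hy) h) h
  obtain ⟨a, b, h3⟩ : ∃ a b,
      ed f = Multiset.replicate a (X - C y) + Multiset.replicate b (X - C (-y)) :=
    ⟨_, _, (Multiset.filter_add_not (· = X - C y) (ed f)).symm.trans (congrArg₂ _
      (Multiset.eq_replicate_card.2 fun P hP => (Multiset.mem_filter.1 hP).2)
      (Multiset.eq_replicate_card.2 fun P hP =>
        (h1 P (Multiset.mem_filter.1 hP).1).resolve_left (Multiset.mem_filter.1 hP).2))⟩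
  refine ⟨a, b, ?_, h3⟩
  have h4 := dg_ed f
  rwa [h3, dg_add, dg_replicate, dg_replicate, natDegree_X_sub_C, natDegree_X_sub_C, mul_one,
    mul_one] at h4

theorem det_of_two {a b : ℕ}
    (h : ed f = Multiset.replicate a (X - C y) + Multiset.replicate b (X - C z)) :
    LinearMap.det f = y ^ a * z ^ b := by
  rw [det_of_lin (Multiset.replicate a y + Multiset.replicate b z) (by simp [h])]
  simp

theorem sq_of_two {a b : ℕ}
    (h : ed f = Multiset.replicate a (X - C y) + Multiset.replicate b (X - C (-y))) :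
    f ^ 2 = (y * y) • 1 := (pow_eq_smul_one_iff_ed f 2 _).2 fun P hP => by
  rw [show (X ^ 2 - C (y * y) : F[X]) = (X - C y) * (X - C (-y)) by rw [C_mul, C_neg]; ring]
  rcases Multiset.mem_add.1 (h ▸ hP) with e | e <;> rw [Multiset.eq_of_mem_replicate e]
  exacts [dvd_mul_right _ _, dvd_mul_left _ _]

theorem ne_smul_of_mem_ed {P Q : F[X]} (hP : P ∈ ed f) (hQ : Q ∈ ed f) (h : P ≠ Q) (c : F) :
    f ≠ c • 1 := fun e =>
  h (((eq_smul_one_iff_ed f c).1 e P hP).trans ((eq_smul_one_iff_ed f c).1 e Q hQ).symm)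

theorem isPP_two {a b : ℕ} :
    ∀ P ∈ Multiset.replicate a (X - C y) + Multiset.replicate b (X - C z), IsPP P := fun _ hP =>
  (Multiset.mem_add.1 hP).elim (fun e => Multiset.eq_of_mem_replicate e ▸ isPP_X_sub_C _)
    fun e => Multiset.eq_of_mem_replicate e ▸ isPP_X_sub_C _

theorem coeff_two {a b : ℕ} (hy : y ≠ 0) (hz : z ≠ 0) :
    ∀ P ∈ Multiset.replicate a (X - C y) + Multiset.replicate b (X - C z), P.coeff 0 ≠ 0 := fun _ hP =>
  (Multiset.mem_add.1 hP).elim (fun e => by simpa [Multiset.eq_of_mem_replicate e])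
    fun e => by simpa [Multiset.eq_of_mem_replicate e]

theorem dg_two {a b : ℕ} :
    dgs (Multiset.replicate a (X - C y) + Multiset.replicate b (X - C z)) = a + b := by
  rw [dg_add, dg_replicate, dg_replicate, natDegree_X_sub_C, natDegree_X_sub_C, mul_one, mul_one]

theorem le_two_iff {α : Type*} {x x' : α} {a b : ℕ} {w : Multiset α} :
    w ≤ Multiset.replicate a x + Multiset.replicate b x' ↔
      ∃ i ≤ a, ∃ j ≤ b, w = Multiset.replicate i x + Multiset.replicate j x' := by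
  constructor
  · intro h
    obtain ⟨u, j, h1, h2, rfl⟩ := exists_of_le_add_replicate h
    obtain ⟨i, h3, rfl⟩ := Multiset.le_replicate_iff.1 h1
    exact ⟨i, h3, j, h2, rfl⟩
  · rintro ⟨i, h1, j, h2, rfl⟩
    exact add_le_add ((Multiset.replicate_le_replicate _).2 h1) ((Multiset.replicate_le_replicate _).2 h2)

theorem two_inj {α : Type*} {x x' : α} (h : x ≠ x') {a b i j : ℕ} :
    Multiset.replicate a x + Multiset.replicate b x' ≤ Multiset.replicate i x + Multiset.replicate j x' ↔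
      a ≤ i ∧ b ≤ j := by
  classical
  refine ⟨fun e => ⟨?_, ?_⟩, fun e => le_two_iff.2 ⟨a, e.1, b, e.2, rfl⟩⟩
  · simpa [Multiset.count_replicate, h, h.symm] using Multiset.count_le_of_le x e
  · simpa [Multiset.count_replicate, h, h.symm] using Multiset.count_le_of_le x' e

theorem X_sub_C_ne_neg (h2 : (2 : F) ≠ 0) (hy : y ≠ 0) : (X - C y : F[X]) ≠ X - C (-y) := fun e =>
  mul_ne_zero h2 hy (by linear_combination C_injective (sub_right_injective e))

theorem nd_iff_ed [Finite F] (hσ : σ ≠ RingHom.id F) (hB : IsSF ε B) (hf : Inv B f) :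
    (∃ W : Submodule F V, (finrank F W = m ∧ ND B W) ∧ St f W) ↔
      ∃ w ≤ ed f, w.map (pstar σ) = w ∧ dgs w = m := by
  constructor
  · rintro ⟨W, ⟨h1, h2⟩, h3⟩
    exact ⟨_, ed_eq_edOn_add_perp hB hf h3 h2 ▸ Multiset.le_add_right _ _, map_pstar_edOn hB hf h3 h2,
      (dg_edOn h3).trans h1⟩
  · rintro ⟨w, h1, h2, h3⟩
    obtain ⟨W, -, h4, h5, rfl⟩ := exists_nd_le hB hf (st_top f) (nd_top hB) (.inl hσ)
      (edOn_top f ▸ h1) h2
    exact ⟨W, ⟨(dg_edOn h4).symm.trans h3, h5⟩, h4⟩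

theorem ti_iff_ed [Finite F] (hσ : σ ≠ RingHom.id F) (hB : IsSF ε B) (hf : Inv B f)
    (hs : f.IsSemisimple) : (∃ W : Submodule F V, (finrank F W = m ∧ TI B W) ∧ St f W) ↔
      ∃ w, w + w.map (pstar σ) ≤ ed f ∧ dgs w = m := by
  constructor
  · rintro ⟨W, ⟨h1, h2⟩, h3⟩
    exact ⟨_, add_map_pstar_le hB hf hs h3 h2, (dg_edOn h3).trans h1⟩
  · rintro ⟨w, h1, h3⟩
    obtain ⟨W, -, h4, h5, rfl⟩ := exists_ti_le hB hf (st_top f) (nd_top hB) (.inl hσ)
      (edOn_top f ▸ h1)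
    exact ⟨W, ⟨(dg_edOn h4).symm.trans h3, h5⟩, h4⟩

end H58
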