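import Cfsg.Agent.H58.ElOrd

/-!
Elements of prime order fixing nondegenerate subspaces: the semisimple case.
-/

open Polynomial Module

namespace H58

open H53
open H59 (perp mem_perp)
open H56 (O SqCl sqcl)

section arith

variable {c m n : ℕ}

theorem arith_nd (τ : ℕ → Prop) (h0 : τ 0) (hτ : (∀ a, τ a) ∨ ∀ a, τ (a + 1) ↔ ¬ τ a) (ε η : Prop)
    (hc : 0 < c) (hm0 : 0 < m) (hm : m < n)
    (hD : ∃ a N, 0 < a ∧ a * c + N = n ∧ (N < m ∨ (N = m ∧ ¬ ((ε ↔ η) ↔ τ a)))) :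
    (∀ a N, 0 < a → a * c + N = n → (N = 0 → (ε ↔ τ a)) → ∃ b ≤ a, ∃ j ≤ N, m = b * c + j ∧
      (j = 0 → (η ↔ τ b)) ∧ (j = N → (η ↔ (τ b ↔ (ε ↔ τ a))))) ↔
    ((n % c = 0 ∧ ¬ (ε ↔ τ (n / c))) ∨ (c ≤ m ∧ m % c ≤ n % c ∧ (m % c = 0 → (η ↔ τ (m / c))) ∧
      (m % c = n % c → (η ↔ (τ (m / c) ↔ (ε ↔ τ (n / c))))))) := by
  obtain ⟨n', k, hk, rfl⟩ : ∃ n' k, k < c ∧ n = n' * c + k :=
    ⟨n / c, n % c, Nat.mod_lt _ hc, (Nat.div_add_mod' n c).symm⟩
  obtain ⟨m', l, hl, rfl⟩ : ∃ m' l, l < c ∧ m = m' * c + l :=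
    ⟨m / c, m % c, Nat.mod_lt _ hc, (Nat.div_add_mod' m c).symm⟩
  rw [← (eq_mod_of_eq rfl hk).1, ← (eq_mod_of_eq rfl hk).2, ← (eq_mod_of_eq rfl hl).1,
    ← (eq_mod_of_eq rfl hl).2]
  have key : ∀ a N, a * c + N = n' * c + k → ∃ t, n' = a + t ∧ N = t * c + k := fun a N h => by
    have : a ≤ n' := by
      by_contra h1
      have := Nat.mul_le_mul_right c (show n' + 1 ≤ a by omega)
      rw [add_mul] at this
      omega
    obtain ⟨t, rfl⟩ := Nat.exists_eq_add_of_le this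
    exact ⟨t, rfl, by rw [add_mul] at h; omega⟩
  have hmn : m' ≤ n' := by
    by_contra h1
    have := Nat.mul_le_mul_right c (show n' + 1 ≤ m' by omega)
    rw [add_mul] at this
    omega
  -- the choice `b = a` when `a` is small
  have small : ∀ a t, n' = a + t → a < m' → ∃ j, m' * c + l = a * c + j ∧ 0 < j ∧ j < t * c + k :=
    fun a t h1 h2 => by
      obtain ⟨u, rfl⟩ := Nat.exists_eq_add_of_lt h2
      subst h1
      simp only [add_mul] at hm ⊢
      exact ⟨u * c + 1 * c + l, by omega, by omega, by omega⟩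
  by_cases hB : k = 0 ∧ ¬ (ε ↔ τ n')
  · refine iff_of_true (fun a N h1 h2 h3 => ?_) (Or.inl hB)
    obtain ⟨rfl, hB⟩ := hB
    obtain ⟨t, rfl, rfl⟩ := key a N h2
    obtain ⟨t, rfl⟩ : ∃ u, t = u + 1 := ⟨t - 1, by
      rcases t with _ | t
      · exact (hB (h3 (by simp))).elim
      · simp⟩
    by_cases h4 : a < m'
    · obtain ⟨j, h5, h6, h7⟩ := small a _ rfl h4
      exact ⟨a, le_rfl, j, h7.le, h5, by omega, by omega⟩
    simp only [add_mul] at hm ⊢
    by_cases h5 : l = 0 → (η ↔ τ m')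
    · exact ⟨m', by omega, l, by omega, rfl, h5, by omega⟩
    obtain ⟨rfl, h5⟩ := Classical.not_imp.1 h5
    obtain ⟨u, rfl⟩ : ∃ u, m' = u + 1 := ⟨m' - 1, by rcases m' with _ | m' <;> simp_all⟩
    refine ⟨u, by omega, c, by omega, by rw [add_mul]; omega, by omega, fun h => ?_⟩
    obtain rfl : t = 0 := by
      rcases t with _ | t
      · rfl
      · rw [add_mul] at h; omega
    rcases hτ with h6 | h6
    · simp only [h6] at hB h5 ⊢
      clear * - hB h5
      tauto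
    · rw [zero_add, h6] at hB
      rw [h6] at h5
      clear * - hB h5
      tauto
  rw [or_iff_right hB]
  obtain ⟨a₀, N₀, h1, h2, h3⟩ := hD
  obtain ⟨t₀, h4, rfl⟩ := key _ _ h2
  constructor
  · intro H
    obtain ⟨b, -, j, h5, h6, h7, h8⟩ := H n' k (by omega) rfl fun h => not_not.1 fun h' => hB ⟨h, h'⟩
    obtain ⟨rfl, rfl⟩ : j = l ∧ b = m' := by
      have h9 := eq_mod_of_eq h6 (by omega)
      have h10 := eq_mod_of_eq (rfl : m' * c + l = _) hl
      omega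
    refine ⟨?_, h5, h7, h8⟩
    rcases b with _ | b
    · exfalso
      rcases t₀ with _ | t₀
      · obtain ⟨h9, h10⟩ := h3.resolve_left (by omega)
        have := h8 (by omega)
        rw [h4, add_zero] at this
        clear * - this h10 h0
        tauto
      · rw [add_mul] at h3
        omega
    · rw [add_mul]
      omega
  · rintro ⟨-, h5, h6, h7⟩ a N h8 h9 h10
    obtain ⟨t, h11, rfl⟩ := key a N h9
    by_cases h12 : a < m'
    · obtain ⟨j, h13, h14, h15⟩ := small a _ h11 h12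
      exact ⟨a, le_rfl, j, h15.le, h13, by omega, by omega⟩
    refine ⟨m', by omega, l, by omega, rfl, h6, fun h => ?_⟩
    obtain rfl : t = 0 := by
      rcases t with _ | t
      · rfl
      · rw [add_mul] at h; omega
    rw [show a = n' by omega]
    exact h7 (by omega)

theorem iff_iff_iff_aux {x y : Prop} : y ↔ (x ↔ (x ↔ y)) := by tauto

theorem tau_cases (sd : Prop) :
    (∀ a : ℕ, sd → Even a) ∨ ∀ a : ℕ, (sd → Even (a + 1)) ↔ ¬ (sd → Even a) := by
  by_cases h : sd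
  · exact Or.inr fun a => by simp [h, Nat.even_add_one]
  · exact Or.inl fun a h' => (h h').elim

end arith

variable {F : Type*} [Field F] {σ : F →+* F} {ε : F}
variable {V : Type*} [AddCommGroup V] [Module F V] [FiniteDimensional F V]
variable {B : V →ₛₗ[σ] V →ₗ[F] F} {f : End F V} {Q : QuadraticForm F V}
variable {s : Multiset F[X]} {T : Finset F[X]} {sd : Prop} [Decidable sd] {N a b i c m r : ℕ}

theorem Dich.even_nfix_iff {α : Type*} [DecidableEq α] {T : Finset α} {π : α → α}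
    (hD : Dich T π sd) {s : Multiset α} (hs : ∀ x ∈ s, x ∈ T)
    (h : s.card = a * (if sd then 1 else 2)) : Even (nfix π s) ↔ (sd → Even a) := by
  rw [hD.nfix_eq hs, h]
  split_ifs with h1 <;> simp [h1]

theorem blk_mul (hc : c = if sd then i else 2 * i) : a * (if sd then 1 else 2) * i = a * c := by
  rw [hc]
  split_ifs <;> ring

theorem forall_blk_iff [Finite F] (hr : r.Prime) (h0 : (r : F) ≠ 0) (hB : IsSF ε B)
    (hD : Dich (cycF F r) (pstar σ) sd) (hi : i = orderOf (Nat.card F : ZMod r))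
    (hc : c = if sd then i else 2 * i) (I Φ : End F V → Prop) (hI : ∀ f, I f → Inv B f)
    (R Ψ : ℕ → ℕ → Prop)
    (hR : ∀ s N a, (∀ P ∈ s, P ∈ cycF F r) → s.map (pstar σ) = s →
      s.card = a * (if sd then 1 else 2) → s.card * orderOf (Nat.card F : ZMod r) + N = finrank F V →
      (R a N ↔ ∃ f, I f ∧ ed f = s + Multiset.replicate N (X - 1)))
    (hΨ : ∀ s N a f, (∀ P ∈ s, P ∈ cycF F r) → s.card = a * (if sd then 1 else 2) → I f →
      f.IsSemisimple → ed f = s + Multiset.replicate N (X - 1) → (Φ f ↔ Ψ a N)) :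
    (∀ f, I f → f ^ r = 1 → f ≠ 1 → Φ f) ↔
      ∀ a N, 0 < a → a * c + N = finrank F V → R a N → Ψ a N := by
  classical
  rw [forall_pow_eq_one_iff hr h0]
  constructor
  · intro H a N h1 h2 h3
    obtain ⟨s, h4, h5, h6⟩ := hD.blk_exists a
    have h7 : s.card * orderOf (Nat.card F : ZMod r) + N = finrank F V := by
      rw [h6, ← hi, blk_mul hc, h2]
    obtain ⟨f, h8, h9⟩ := (hR s N a h4 h5 h6 h7).1 h3
    have h10 := ss_of_pow_eq_one h0 (pow_eq_one_of_ed h0 h4 h9)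
    exact (hΨ s N a f h4 h6 h8 h10 h9).1 (H s N f h4 (by
      rw [← Multiset.card_pos, h6]; split_ifs <;> omega) h9 h8 h10 h7)
  · intro H s N f h1 h2 h3 h4 h5 h6
    have h7 := map_pstar_add_replicate_iff.1 (h3 ▸ (hI f h4).map_pstar_ed hB)
    obtain ⟨a, h8, -⟩ := hD.exists_blk h1 h7
    refine (hΨ s N a f h1 h8 h4 h5 h3).2 (H a N (Nat.pos_of_ne_zero ?_)
      (by rw [← blk_mul hc, ← h8, hi, h6]) ((hR s N a h1 h7 h8 h6).2 ⟨f, h4, h3⟩))
    rintro rfl
    exact h2 (by simpa using h8)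

variable [DecidableEq F[X]]

theorem blk_of_nd (hB : IsSF ε B) (hf : Inv B f) (hs : f.IsSemisimple) (hD : Dich T (pstar σ) sd)
    {A W : Submodule F V} (hA : St f A) (hT : ∀ P ∈ edOn f A, P ∈ T)
    (hi : ∀ P ∈ T, P.natDegree = i) (hc : c = if sd then i else 2 * i)
    (ha : (edOn f A).card = a * (if sd then 1 else 2)) (hW : St f W) (hd : ND B W) (h : W ≤ A) :
    ∃ b ≤ a, finrank F W = b * c ∧ (edOn f W).card = b * (if sd then 1 else 2) ∧
      edOn f W ≤ edOn f A := by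
  have h1 := edOn_le_of_ss hs hW hA h
  have h2 := fun P hP => hT P (Multiset.mem_of_le h1 hP)
  obtain ⟨b, h3, -⟩ := hD.exists_blk h2 (map_pstar_edOn hB hf hW hd)
  have h4 := Multiset.card_le_card h1
  rw [h3, ha] at h4
  exact ⟨b, by split_ifs at h4 <;> omega, by
    rw [← dg_edOn hW, dg_of_const fun P hP => hi P (h2 P hP), h3, blk_mul hc], h3, h1⟩

theorem exists_nd_blk [Finite F] (hB : IsSF ε B) (hf : Inv B f) (hD : Dich T (pstar σ) sd)
    {A : Submodule F V} (hA : St f A) (hd : ND B A) (hT : ∀ P ∈ edOn f A, P ∈ T)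
    (hr : σ ≠ RingHom.id F ∨ ∀ P ∈ edOn f A, IsCoprime P (X ^ 2 - 1))
    (hi : ∀ P ∈ T, P.natDegree = i) (hc : c = if sd then i else 2 * i)
    (ha : (edOn f A).card = a * (if sd then 1 else 2)) (hb : b ≤ a) :
    ∃ W ≤ A, St f W ∧ ND B W ∧ finrank F W = b * c ∧
      (edOn f W).card = b * (if sd then 1 else 2) ∧ edOn f W ≤ edOn f A := by
  obtain ⟨a', h1, -, h2⟩ := hD.exists_blk hT (map_pstar_edOn hB hf hA hd)
  obtain ⟨w, h3, h4, h5⟩ := h2 b (by rw [ha] at h1; split_ifs at h1 <;> omega)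
  obtain ⟨W, h6, h7, h8, rfl⟩ := exists_nd_le hB hf hA hd hr h3 h4
  exact ⟨W, h6, h7, h8, by
    rw [← dg_edOn h7, dg_of_const fun P hP => hi P (hT P (Multiset.mem_of_le h3 hP)), h5,
      blk_mul hc], h5, h3⟩

theorem nd_shape_iff [Finite F] (hB : IsSF ε B) (hf : Inv B f) (hs : f.IsSemisimple)
    (hD : Dich T (pstar σ) sd) (he : ed f = s + Multiset.replicate N (X - 1))
    (hT : ∀ P ∈ s, P ∈ T) (h1 : ∀ P ∈ s, IsCoprime P (X - 1))
    (hr : σ ≠ RingHom.id F ∨ ∀ P ∈ s, IsCoprime P (X ^ 2 - 1))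
    (hi : ∀ P ∈ T, P.natDegree = i) (hc : c = if sd then i else 2 * i)
    (ha : s.card = a * (if sd then 1 else 2))
    (hE : ∀ E : Submodule F V, ND B E → ∀ b j, j ≤ finrank F E → m = b * c + j →
      ∃ U ≤ E, ND B U ∧ finrank F U = j) :
    (∃ W : Submodule F V, (finrank F W = m ∧ ND B W) ∧ St f W) ↔
      ∃ b ≤ a, ∃ j ≤ N, m = b * c + j := by
  obtain ⟨A, hA, hd, rfl, rfl, -, -, H⟩ := exists_fix_split hB hf he h1
  rw [H]
  constructor
  · rintro ⟨U, h2, W, h3, h4, h5, h6⟩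
    obtain ⟨b, h7, h8, -⟩ := blk_of_nd hB hf hs hD hA hT hi hc ha h4
      (h6.left hB (le_perp_of_le h2 h3)) h2
    exact ⟨b, h7, _, Submodule.finrank_mono h3, by rw [← h5, finrank_sup_of_le hd h2 h3, h8]⟩
  · rintro ⟨b, h2, j, h3, h4⟩
    obtain ⟨U, h5, h6, h7, h8, -⟩ := exists_nd_blk hB hf hD hA hd hT hr hi hc ha h2
    obtain ⟨W, h9, h10, h11⟩ := hE _ (hB.disjoint_perp hd) b j h3 h4
    exact ⟨U, h5, W, h9, h6, by rw [finrank_sup_of_le hd h5 h9, h8, h11, h4],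
      h7.sup hB h10 (le_perp_of_le h5 h9)⟩

variable [Finite F]

theorem nd_disc_shape_iff (hQ : Q.polarBilin.Nondegenerate) (h2 : (2 : F) ≠ 0) (hf : QInv Q f)
    (hs : f.IsSemisimple) (hD : Dich T (pstar (RingHom.id F)) sd)
    (he : ed f = s + Multiset.replicate N (X - 1)) (hT : ∀ P ∈ s, P ∈ T)
    (hr : ∀ P ∈ s, IsCoprime P (X ^ 2 - 1)) (hi : ∀ P ∈ T, P.natDegree = i)
    (hc : c = if sd then i else 2 * i) (ha : s.card = a * (if sd then 1 else 2)) (hc2 : Even c)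
    (hm : Odd m) (hN : Even N) (δ : SqCl F) :
    (∃ W : Submodule F V, (finrank F W = m ∧ ND Q.polarBilin W ∧ disc (Q.restrict W) = δ) ∧
      St f W) ↔ ∃ b ≤ a, ∃ j ≤ N, m = b * c + j := by
  have hB := isSF_polar hQ
  obtain ⟨A, hA, hd, rfl, rfl, -, -, H⟩ := exists_fix_split hB hf.inv he
    fun P hP => isCoprime_sub_one_of_sq (hr P hP)
  rw [H]
  constructor
  · rintro ⟨U, h2, W, h3, h4, h5, h6, -⟩
    obtain ⟨b, h7, h8, -⟩ := blk_of_nd hB hf.inv hs hD hA hT hi hc ha h4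
      (h6.left hB (le_perp_of_le h2 h3)) h2
    exact ⟨b, h7, _, Submodule.finrank_mono h3, by rw [← h5, finrank_sup_of_le hd h2 h3, h8]⟩
  · rintro ⟨b, h1, j, h3, h4⟩
    obtain ⟨U, h5, h6, h7, h8, -⟩ := exists_nd_blk hB hf.inv hD hA hd hT (Or.inr hr) hi hc ha h1
    have h9 := Nat.even_iff.1 (hc2.mul_left b)
    rw [Nat.odd_iff] at hm
    rw [Nat.even_iff] at hN
    obtain ⟨W, h9, h10, h11, h12⟩ := exists_nd_disc h2 hQ (hB.disjoint_perp hd) (j := j)
      (by omega) (by omega) ((disc (Q.restrict U))⁻¹ * δ)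
    exact ⟨U, h5, W, h9, h6, by rw [finrank_sup_of_le hd h5 h9, h8, h11, h4],
      h7.sup hB h10 (le_perp_of_le h5 h9), by
        rw [disc_sup hQ h7 h10 (le_perp_of_le h5 h9), h12, mul_inv_cancel_left]⟩

theorem nd_pl_shape_iff (hQ : Q.polarBilin.Nondegenerate) (hf : QInv Q f)
    (hs : f.IsSemisimple) (hD : Dich T (pstar (RingHom.id F)) sd)
    (he : ed f = s + Multiset.replicate N (X - 1)) (hT : ∀ P ∈ s, P ∈ T)
    (hr : ∀ P ∈ s, IsCoprime P (X ^ 2 - 1)) (hi : ∀ P ∈ T, P.natDegree = i)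
    (hc : c = if sd then i else 2 * i) (ha : s.card = a * (if sd then 1 else 2)) (hc2 : Even c)
    (hm : Even m) (η : Prop) :
    (∃ W : Submodule F V, (finrank F W = m ∧ ND Q.polarBilin W ∧ (Pl Q W ↔ η)) ∧ St f W) ↔
      ∃ b ≤ a, ∃ j ≤ N, m = b * c + j ∧ (j = 0 → (η ↔ (sd → Even b))) ∧
        (j = N → (η ↔ ((sd → Even b) ↔ (IsPlus Q ↔ (sd → Even a))))) := by
  have hB := isSF_polar hQ
  obtain ⟨A, hA, hd, rfl, rfl, -, -, H⟩ := exists_fix_split hB hf.inv he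
    fun P hP => isCoprime_sub_one_of_sq (hr P hP)
  have key : ∀ {U : Submodule F V} {b}, St f U → ND Q.polarBilin U → edOn f U ≤ edOn f A →
      (edOn f U).card = b * (if sd then 1 else 2) → (Pl Q U ↔ (sd → Even b)) :=
    fun hU h1 h2 h3 => by
      rw [(pl_iff_of_rigid hQ hf hU h1 (edOn_eq hU ▸ irreducible_of_ss (IsSemisimple.restrict' hs hU))
        fun P hP => hr P (Multiset.mem_of_le h2 hP)).2]
      convert hD.even_nfix_iff (fun P hP => hT P (Multiset.mem_of_le h2 hP)) h3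
  have key2 := fun h => (pl_perp_iff hQ hf hs hA hd hr h).trans (iff_congr Iff.rfl (by
    convert hD.even_nfix_iff hT ha))
  rw [H]
  constructor
  · rintro ⟨U, h2, W, h3, h4, h5, h6, h7⟩
    have h1 := le_perp_of_le h2 h3
    obtain ⟨b, h8, h9, h10, h11⟩ := blk_of_nd hB hf.inv hs hD hA hT hi hc ha h4 (h6.left hB h1) h2
    rw [finrank_sup_of_le hd h2 h3, h9] at h5
    have h12 : Even (finrank F W) := (Nat.even_add.1 (h5 ▸ hm)).1 (hc2.mul_left b)
    rw [pl_sup_iff hQ (h6.left hB h1) (h6.right hB h1) h1 (h9 ▸ hc2.mul_left b) h12,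
      key h4 (h6.left hB h1) h11 h10] at h7
    refine ⟨b, h8, _, Submodule.finrank_mono h3, h5.symm, fun h => ?_, fun h => ?_⟩
    · rw [Submodule.finrank_eq_zero.1 h] at h7
      simpa [pl_bot] using h7.symm
    · rw [← key2 (h ▸ h12), ← Submodule.eq_of_le_of_finrank_eq h3 h, h7]
  · rintro ⟨b, h1, j, h3, h4, h5, h6⟩
    obtain ⟨U, h7, h8, h9, h10, h11, h12⟩ :=
      exists_nd_blk hB hf.inv hD hA hd hT (Or.inr hr) hi hc ha h1
    have h13 : Even j := (Nat.even_add.1 (h4 ▸ hm)).1 (hc2.mul_left b)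
    obtain ⟨W, h14, h15, rfl, h16⟩ : ∃ W ≤ perp Q.polarBilin A, ND Q.polarBilin W ∧
        finrank F W = j ∧ (Pl Q W ↔ ((sd → Even b) ↔ η)) := by
      by_cases h14 : j = 0
      · exact ⟨⊥, bot_le, nd_bot, by simp [h14], iff_of_true pl_bot (h5 h14).symm⟩
      by_cases h15 : j = finrank F (perp Q.polarBilin A)
      · refine ⟨_, le_rfl, hB.disjoint_perp hd, h15.symm, ?_⟩
        rw [key2 (h15 ▸ h13), h6 h15]
        exact iff_iff_iff_aux
      · exact exists_nd_pl hQ (hB.disjoint_perp hd) (by omega) (by omega) h13 _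
    refine ⟨U, h7, W, h14, h8, by rw [finrank_sup_of_le hd h7 h14, h10, h4],
      h9.sup hB h15 (le_perp_of_le h7 h14), ?_⟩
    rw [pl_sup_iff hQ h9 h15 (le_perp_of_le h7 h14) (h10 ▸ hc2.mul_left b) h13,
      key h8 h9 h12 h11, h16, ← iff_iff_iff_aux]

end H58
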