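import Cfsg.Agent.H58.ElND

/-!
Elements of prime order fixing nondegenerate subspaces: criteria for orthogonal and symplectic groups.
-/

open Polynomial Module

namespace H58

open H53
open H59 (perp mem_perp)
open H56 (O SqCl sqcl)

variable {F : Type*} [Field F] [Finite F]
variable {V : Type*} [AddCommGroup V] [Module F V] [FiniteDimensional F V]
variable {B : V →ₗ[F] V →ₗ[F] F} {f : End F V} {Q : QuadraticForm F V} {A : Submodule F V}
variable {i c m r d : ℕ}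

theorem even_blk (hc : c = if Even i then i else 2 * i) : Even c := by
  rw [hc]
  split_ifs with h
  exacts [h, even_two_mul i]

theorem blk_pos (hi : 0 < i) (hc : c = if Even i then i else 2 * i) : 0 < c := by
  rw [hc]
  split_ifs <;> omega

theorem exists_qinv_blk_iff (hQ : Q.polarBilin.Nondegenerate) (hr : r.Prime) (h2 : r ≠ 2)
    (h0 : (r : F) ≠ 0) {s : Multiset F[X]} {N a : ℕ} (hs : ∀ P ∈ s, P ∈ cycF F r)
    (hπ : s.map (pstar (RingHom.id F)) = s) (hi : i = orderOf (Nat.card F : ZMod r))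
    (ha : s.card = a * (if Even i then 1 else 2))
    (hd : s.card * orderOf (Nat.card F : ZMod r) + N = finrank F V) :
    (N = 0 → (IsPlus Q ↔ (Even i → Even a))) ↔
      ∃ f, QInv Q f ∧ ed f = s + Multiset.replicate N (X - 1) := by
  classical
  have h3 : 2 < r := lt_of_le_of_ne hr.two_le h2.symm
  rcases (finrank F V).even_or_odd with h | h
  · subst hi
    rw [← exists_qinv_even_cyc_iff hQ h h3 h0 hs hπ hd, ← (dich_id hr h2 h0).even_nfix_iff hs ha]
  · refine iff_of_true (fun h4 => ?_) (exists_qinv_odd_cyc hQ h h3 h0 hs hπ hd)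
    rw [← hd, h4, ha, ← hi, blk_mul rfl, add_zero] at h
    exact absurd ((even_blk rfl).mul_left a) (Nat.not_even_iff_odd.2 h)

theorem o_nd_even_odd (hQ : Q.polarBilin.Nondegenerate) (hA : ND Q.polarBilin A)
    (hm : finrank F A = m) (hm0 : 0 < m) (hmn : m < finrank F V) (hme : Even m) (hr : r.Prime)
    (h2 : r ≠ 2) (h0 : (r : F) ≠ 0) (hD : r ∣ Nat.card {W // QIsom Q W A})
    (hi : i = orderOf (Nat.card F : ZMod r)) (hc : c = if Even i then i else 2 * i) :
    (∀ f, QInv Q f → f ^ r = 1 → f ≠ 1 → ∃ W, QIsom Q W A ∧ St f W) ↔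
    ((finrank F V % c = 0 ∧ ¬ (IsPlus Q ↔ (Even i → Even (finrank F V / c)))) ∨
      (c ≤ m ∧ m % c ≤ finrank F V % c ∧ (m % c = 0 → (Pl Q A ↔ (Even i → Even (m / c)))) ∧
      (m % c = finrank F V % c → (Pl Q A ↔ ((Even i → Even (m / c)) ↔
        (IsPlus Q ↔ (Even i → Even (finrank F V / c)))))))) := by
  classical
  have h3 : 2 < r := lt_of_le_of_ne hr.two_le h2.symm
  have hB := isSF_polar hQ
  have h4 := hB.finrank_add_finrank_perp A
  obtain ⟨a, N, h5, h6, -, h7⟩ := exists_blk_of_dvd_qisom hQ hA hm hm0 hr h2 h0 hi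
    (η := IsPlus Q ↔ Pl Q A) (fun h => by
      rw [isPlus_iff_perp hQ hA (hm ▸ hme) (h4 ▸ (hm ▸ hme).add h), iff_comm (b := Pl Q A)]
      exact iff_iff_iff_aux) hD
  simp only [qisom_iff_pl hQ hA (hm ▸ hme), hm]
  rw [forall_blk_iff hr h0 hB (hi ▸ dich_id hr h2 h0) hi hc _ _ (fun _ => QInv.inv) _ _
    (fun s N a h8 h9 h10 h11 => exists_qinv_blk_iff hQ hr h2 h0 h8 h9 hi h10 h11)
    fun s N a f h8 h9 h10 h11 h12 => nd_pl_shape_iff hQ h10 h11 (hi ▸ dich_id hr h2 h0) h12 h8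
      (cyc_facts h3 h0 h8).2.2.2 (fun P hP => hi ▸ natDegree_of_mem_cycF h0 hP) hc h9 (even_blk hc)
      hme _]
  exact arith_nd (fun a => Even i → Even a) (fun _ => Even.zero) (tau_cases _) _ _
    (blk_pos (hi ▸ orderOf_card_pos h0) hc) hm0 hmn ⟨a, N, h5, hc ▸ h6, h7⟩

theorem o_nd_odd_odd (hQ : Q.polarBilin.Nondegenerate) (hA : ND Q.polarBilin A)
    (hm : finrank F A = m) (hmn : m < finrank F V) (hmo : Odd m) (hn : Even (finrank F V))
    (hr : r.Prime) (h2 : r ≠ 2) (h0 : (r : F) ≠ 0) (hD : r ∣ Nat.card {W // QIsom Q W A})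
    (hi : i = orderOf (Nat.card F : ZMod r)) (hc : c = if Even i then i else 2 * i) :
    (∀ f, QInv Q f → f ^ r = 1 → f ≠ 1 → ∃ W, QIsom Q W A ∧ St f W) ↔
    ((finrank F V % c = 0 ∧ ¬ (IsPlus Q ↔ (Even i → Even (finrank F V / c)))) ∨
      (c ≤ m ∧ 0 < m % c ∧ m % c < finrank F V % c)) := by
  classical
  have h3 : 2 < r := lt_of_le_of_ne hr.two_le h2.symm
  have hB := isSF_polar hQ
  have h4 := hB.finrank_add_finrank_perp A
  have hc2 := even_blk hc
  have h2' := two_ne_zero_of_odd (nondeg_restrict hQ hA) (hm ▸ hmo)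
  obtain ⟨a, N, h5, h6, -, h7⟩ := exists_blk_of_dvd_qisom hQ hA hm hmo.pos hr h2 h0 hi
    (η := IsPlus Q ↔ True) (fun h => by
      rw [Nat.odd_iff] at hmo
      rw [Nat.even_iff] at h hn
      omega) hD
  simp only [qisom_iff_disc h2' hQ hA, hm]
  rw [forall_blk_iff hr h0 hB (hi ▸ dich_id hr h2 h0) hi hc _ _ (fun _ => QInv.inv) _
    (fun a N => ∃ b ≤ a, ∃ j ≤ N, m = b * c + j ∧ (j = 0 → (True ↔ (Even i → Even b))) ∧
      (j = N → (True ↔ ((Even i → Even b) ↔ (IsPlus Q ↔ (Even i → Even a))))))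
    (fun s N a h8 h9 h10 h11 => exists_qinv_blk_iff hQ hr h2 h0 h8 h9 hi h10 h11)
    fun s N a f h8 h9 h10 h11 h12 => ?_, arith_nd (fun a => Even i → Even a) (fun _ => Even.zero)
    (tau_cases _) _ _ (blk_pos (hi ▸ orderOf_card_pos h0) hc) hmo.pos hmn ⟨a, N, h5, hc ▸ h6, h7⟩]
  · have h8 := Nat.mod_mod_of_dvd m hc2.two_dvd
    have h9 := Nat.mod_mod_of_dvd (finrank F V) hc2.two_dvd
    rw [Nat.odd_iff] at hmo
    rw [Nat.even_iff] at hn
    refine or_congr_right (and_congr_right fun _ => ⟨fun h => by omega, fun h => ?_⟩)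
    exact ⟨by omega, by omega, by omega⟩
  · have h13 : Even N := by
      have := dg_ed f
      rw [h12, dg_cyc h0 h8, h9, ← hi, blk_mul hc] at this
      exact (Nat.even_add.1 (this ▸ hn)).1 (hc2.mul_left a)
    rw [nd_disc_shape_iff hQ h2' h10 h11 (hi ▸ dich_id hr h2 h0) h12 h8 (cyc_facts h3 h0 h8).2.2.2
      (fun P hP => hi ▸ natDegree_of_mem_cycF h0 hP) hc h9 hc2 hmo h13]
    refine exists_congr fun b => and_congr_right fun _ => exists_congr fun j =>
      and_congr_right fun _ => ⟨fun h => ?_, fun h => h.1⟩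
    have := Nat.even_iff.1 (hc2.mul_left b)
    rw [Nat.odd_iff] at hmo
    rw [Nat.even_iff] at h13
    exact ⟨h, by omega, by omega⟩

omit [Finite F] in
theorem exists_nd_alt (hB : IsSF (σ := RingHom.id F) (-1) B) (ha : ∀ x, B x x = 0) {j : ℕ}
    (hj : j ≤ finrank F V) (he : Even j) : ∃ U, ND B U ∧ finrank F U = j := by
  obtain ⟨d, hd⟩ := H54.even_finrank_of_isAlt hB.nondegenerate ha
  obtain ⟨k, rfl⟩ := he
  have h1 := isSF_spB (Fin k) F
  obtain ⟨e, he⟩ := H54.exists_isometry_of_finrank_eq (h1.sumForm (isSF_spB (Fin (d - k)) F)).nondegenerate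
    (fun x => by simp [H54.spB_isAlt x.1, H54.spB_isAlt x.2]) hB.nondegenerate ha (by simp; omega)
  obtain ⟨A, hA, h2, g, -⟩ :=
    (exists_iso_of_isometry e he (LinearMap.prodMap 1 1)).exists_submodule h1
  exact ⟨A, h2, by simpa using g.finrank_eq.symm⟩

omit [Finite F] in
theorem exists_nd_le_alt (hB : IsSF (σ := RingHom.id F) (-1) B) (ha : ∀ x, B x x = 0)
    (hA : ND B A) {j : ℕ} (hj : j ≤ finrank F A) (he : Even j) :
    ∃ U ≤ A, ND B U ∧ finrank F U = j := by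
  obtain ⟨U, h1, h2⟩ := exists_nd_alt (hB.restrict hA) (fun x => ha x) hj he
  exact ⟨_, Submodule.map_subtype_le A U, (nd_map_subtype hB hA).2 h1, by
    rw [Submodule.finrank_map_subtype_eq, h2]⟩

theorem sp_nd_odd (hB : IsSF (σ := RingHom.id F) (-1) B) (ha : ∀ x, B x x = 0) (hr : r.Prime)
    (h2 : r ≠ 2) (h0 : (r : F) ≠ 0) (hm : m ≤ finrank F V) (hme : Even m)
    (hD : r ∣ Nat.card {W : Submodule F V // finrank F W = m ∧ ND B W})
    (hi : i = orderOf (Nat.card F : ZMod r)) (hc : c = if Even i then i else 2 * i) :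
    (∀ f, Inv B f → f ^ r = 1 → f ≠ 1 →
      ∃ W : Submodule F V, (finrank F W = m ∧ ND B W) ∧ St f W) ↔
      (c ≤ m ∧ m % c ≤ finrank F V % c) := by
  classical
  have h3 : 2 < r := lt_of_le_of_ne hr.two_le h2.symm
  obtain ⟨A, hA, h4⟩ := exists_nd_alt hB ha hm hme
  obtain ⟨j, h5, h6⟩ := exists_dvd_nd_alt hB ha hr h0 hA h4 hD
  have h7 := blk_dvd_of_even Nat.card_pos hi ((Nat.even_sub (by omega)).2 (by
    simpa using H54.even_finrank_of_isAlt hB.nondegenerate ha)) h6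
  rw [forall_blk_iff hr h0 hB (hi ▸ dich_id hr h2 h0) hi hc _ _ (fun _ => id) (fun _ _ => True) _
    (fun s N a h8 h9 _ h11 => iff_of_true trivial (exists_inv_alt_cyc hB ha h3 h0 h8 h9 h11))
    fun s N a f h8 h9 h10 h11 h12 => nd_shape_iff hB h10 h11 (hi ▸ dich_id hr h2 h0) h12 h8
      (fun P hP => isCoprime_sub_one_of_mem_cycF hr.ne_one h0 (h8 P hP))
      (Or.inr (cyc_facts h3 h0 h8).2.2.2) (fun P hP => hi ▸ natDegree_of_mem_cycF h0 hP) hc h9
      fun E hE b j h13 h14 => exists_nd_le_alt hB ha hE h13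
        ((Nat.even_add.1 (h14 ▸ hme)).1 ((even_blk hc).mul_left b)), ← arith_all hm]
  · simp
  · by_contra h
    exact not_dvd_sub_of_lt_mod (by omega) (hc ▸ h7)

theorem exists_nd_le_two_ne (h2 : (2 : F) ≠ 0) (hQ : Q.polarBilin.Nondegenerate)
    (hA : ND Q.polarBilin A) {j : ℕ} (hj : j ≤ finrank F A) :
    ∃ U ≤ A, ND Q.polarBilin U ∧ finrank F U = j := by
  by_cases h0 : j = 0
  · exact ⟨⊥, bot_le, nd_bot, by simp [h0]⟩
  by_cases h1 : j = finrank F A
  · exact ⟨A, le_rfl, hA, h1.symm⟩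
  obtain ⟨U, h3, h4, h5, -⟩ := exists_nd_disc h2 hQ hA (j := j) (by omega) (by omega) 1
  exact ⟨U, h3, h4, h5⟩

theorem exists_qisom_sup (h2 : (2 : F) ≠ 0) (hQ : Q.polarBilin.Nondegenerate)
    (hA : ND Q.polarBilin A) (h0 : 0 < finrank F A) (hn : finrank F A < finrank F V)
    {E : Submodule F V} (hE : ND Q.polarBilin E) (h : 2 ≤ finrank F E) :
    ∃ W₁ ≤ E, ∃ W₂ ≤ perp Q.polarBilin E, QIsom Q (W₁ ⊔ W₂) A := by
  have hB := isSF_polar hQ
  have h1 := hB.finrank_add_finrank_perp E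
  obtain ⟨W, h3, h4, h5⟩ := exists_nd_le_two_ne h2 hQ (hB.disjoint_perp hE)
    (j := finrank F A - min (finrank F A) (finrank F E - 1)) (by omega)
  obtain ⟨U, h6, h7, h8, h9⟩ := exists_nd_disc h2 hQ hE
    (j := min (finrank F A) (finrank F E - 1)) (by omega) (by omega)
    (disc (Q.restrict A) * (disc (Q.restrict W))⁻¹)
  exact ⟨U, h6, W, h3, (qisom_iff_disc h2 hQ hA).2 ⟨by rw [finrank_sup_of_le hE h6 h3]; omega,
    h7.sup hB h4 (le_perp_of_le h6 h3), by
      rw [disc_sup hQ h7 h4 (le_perp_of_le h6 h3), h9, inv_mul_cancel_right]⟩⟩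

theorem o_nd_invol (h2 : (2 : F) ≠ 0) (hQ : Q.polarBilin.Nondegenerate) (hA : ND Q.polarBilin A)
    (h0 : 0 < finrank F A) (hn : finrank F A < finrank F V) :
    ∀ f, InOm Q f → f ^ 2 = 1 → f ≠ 1 → f ≠ -1 → ∃ W, QIsom Q W A ∧ St f W :=
  (inOm_invol_iff h2 hQ _).2 fun _ hE ⟨⟨_, _⟩, _⟩ _ _ =>
    exists_qisom_sup h2 hQ hA h0 hn hE (by omega)

theorem exists_qisom_iff_of_sq_eq_neg (h2 : (2 : F) ≠ 0) (hQ : Q.polarBilin.Nondegenerate)
    (hA : ND Q.polarBilin A) (hf : QInv Q f) (h : f ^ 2 = -1) (hd : finrank F V = 2 * d) :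
    (∃ W, QIsom Q W A ∧ St f W) ↔ Even (finrank F A) ∧
      (Pl Q A ↔ (Nat.card F % 4 = 3 → Even (finrank F A / 2))) := by
  classical
  have hB := isSF_polar hQ
  have hs := (sq_eq_neg_iff_ed h2).1 h
  have h3 := fun P hP => natDegree_cycF_four h2 (φ := P) hP
  have h4 := dg_ed f
  rw [dg_of_const fun P hP => h3 P (hs P hP)] at h4
  have h5 : (ed f).card = d * if Nat.card F % 4 = 3 then 1 else 2 := by
    split_ifs at h4 ⊢ <;> omega
  have h6 : 2 = if Nat.card F % 4 = 3 then (if Nat.card F % 4 = 3 then 2 else 1) else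
      2 * if Nat.card F % 4 = 3 then 2 else 1 := by split_ifs <;> rfl
  have h7 := ss_of_sq_eq_neg h2 h
  by_cases he : Even (finrank F A)
  · have h8 := Submodule.finrank_le A
    simp only [qisom_iff_pl hQ hA he, he, true_and]
    rw [nd_pl_shape_iff hQ hf h7 (dich_four h2) (N := 0) (by simp) hs
      (cyc_facts (r := 4) (by norm_num) (four_ne_zero' h2) hs).2.2.2 h3 h6 h5 even_two he,
      (exists_sq_eq_neg_iff h2 hQ hd).1 ⟨f, hf, h⟩]
    obtain ⟨k, hk⟩ := he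
    rw [show finrank F A / 2 = k by omega]
    exact ⟨fun ⟨b, _, j, _, _, h, _⟩ => by rw [show k = b by omega]; exact h (by omega),
      fun h => ⟨k, by omega, 0, le_rfl, by omega, fun _ => h, fun _ => by simpa using h⟩⟩
  · refine iff_of_false (fun ⟨W, h8, h9⟩ => he ?_) fun h => he h.1
    obtain ⟨b, -, h10, -⟩ := blk_of_nd hB hf.inv h7 (dich_four h2) (st_top f)
      (by rwa [edOn_top]) h3 h6 (by rw [edOn_top, h5]) h9 (h8.nd hQ hA) le_top
    obtain ⟨e, -⟩ := h8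
    rw [← e.finrank_eq, h10]
    exact even_two.mul_left b

theorem o_nd_two_even (h2 : (2 : F) ≠ 0) (hQ : Q.polarBilin.Nondegenerate)
    (hA : ND Q.polarBilin A) (hm : finrank F A = m) (h0 : 0 < m) (hd : finrank F V = 2 * d)
    (hn : m < 2 * d) :
    (∀ f, InOm Q f → (∃ z : F, f ^ 2 = z • 1) → (∀ z : F, f ≠ z • 1) →
      ∃ W, QIsom Q W A ∧ St f W) ↔
      ((IsPlus Q ↔ (Nat.card F % 4 = 3 → Even d)) ∧
        (Even d ∨ Nat.card F % 8 = 1 ∨ Nat.card F % 8 = 7) →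
        Even m ∧ (Pl Q A ↔ (Nat.card F % 4 = 3 → Even (m / 2)))) := by
  have : Nontrivial V := Module.nontrivial_of_finrank_pos (R := F) (by omega)
  rw [forall_two_iff (isSF_polar hQ) h2 _ _ fun _ h => h.qinv.inv, forall_iff_of_iff fun f h1 h3 =>
    exists_qisom_iff_of_sq_eq_neg h2 hQ hA h1.qinv h3 hd, exists_inOm_sq_eq_neg_iff h2 hQ hd,
    and_iff_right (o_nd_invol h2 hQ hA (by omega) (by omega)), hm]

theorem sp_nd_two (hB : IsSF (σ := RingHom.id F) (-1) B) (ha : ∀ x, B x x = 0)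
    (h2 : (2 : F) ≠ 0) [Nontrivial V] (hm : m ≤ finrank F V) (hme : Even m) :
    ∀ f, Inv B f → (∃ z : F, f ^ 2 = z • 1) → (∀ z : F, f ≠ z • 1) →
      ∃ W : Submodule F V, (finrank F W = m ∧ ND B W) ∧ St f W := by
  classical
  rw [forall_two_iff hB h2 _ _ fun _ => id, forall_invol_iff hB h2 _ (fun _ => True) _
    (fun _ => id) fun f A h _ _ _ => iff_of_true h trivial]
  obtain ⟨k, hk⟩ := id hme
  obtain ⟨d, hd⟩ := H54.even_finrank_of_isAlt hB.nondegenerate ha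
  refine ⟨fun A hA _ _ _ => ?_, fun f hf h => ?_⟩
  · obtain ⟨a, h1⟩ := H54.even_finrank_of_isAlt (hB.restrict hA).nondegenerate fun x => ha x
    have h4 := hB.finrank_add_finrank_perp A
    obtain ⟨U, h5, h6, h7⟩ := exists_nd_le_alt hB ha hA (j := 2 * min k a) (by omega) (by simp)
    obtain ⟨W, h8, h9, h10⟩ := exists_nd_le_alt hB ha (hB.disjoint_perp hA)
      (j := 2 * (k - min k a)) (by omega) (by simp)
    exact ⟨U, h5, W, h8, by rw [finrank_sup_of_le hA h5 h8]; omega,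
      h6.sup hB h9 (le_perp_of_le h5 h8)⟩
  · have hs := (sq_eq_neg_iff_ed h2).1 h
    have h3 := fun P hP => natDegree_cycF_four h2 (φ := P) hP
    have h4 := dg_ed f
    rw [dg_of_const fun P hP => h3 P (hs P hP)] at h4
    obtain ⟨W, -, h5, h6, h7, -⟩ := exists_nd_blk hB hf (dich_four h2) (st_top f) (nd_top hB)
      (by rwa [edOn_top]) (Or.inr (by
        rw [edOn_top]; exact (cyc_facts (r := 4) (by norm_num) (four_ne_zero' h2) hs).2.2.2))
      h3 (c := 2) (by split_ifs <;> rfl) (a := d) (by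
        rw [edOn_top]; split_ifs at h4 ⊢ <;> omega) (b := k) (by omega)
    exact ⟨W, ⟨by omega, h6⟩, h5⟩

end H58
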