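import Cfsg.Agent.H58.ElMu

/-!
Elements of prime order of `PSU_n(q)`.
-/

open Polynomial Module

namespace H58

open H53
open H59 (perp mem_perp frob frob_apply frob_ne_id frob_frob)

section arith

variable {q r i b c k : ℕ}

theorem orderOf_sq_eq (hi : i = orderOf (q : ZMod r)) (hb : b = if Even i then i / 2 else i) :
    orderOf ((q ^ 2 : ℕ) : ZMod r) = b := by
  rw [Nat.cast_pow, orderOf_pow' _ two_ne_zero, ← hi, hb]
  split_ifs with h
  · rw [Nat.gcd_eq_right h.two_dvd]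
  · rw [(Nat.coprime_two_right.2 (Nat.not_even_iff_odd.1 h)).gcd_eq_one, Nat.div_one]

theorem ublk_eq (hb : b = if Even i then i / 2 else i)
    (hc : c = if i % 4 = 0 then i else if i % 4 = 2 then i / 2 else 2 * i) :
    c = if i % 4 = 2 then b else 2 * b := by
  simp only [hb, hc, Nat.even_iff]
  split_ifs <;> omega

theorem ublk_dvd_of_sg (hq : 0 < q) (hr : r.Prime) (h2 : r ≠ 2) (hi : i = orderOf (q : ZMod r))
    (h0 : 0 < i) (hc : c = if i % 4 = 0 then i else if i % 4 = 2 then i / 2 else 2 * i)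
    (h : r ∣ sg q k (Even k)) : c ∣ k := by
  unfold sg at h
  split_ifs at h with h1
  · have h3 := blk_dvd_of_even hq hi h1 h
    simp only [Nat.even_iff] at h3
    split_ifs at h3 hc <;> try omega
    · exact hc ▸ h3
    · exact hc ▸ (Nat.div_dvd_of_dvd (by omega)).trans h3
    · exact hc ▸ h3
  · obtain ⟨l, e, h3, rfl⟩ := (prime_dvd_pow_add_one_iff hr h2 (hi ▸ h0) k).1 h
    have h4 := Nat.odd_iff.1 (Nat.odd_mul.1 (Nat.not_even_iff_odd.1 h1)).1
    rw [show c = l by split_ifs at hc <;> omega]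
    exact dvd_mul_right _ _

theorem numIso_eq_sg (k : ℕ) :
    H59.numIso q (k + 1) = sg q (k + 1) (Even (k + 1)) * sg q k (Even k) := by
  by_cases h : Even k <;> simp [H59.numIso, sg, Nat.even_add_one, h]

theorem dvd_succ_iff (hr : r.Prime) (h2 : r ≠ 2) (hi : i = orderOf (q : ZMod r)) (h0 : 0 < i) :
    r ∣ q + 1 ↔ i = 2 := by
  have := prime_dvd_pow_add_one_iff hr h2 (hi ▸ h0) 1
  rw [pow_one, ← hi] at this
  refine this.trans ⟨?_, fun e => ⟨1, 0, e, rfl⟩⟩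
  rintro ⟨l, c, h3, h4⟩
  rw [h3, (mul_eq_one.1 h4.symm).1, mul_one]

end arith

variable {F : Type*} [Field F] {M n r k m q i b c : ℕ}

/-- there is a root of unity without `r`-th root that gives determinant one -/
def ExMu (F : Type*) [Field F] (M r n : ℕ) : Prop :=
  ∃ (k : ℕ) (c : F), n = k * r ∧ c ^ M = 1 ∧ (∀ b, b ^ M = 1 → b ^ r ≠ c) ∧
    ((-1) ^ (r + 1) * c) ^ k = 1

theorem exMu_iff_of_pow [Finite F] [hp : Fact r.Prime] (hM : M ∣ Nat.card F - 1) (hr : r ∣ M)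
    (hn : n ≠ 0) {e : F} (h1 : e ^ M = 1) (he : e ^ r = (-1) ^ (r + 1)) :
    ExMu F M r n ↔ ¬ padicValNat r n ≤ padicValNat r M := by
  have h0 : e ≠ 0 := ne_zero_pow hp.out.ne_zero (he ▸ pow_ne_zero _ (neg_ne_zero.2 one_ne_zero))
  have h4 : (e ^ r) ^ M = 1 := by rw [pow_right_comm, h1, one_pow]
  simp only [← exists_mul_dvd_iff hn, ← exists_mu_nonpow_iff hM hr, ExMu, ← he]
  constructor
  · rintro ⟨k, c, h5, h6, h2, h3⟩
    exact ⟨k, h5, _, by rw [mul_pow, h4, h6, one_mul], fun b h7 hb =>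
      h2 (b / e) (by rw [div_pow, h7, h1, div_one]) (by rw [div_pow, hb]; field_simp), h3⟩
  · rintro ⟨k, h5, c, h6, h2, h3⟩
    exact ⟨k, c / e ^ r, h5, by rw [div_pow, h6, h4, div_one], fun b h7 hb =>
      h2 (b * e) (by rw [mul_pow, h7, h1, one_mul]) (by rw [mul_pow, hb]; field_simp),
      by rwa [mul_div_cancel₀ _ (pow_ne_zero _ h0)]⟩

theorem exMu_two_iff [Finite F] (h2 : (2 : F) ≠ 0) (hM : M ∣ Nat.card F - 1) (hr : 2 ∣ M)
    (hn : n ≠ 0) :
    ExMu F M 2 n ↔ Even n ∧ (M % 4 = 2 ∨ ¬ padicValNat 2 n ≤ padicValNat 2 M) := by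
  have h1 := exists_mu_pow_neg_iff h2 hM two_ne_zero
  rw [padicValNat.self one_lt_two, Nat.lt_iff_add_one_le,
    ← padicValNat_dvd_iff_le (ne_zero_of_dvd_card hM)] at h1
  by_cases h4 : M % 4 = 2
  · refine ⟨fun ⟨k, _, e, _⟩ => ⟨by simp [e], .inl h4⟩, fun ⟨⟨k, e⟩, _⟩ => ⟨k, -1, by omega,
      (even_iff_two_dvd.2 hr).neg_one_pow, fun b h5 h6 => ?_, by norm_num⟩⟩
    have := h1.1 ⟨b, h5, h6⟩
    omega
  · obtain ⟨e, h5, h6⟩ := h1.2 (by omega)
    rw [exMu_iff_of_pow hM hr hn h5 (by rw [h6]; norm_num)]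
    refine ⟨fun h => ⟨even_iff_two_dvd.2 (by_contra fun h7 => h ?_), .inr h⟩, fun h => h.2.resolve_left h4⟩
    rw [padicValNat.eq_zero_of_not_dvd h7]
    exact Nat.zero_le _

variable {V : Type*} [AddCommGroup V] [Module F V] [FiniteDimensional F V]
variable [Fintype F] {hF : Fintype.card F = q ^ 2} {B : V →ₛₗ[frob hF] V →ₗ[F] F}
variable {f : End F V} {s : Multiset F[X]} {N : ℕ} {y z : F}

theorem mu_iff : z * frob hF z = 1 ↔ z ^ (q + 1) = 1 := by rw [frob_apply, pow_succ']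

omit [Field F] in
theorem natCard_sq (hF : Fintype.card F = q ^ 2) : Nat.card F = q ^ 2 :=
  Nat.card_eq_fintype_card.trans hF

theorem succ_dvd_card (hF : Fintype.card F = q ^ 2) : q + 1 ∣ Nat.card F - 1 :=
  ⟨q - 1, by rw [natCard_sq hF, ← Nat.sq_sub_sq, one_pow]⟩

theorem pstar_pow_sub (hr : r ≠ 0) (h : z ^ (q + 1) = 1) :
    pstar (frob hF) (X ^ r - C z) = X ^ r - C z := by
  rw [pstar_X_pow_sub_C hr.bot_lt (ne_zero_pow q.succ_ne_zero (h ▸ one_ne_zero)),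
    inv_eq_of_mul_eq_one_left (mu_iff.2 h)]

theorem dich_frob (hr : r.Prime) (h2 : r ≠ 2) (h0 : (r : F) ≠ 0) (hi : i = orderOf (q : ZMod r)) :
    Dich (cycF F r) (pstar (frob hF)) (i % 4 = 2) :=
  dich_cycF (frob_frob hF) h0 fun _ h => hi ▸ pstar_frob_eq_self_iff_mod hF hr h2 h0 h

theorem dich_mu (h0 : (r : F) ≠ 0) (h : r ∣ q + 1) : Dich (cycF F r) (pstar (frob hF)) True :=
  dich_cycF (frob_frob hF) h0 fun _ hP => by
    obtain ⟨ω, h1, rfl⟩ := lin_of_mem_cycF h0 (h.trans (succ_dvd_card hF)) hP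
    obtain ⟨k, hk⟩ := h
    simpa using pstar_pow_sub (hF := hF) one_ne_zero (z := ω) (by rw [hk, pow_mul, h1, one_pow])

variable (hB : IsSF 1 B)
include hB

theorem exists_inv_herm_cyc (h0 : (r : F) ≠ 0) (hs : ∀ P ∈ s, P ∈ cycF F r)
    (hπ : s.map (pstar (frob hF)) = s)
    (hd : s.card * orderOf (Nat.card F : ZMod r) + N = finrank F V) :
    ∃ f, Inv B f ∧ ed f = s + Multiset.replicate N (X - 1) :=
  exists_inv_herm hB (isPP_add_replicate (fun P hP => isPP_of_mem_cycF h0 (hs P hP)) N)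
    (coeff_zero_add_replicate (fun P hP => coeff_zero_ne_zero_of_mem_cycF h0 (hs P hP)) N)
    (map_pstar_add_replicate_iff.2 hπ) ((dg_cyc h0 hs N).trans hd)

theorem exists_nd_of_lin (hf : Inv B f) (h : ∀ P ∈ ed f, P.natDegree = 1 ∧ pstar (frob hF) P = P)
    (hm : m ≤ finrank F V) : ∃ W : Submodule F V, (finrank F W = m ∧ ND B W) ∧ St f W := by
  have h1 := dg_ed f
  rw [dg_of_const fun P hP => (h P hP).1, mul_one] at h1
  obtain ⟨w, h2, h3⟩ := exists_le_card_eq (ed f) (h1 ▸ hm)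
  exact (nd_iff_ed (frob_ne_id hF) hB hf).2 ⟨w, h2, map_eq_of_fix fun P hP =>
    (h P (Multiset.mem_of_le h2 hP)).2,
    by rw [dg_of_const fun P hP => (h P (Multiset.mem_of_le h2 hP)).1, mul_one, h3]⟩

theorem exists_nd_le_herm {E : Submodule F V} (hE : ND B E) (hm : m ≤ finrank F E) :
    ∃ U ≤ E, ND B U ∧ finrank F U = m := by
  have h1 : edOn (1 : End F V) E = _ := edOn_eq_replicate (c := 1) (fun _ => id) (by simp)
  obtain ⟨U, h2, h3, h4, h5⟩ := exists_nd_le hB Inv.one (fun _ => id) hE (.inl (frob_ne_id hF))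
    (h1 ▸ (Multiset.replicate_le_replicate _).2 hm) (by simp [pstar_X_sub_one])
  exact ⟨U, h2, h4, by rw [← dg_edOn h3, h5, dg_replicate, natDegree_X_sub_C, mul_one]⟩

theorem exists_nd_of_dvd (hr : r.Prime) (h0 : (r : F) ≠ 0) (h : r ∣ q + 1) (hf : Inv B f)
    (h1 : f ^ r = 1) (hm : m ≤ finrank F V) :
    ∃ W : Submodule F V, (finrank F W = m ∧ ND B W) ∧ St f W := by
  obtain ⟨s, N, h2, h3⟩ := exists_ed_of_pow_eq_one hr h0 h1
  refine exists_nd_of_lin hB hf (fun P hP => ?_) hm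
  rcases Multiset.mem_add.1 (h3 ▸ hP) with e | e
  · refine ⟨?_, ((dich_mu h0 h).iff P (h2 P e)).2 trivial⟩
    obtain ⟨ω, -, rfl⟩ := lin_of_mem_cycF h0 (h.trans (succ_dvd_card hF)) (h2 P e)
    exact natDegree_X_sub_C _
  · exact Multiset.eq_of_mem_replicate e ▸ ⟨natDegree_X_sub_one, pstar_X_sub_one⟩

theorem herm_nd_odd (hr : r.Prime) (h2 : r ≠ 2) (h0 : (r : F) ≠ 0) (hm : m ≤ finrank F V)
    (hD : r ∣ Nat.card {W : Submodule F V // finrank F W = m ∧ ND B W})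
    (hi : i = orderOf (q : ZMod r)) (hb : b = if Even i then i / 2 else i)
    (hc : c = if i % 4 = 0 then i else if i % 4 = 2 then i / 2 else 2 * i) :
    (∀ f, Inv B f → f ^ r = 1 → f ≠ 1 →
      ∃ W : Submodule F V, (finrank F W = m ∧ ND B W) ∧ St f W) ↔
      (c ≤ m ∧ m % c ≤ finrank F V % c) := by
  classical
  obtain ⟨A, -, hA, h4⟩ := exists_nd_le_herm hB (nd_top hB) (finrank_top F V ▸ hm)
  obtain ⟨j, h5, h6⟩ := exists_dvd_nd_herm hB hr h0 hA h4 hD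
  have h7 := ublk_dvd_of_sg (two_pos.trans_le (two_le_of_card_eq_sq hF)) hr h2 hi (hi ▸ orderOf_q_pos hF h0) hc h6
  have h8 := (natCard_sq hF ▸ orderOf_sq_eq hi hb).symm
  rw [forall_blk_iff hr h0 hB (dich_frob hr h2 h0 hi) h8 (ublk_eq hb hc) _ _ (fun _ => id)
    (fun _ _ => True) _
    (fun s N a h8 h9 _ h11 => iff_of_true trivial (exists_inv_herm_cyc hB h0 h8 h9 h11))
    fun s N a f h9 h10 h11 h12 h13 => nd_shape_iff hB h11 h12 (dich_frob hr h2 h0 hi) h13 h9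
      (fun P hP => isCoprime_sub_one_of_mem_cycF hr.ne_one h0 (h9 P hP))
      (Or.inl (frob_ne_id hF)) (fun P hP => h8 ▸ natDegree_of_mem_cycF h0 hP) (ublk_eq hb hc) h10
      fun E hE b j h14 _ => exists_nd_le_herm hB hE h14, ← arith_all hm]
  · simp
  · by_contra h
    exact not_dvd_sub_of_lt_mod (by omega) h7

theorem herm_ti_shape (hr : r.Prime) (h0 : (r : F) ≠ 0) (hf : Inv B f) (hs : ∀ P ∈ s, P ∈ cycF F r)
    (he : ed f = s + Multiset.replicate N (X - 1)) [DecidableEq F[X]] {h o : ℕ}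
    (hS : Shp (pstar (frob hF)) s h o) :
    (∃ W : Submodule F V, (finrank F W = m ∧ TI B W) ∧ St f W) ↔
      ∃ b ≤ h, ∃ j, 2 * j ≤ N ∧ m = b * orderOf (Nat.card F : ZMod r) + j :=
  ti_shape_iff hB hf (ss_of_pow_eq_one h0 (pow_eq_one_of_ed h0 hs he)) he
    (fun P hP => isCoprime_sub_one_of_mem_cycF hr.ne_one h0 (hs P hP))
    (Or.inl (frob_ne_id hF)) (fun P hP => natDegree_of_mem_cycF h0 (hs P hP)) hS
    (fun _ hE _ => exists_ti_le_herm hB hE) m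

theorem herm_ti_odd (hr : r.Prime) (h2 : r ≠ 2) (h0 : (r : F) ≠ 0) (hm : 2 * m ≤ finrank F V)
    (hD : r ∣ Nat.card {W : Submodule F V // finrank F W = m ∧ TI B W})
    (hi : i = orderOf (q : ZMod r)) (hb : b = if Even i then i / 2 else i)
    (hc : c = if i % 4 = 0 then i else if i % 4 = 2 then i / 2 else 2 * i) :
    (∀ f, Inv B f → f ^ r = 1 → f ≠ 1 →
      ∃ W : Submodule F V, (finrank F W = m ∧ TI B W) ∧ St f W) ↔
    (b ≤ m ∧ 2 * (m % b) ≤ finrank F V % c ∧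
      (i % 4 ≠ 2 ∨ (r - 1) / b + 2 * (m / b) ≤ finrank F V / b)) := by
  classical
  have h8 : orderOf (Nat.card F : ZMod r) = b := natCard_sq hF ▸ orderOf_sq_eq hi hb
  rw [forall_shape_iff hr h0 hB (dich_frob hr h2 h0 hi) _ _ (fun _ => id) (fun _ _ _ => True) _
    (fun s N h o h4 h5 _ h6 => iff_of_true trivial (exists_inv_herm_cyc hB h0 h4 h5 h6))
    fun s N h o f h4 h5 h6 _ h8 => herm_ti_shape hB hr h0 h6 h4 h8 h5, ← h8,
    ← card_cycF_eq_div hr h0, h8, ublk_eq hb hc]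
  obtain ⟨j, h4, h5⟩ := exists_dvd_ti_herm hB hr hD
  obtain ⟨k, hk⟩ : ∃ k, finrank F V - 2 * j = k + 1 := ⟨_, (Nat.sub_add_cancel (by omega)).symm⟩
  have h6 := fun k => ublk_dvd_of_sg (k := k) (two_pos.trans_le (two_le_of_card_eq_sq hF)) hr h2 hi
    (hi ▸ orderOf_q_pos hF h0) hc
  rw [hk, numIso_eq_sg, hr.dvd_mul] at h5
  convert arith_ti_sp (sd := i % 4 = 2) (h8 ▸ orderOf_card_pos h0) (fun _ => card_cycF_pos h0) hm ?_
  rw [← ublk_eq hb hc]
  exact h5.elim (fun e => ⟨2 * j, by omega, hk ▸ h6 _ e⟩) fun e =>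
    ⟨2 * j + 1, by omega, (show k = finrank F V - (2 * j + 1) by omega) ▸ h6 _ e⟩

theorem not_char_dvd_ti (p : ℕ) [hp : Fact p.Prime] [CharP F p] (hm : 2 * m ≤ finrank F V) :
    ¬ p ∣ Nat.card {W : Submodule F V // finrank F W = m ∧ TI B W} := fun hD => by
  obtain ⟨j, h4, h5⟩ := exists_dvd_ti_herm hB hp.out hD
  obtain ⟨k, hk⟩ : ∃ k, finrank F V - 2 * j = k + 1 + 1 := ⟨finrank F V - 2 * j - 2, by omega⟩
  have h1 : p ∣ q := hp.out.dvd_of_dvd_pow (natCard_sq hF ▸ char_dvd_card p)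
  have h6 : ∀ k ε, ¬ p ∣ sg q (k + 1) ε := fun k ε => by
    unfold sg
    split_ifs
    exacts [not_dvd_pow_sub_one hp.out h1 (two_pos.trans_le (two_le_of_card_eq_sq hF)) k.succ_pos,
      not_dvd_pow_add_one hp.out h1 k.succ_pos]
  rw [hk, numIso_eq_sg, hp.out.dvd_mul] at h5
  exact h5.elim (h6 _ _) (h6 _ _)

theorem herm_nd_char (p : ℕ) [hp : Fact p.Prime] [CharP F p] (hm : m ≤ finrank F V) :
    (∀ f, Inv B f → f ^ p = 1 → f ≠ 1 →
      ∃ W : Submodule F V, (finrank F W = m ∧ ND B W) ∧ St f W) ↔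
    ∀ μ : Multiset ℕ, (∀ a ∈ μ, 0 < a ∧ a ≤ p) → μ.sum = finrank F V → ∃ ν ≤ μ, ν.sum = m := by
  refine ⟨fun H μ h0 h3 => ?_, fun H f hf h0 _ => ?_⟩
  · rcases eq_replicate_one_or fun k hk => (h0 k hk).1 with h4 | ⟨k, h4, h5⟩
    · exact ⟨Multiset.replicate m 1, h4 ▸ (Multiset.replicate_le_replicate 1).2 (by omega), by simp⟩
    obtain ⟨f, h6, h7⟩ := exists_inv_herm hB (isPP_up fun k hk => (h0 k hk).1) coeff_up map_pstar_up
      (dgs_up.trans h3)
    obtain ⟨W, ⟨h8, h9⟩, h10⟩ := H f h6 (pow_char_of_ed_up p h7 fun k hk => (h0 k hk).2)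
      (by simpa using ne_smul_of_ed_up h7 h4 h5 1)
    obtain ⟨ν, ρ, rfl, -, -, h12⟩ := exists_up_of_nd hB h6 h7 h10 h9
    exact ⟨ν, Multiset.le_add_right _ _, h12.trans h8⟩
  · obtain ⟨ν, h3, h4⟩ := H _ (le_of_pow_char p h0) (sum_jt f)
    exact (nd_iff_ed (frob_ne_id hF) hB hf).2 ⟨up F ν,
      ed_eq_map_jt (isNilpotent_of_pow_char p h0) ▸ Multiset.map_le_map h3, map_pstar_up,
      dgs_up.trans h4⟩

end H58
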