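import Cfsg.Agent.H58.ElU

/-!
Elements of prime order of `PSU_n(q)`: the determinant condition.
-/

open Polynomial Module

namespace H58

open H53
open H59 (perp mem_perp frob frob_apply frob_ne_id frob_frob)

variable {F : Type*} [Field F] {n r k m q i b c : ℕ}
variable {V : Type*} [AddCommGroup V] [Module F V] [FiniteDimensional F V]
variable [Fintype F] {hF : Fintype.card F = q ^ 2} {B : V →ₛₗ[frob hF] V →ₗ[F] F}
variable {f : End F V} {s : Multiset F[X]} {N : ℕ} {y z : F}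

/-- elements of `SU` whose `r`-th power is a scalar with no `r`-th root of norm one -/
def NP (B : V →ₛₗ[frob hF] V →ₗ[F] F) (r : ℕ) (f : End F V) : Prop :=
  Inv B f ∧ LinearMap.det f = 1 ∧ ∃ z : F, f ^ r = z • 1 ∧ ∀ b : F, b ^ (q + 1) = 1 → b ^ r ≠ z

/-- all elements of order `r` of `PSU` have the property `Φ` -/
abbrev AllU (B : V →ₛₗ[frob hF] V →ₗ[F] F) (r : ℕ) (Φ : End F V → Prop) : Prop :=
  ∀ f, Inv B f → LinearMap.det f = 1 → (∃ z : F, f ^ r = z • 1) → (∀ z : F, f ≠ z • 1) → Φ f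

theorem odd_of_two_ne (hF : Fintype.card F = q ^ 2) (h2 : (2 : F) ≠ 0) : Odd q := by
  have := card_mod_four h2
  rw [natCard_sq hF] at this
  exact (Nat.odd_pow_iff two_ne_zero).1 (Nat.odd_iff.2 (by omega))

omit [Fintype F] in
theorem mu_ne_zero (h : z ^ (q + 1) = 1) : z ≠ 0 := ne_zero_pow q.succ_ne_zero (h ▸ one_ne_zero)

theorem exists_sq_of_mu (hF : Fintype.card F = q ^ 2) (h2 : (2 : F) ≠ 0) (h : z ^ (q + 1) = 1)
    (h1 : ∀ b : F, b ^ (q + 1) = 1 → b ^ 2 ≠ z) : ∃ y, y * y = z ∧ y ≠ 0 ∧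
      pstar (frob hF) (X - C y) = X - C (-y) ∧ pstar (frob hF) (X - C (-y)) = X - C y := by
  obtain ⟨t, rfl⟩ := odd_of_two_ne hF h2
  obtain ⟨y, rfl⟩ := (FiniteField.isSquare_iff (fun e => h2 (by
    simpa using (ringChar.spec F 2).2 (e ▸ dvd_rfl))) (mu_ne_zero h)).2 (by
      rw [hF, show (2 * t + 1) ^ 2 / 2 = (2 * t + 1 + 1) * t by
        rw [show (2 * t + 1) ^ 2 = 2 * ((2 * t + 1 + 1) * t) + 1 by ring]; omega, pow_mul, h, one_pow])
  have h3 : y ≠ 0 := left_ne_zero_of_mul (mu_ne_zero h)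
  have h4 : y * frob hF y = -1 := by
    rw [frob_apply, ← pow_succ']
    exact (mul_self_eq_one_iff.1 (by rw [← mul_pow, h])).resolve_left fun e => h1 y e (sq y)
  refine ⟨y, rfl, h3, ?_, ?_⟩
  · rw [pstar_X_sub_C h3, inv_eq_of_mul_eq_one_left (a := -y) (by rw [neg_mul, h4, neg_neg])]
  · rw [pstar_X_sub_C (neg_ne_zero.2 h3), map_neg,
      inv_eq_of_mul_eq_one_left (a := y) (by rw [mul_neg, h4, neg_neg])]

theorem nonpow_of_mu (hF : Fintype.card F = q ^ 2) (hr : r.Prime) (h2 : r ≠ 2) (hq : r ∣ q + 1)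
    (h : z ^ (q + 1) = 1) (h1 : ∀ b : F, b ^ (q + 1) = 1 → b ^ r ≠ z) (b : F) : b ^ r ≠ z := fun e => by
  have h3 := two_le_of_card_eq_sq hF
  refine h1 b (eq_one_of_coprime (n := r) (M := q - 1) ((Nat.Prime.coprime_iff_not_dvd hr).2 fun h4 =>
    h2 ((Nat.prime_dvd_prime_iff_eq hr Nat.prime_two).1 ?_)) (by rw [pow_right_comm, e, h]) ?_) e
  · exact (show q + 1 - (q - 1) = 2 by omega) ▸ Nat.dvd_sub hq h4
  · rw [← pow_mul, ← Nat.sq_sub_sq, one_pow, ← hF]
    exact FiniteField.pow_card_sub_one_eq_one b (ne_zero_pow hr.ne_zero (e ▸ mu_ne_zero h))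

variable [Nontrivial V] (hB : IsSF 1 B)
include hB

omit [FiniteDimensional F V] in
theorem pow_mu (hf : Inv B f) (h : f ^ r = z • 1) : z ^ (q + 1) = 1 :=
  mu_iff.1 (mul_eq_one_of_inv_smul hB (h ▸ hf.pow r))

theorem su_split (Φ : End F V → Prop) (hΦ : ∀ (c : F) f, c ≠ 0 → Φ (c • f) → Φ f) :
    AllU B r Φ ↔ (∀ g, Inv B g → g ^ r = 1 → (∀ z : F, g ≠ z • 1) →
      (∃ b : F, b ^ (q + 1) = 1 ∧ b ^ finrank F V * LinearMap.det g = 1) → Φ g) ∧
      ∀ f, NP B r f → Φ f := by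
  have key : ∀ (g : End F V) (b : F), b ≠ 0 → (∀ z : F, g ≠ z • 1) → ∀ z : F, b • g ≠ z • 1 :=
    fun g b hb h z e => h (b⁻¹ * z) (by rw [mul_smul, ← e, inv_smul_smul₀ hb])
  refine ⟨fun H => ⟨fun g h1 h2 h3 ⟨b, h4, h5⟩ => hΦ b g (mu_ne_zero h4) (H _ (Inv.smul' h1 (mu_iff.2 h4))
    (by rw [LinearMap.det_smul, h5]) ⟨b ^ r, by rw [_root_.smul_pow, h2]⟩ (key g b (mu_ne_zero h4) h3)),
    fun f ⟨h1, h2, z, h3, h4⟩ => H f h1 h2 ⟨z, h3⟩ fun c e => h4 c (pow_mu hB h1 (r := 1) (by simpa)) ?_⟩,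
    fun ⟨H, H'⟩ f h1 h2 ⟨z, h3⟩ h4 => ?_⟩
  · rw [e, _root_.smul_pow, one_pow] at h3
    exact smul_left_injective F one_ne_zero h3
  by_cases h5 : ∀ b : F, b ^ (q + 1) = 1 → b ^ r ≠ z
  · exact H' f ⟨h1, h2, z, h3, h5⟩
  push Not at h5
  obtain ⟨b, h5, rfl⟩ := h5
  have h6 := mu_ne_zero h5
  refine hΦ b⁻¹ f (inv_ne_zero h6) (H _ (Inv.smul' h1 (mu_iff.2 (by rw [inv_pow, h5, inv_one])))
    (smul_pow_eq_one h6 h3) (key f _ (inv_ne_zero h6) h4) ⟨b, h5, ?_⟩)
  rw [LinearMap.det_smul, h2, mul_one, ← mul_pow, mul_inv_cancel₀ h6, one_pow]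

omit [FiniteDimensional F V] in
theorem NP.dvd (hr : r.Prime) (h : NP B r f) : r ∣ q + 1 := by
  obtain ⟨h1, -, z, h2, h3⟩ := h
  by_contra h4
  have h5 := pow_mu hB h1 h2
  obtain ⟨u, hu⟩ := exists_pow_pow_eq ((Nat.Prime.coprime_iff_not_dvd hr).2 h4) q.succ_ne_zero h5
  exact h3 _ (by rw [pow_right_comm, h5, one_pow]) hu

theorem NP.odd (hr : r.Prime) (h2 : r ≠ 2) (h : NP B r f) : ∃ k z, finrank F V = k * r ∧
    z ^ (q + 1) = 1 ∧ f ^ r = z • 1 ∧ (∀ b : F, b ^ (q + 1) = 1 → b ^ r ≠ z) ∧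
      ed f = Multiset.replicate k (X ^ r - C z) := by
  have h0 := h.dvd hB hr
  obtain ⟨h1, -, z, h3, h4⟩ := h
  have h5 := pow_mu hB h1 h3
  obtain ⟨k, h6, h7⟩ := ed_of_nonpow hr (nonpow_of_mu hF hr h2 h0 h5 h4) h3
  exact ⟨k, z, h6, h5, h3, h4, h7⟩

theorem NP.two (h2 : (2 : F) ≠ 0) (h : NP B 2 f) : ∃ k y, finrank F V = k * 2 ∧ y ≠ 0 ∧
    (y * y) ^ (q + 1) = 1 ∧ (∀ b : F, b ^ (q + 1) = 1 → b ^ 2 ≠ y * y) ∧
    pstar (frob hF) (X - C y) = X - C (-y) ∧ pstar (frob hF) (X - C (-y)) = X - C y ∧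
      ed f = Multiset.replicate k (X - C y) + Multiset.replicate k (X - C (-y)) := by
  obtain ⟨h1, -, z, h3, h4⟩ := h
  have h5 := pow_mu hB h1 h3
  obtain ⟨y, rfl, h6, h7, h8⟩ := exists_sq_of_mu hF h2 h5 h4
  obtain ⟨a, b, h9, h10⟩ := exists_ed_of_sq h2 h6 h3
  have h11 := h1.map_pstar_ed hB
  rw [h10, Multiset.map_add, Multiset.map_replicate, Multiset.map_replicate, h7, h8, add_comm] at h11
  have := (two_inj (X_sub_C_ne_neg h2 h6)).1 h11.le
  obtain rfl : a = b := by omega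
  exact ⟨a, y, by omega, h6, h5, h4, h7, h8, h10⟩

theorem exists_np_iff (hr : r.Prime) (h0 : (r : F) ≠ 0) (hq : r ∣ q + 1) :
    (∃ f, NP B r f) ↔ ExMu F (q + 1) r (finrank F V) := by
  by_cases h2 : r = 2
  · subst h2
    have key : ∀ (f : End F V) k y, ed f = Multiset.replicate k (X - C y) +
        Multiset.replicate k (X - C (-y)) → LinearMap.det f = ((-1) ^ (2 + 1) * (y * y)) ^ k :=
      fun f k y e => by rw [det_of_two e, ← mul_pow]; congr 1; ring
    refine ⟨fun ⟨f, h⟩ => ?_, fun ⟨k, z, h1, h3, h4, h5⟩ => ?_⟩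
    · obtain ⟨k, y, h1, -, h3, h4, -, -, h5⟩ := h.two hB h0
      exact ⟨k, _, h1, h3, h4, key f k y h5 ▸ h.2.1⟩
    · obtain ⟨y, rfl, h6, h7, h8⟩ := exists_sq_of_mu hF h0 h3 h4
      obtain ⟨f, h9, h10⟩ := exists_inv_herm hB (isPP_two (a := k) (b := k))
        (coeff_two h6 (neg_ne_zero.2 h6)) (by simp only [Multiset.map_add, Multiset.map_replicate, h7,
          h8, add_comm]) (by rw [dg_two, h1, mul_two])
      exact ⟨f, h9, key f k y h10 ▸ h5, _, sq_of_two h10, h4⟩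
  · refine ⟨fun ⟨f, h⟩ => ?_, fun ⟨k, z, h1, h3, h4, h5⟩ => ?_⟩
    · obtain ⟨k, z, h1, h3, -, h4, h5⟩ := h.odd hB hr h2
      exact ⟨k, z, h1, h3, h4, det_of_prod (f := f) (z := z) hr.ne_zero h1
        (by rw [h5, Multiset.prod_replicate]) ▸ h.2.1⟩
    · obtain ⟨f, h9, h10⟩ := exists_inv_herm hB (s := Multiset.replicate k (X ^ r - C z))
        (fun P hP => Multiset.eq_of_mem_replicate hP ▸ isPP_of_irreducible
          (monic_X_pow_sub_C z hr.ne_zero)
          (X_pow_sub_C_irreducible_of_prime hr (nonpow_of_mu hF hr h2 hq h3 h4)))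
        (fun P hP => by simpa [Multiset.eq_of_mem_replicate hP, coeff_X_pow, hr.ne_zero.symm]
          using mu_ne_zero h3)
        (by rw [Multiset.map_replicate, pstar_pow_sub hr.ne_zero h3]) (by simp [dg_replicate, h1])
      exact ⟨f, h9, det_of_prod (f := f) (z := z) hr.ne_zero h1
        (by rw [h10, Multiset.prod_replicate]) ▸ h5, z,
        (pow_eq_smul_one_iff_ed f r z).2 fun P hP => Multiset.eq_of_mem_replicate (h10 ▸ hP) ▸ dvd_rfl, h4⟩

omit [Nontrivial V] in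
theorem exists_scale (hr : r.Prime) (h : ¬ r ∣ q + 1 ∨ ¬ r ∣ finrank F V) (hf : Inv B f)
    (h1 : f ^ r = 1) : ∃ b : F, b ^ (q + 1) = 1 ∧ b ^ finrank F V * LinearMap.det f = 1 := by
  have h2 : LinearMap.det f ^ r = 1 := by rw [← map_pow, h1, map_one]
  have h3 := mu_iff.1 (hf.det_mul_det hB)
  rcases h with h | h
  · exact ⟨1, one_pow _, by
      rw [eq_one_of_coprime ((Nat.Prime.coprime_iff_not_dvd hr).2 h) h2 h3, one_pow, one_mul]⟩
  · obtain ⟨u, hu⟩ := exists_pow_pow_eq ((Nat.Prime.coprime_iff_not_dvd hr).2 h).symm hr.ne_zero h2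
    exact ⟨(_ ^ u)⁻¹, by rw [inv_pow, pow_right_comm, h3, one_pow, inv_one],
      by rw [inv_pow, hu, inv_mul_cancel₀ (mu_ne_zero h3)]⟩

theorem su_all (hr : r.Prime) (h : ¬ r ∣ q + 1) (Φ : End F V → Prop)
    (hΦ : ∀ (c : F) f, c ≠ 0 → Φ (c • f) → Φ f) :
    AllU B r Φ ↔ ∀ g, Inv B g → g ^ r = 1 → g ≠ 1 → Φ g := by
  rw [su_split hB Φ hΦ]
  refine ⟨fun H g h1 h2 h3 => H.1 g h1 h2 (fun c e => h3 ?_) (exists_scale hB hr (.inl h) h1 h2),
    fun H => ⟨fun g h1 h2 h3 _ => H g h1 h2 (by simpa using h3 1), fun f e => (h (e.dvd hB hr)).elim⟩⟩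
  have h4 := pow_mu hB h1 (r := 1) (z := c) (by simpa)
  rw [e, _root_.smul_pow, one_pow, ← one_smul F (1 : End F V), smul_smul, mul_one] at h2
  rw [e, eq_one_of_coprime ((Nat.Prime.coprime_iff_not_dvd hr).2 h)
    (smul_left_injective F one_ne_zero h2) h4, one_smul]

omit hB [FiniteDimensional F V] [Fintype F] [Nontrivial V] in
theorem st_of_smul (Ψ : Submodule F V → Prop) (c : F) (f : End F V) (hc : c ≠ 0)
    (h : ∃ W, Ψ W ∧ St (c • f) W) : ∃ W, Ψ W ∧ St f W :=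
  h.imp fun _ e => ⟨e.1, (st_smul_iff hc).1 e.2⟩

theorem forall_np_iff {Φ : End F V → Prop} {P : Prop} (hr : r.Prime) (h0 : (r : F) ≠ 0)
    (hq : r ∣ q + 1) (h : ∀ f, NP B r f → (Φ f ↔ P)) :
    (∀ f, NP B r f → Φ f) ↔ (ExMu F (q + 1) r (finrank F V) → P) := by
  rw [← exists_np_iff hB hr h0 hq]
  exact ⟨fun H ⟨f, e⟩ => (h f e).1 (H f e), fun H f e => (h f e).2 (H ⟨f, e⟩)⟩

omit hB in
theorem exMu_odd_iff (hF : Fintype.card F = q ^ 2) [hp : Fact r.Prime] (h2 : r ≠ 2) (hq : r ∣ q + 1) :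
    ExMu F (q + 1) r (finrank F V) ↔ ¬ padicValNat r (finrank F V) ≤ padicValNat r (q + 1) :=
  exMu_iff_of_pow (succ_dvd_card hF) hq finrank_pos.ne' (e := 1) (one_pow _)
    (by rw [one_pow, (hp.out.odd_of_ne_two h2).add_one.neg_one_pow])

theorem su_nd_mu [hp : Fact r.Prime] (h2 : r ≠ 2) (h0 : (r : F) ≠ 0) (hq : r ∣ q + 1)
    (hm : m ≤ finrank F V) :
    AllU B r (fun f => ∃ W : Submodule F V, (finrank F W = m ∧ ND B W) ∧ St f W) ↔
      (r ∣ m ∨ padicValNat r (finrank F V) ≤ padicValNat r (q + 1)) := by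
  rw [su_split hB _ (st_of_smul _), and_iff_right fun g h1 h3 _ _ =>
    exists_nd_of_dvd hB hp.out h0 hq h1 h3 hm, forall_np_iff hB (P := r ∣ m) hp.out h0 hq fun f h => ?_,
    exMu_odd_iff hF h2 hq, imp_iff_or_not, not_not]
  obtain ⟨k, z, h1, h3, -, -, h5⟩ := h.odd hB hp.out h2
  rw [nd_iff_ed (frob_ne_id hF) hB h.1, h5]
  simp only [Multiset.le_replicate_iff]
  constructor
  · rintro ⟨_, ⟨j, -, rfl⟩, -, rfl⟩
    simp [dg_replicate]
  · rintro ⟨j, rfl⟩
    exact ⟨_, ⟨j, Nat.le_of_mul_le_mul_right (by rwa [← h1, mul_comm]) hp.out.pos, rfl⟩,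
      by rw [Multiset.map_replicate, pstar_pow_sub hp.out.ne_zero h3], by simp [dg_replicate, mul_comm]⟩

theorem su_nd_two (h2 : (2 : F) ≠ 0) (hm : m ≤ finrank F V) :
    AllU B 2 (fun f => ∃ W : Submodule F V, (finrank F W = m ∧ ND B W) ∧ St f W) ↔
      (Odd (finrank F V) ∨ Even m ∨
        (padicValNat 2 (finrank F V) ≤ padicValNat 2 (q + 1) ∧ q % 4 = 3)) := by
  have hq := Nat.odd_iff.1 (odd_of_two_ne hF h2)
  rw [su_split hB _ (st_of_smul _), and_iff_right fun g h1 h3 _ _ =>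
    exists_nd_of_dvd hB Nat.prime_two h2 (by omega) h1 h3 hm,
    forall_np_iff hB (P := Even m) Nat.prime_two h2 (by omega) fun f h => ?_,
    exMu_two_iff h2 (succ_dvd_card hF) (by omega) finrank_pos.ne', ← Nat.not_even_iff_odd,
    show (q + 1) % 4 = 2 ↔ ¬ q % 4 = 3 by omega]
  · tauto
  obtain ⟨k, y, h1, h3, -, -, h4, h5, h6⟩ := h.two hB h2
  rw [nd_iff_ed (frob_ne_id hF) hB h.1, h6]
  simp only [le_two_iff]
  constructor
  · rintro ⟨_, ⟨a, -, b, -, rfl⟩, h7, rfl⟩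
    rw [Multiset.map_add, Multiset.map_replicate, Multiset.map_replicate, h4, h5, add_comm] at h7
    have := (two_inj (X_sub_C_ne_neg h2 h3)).1 h7.le
    rw [dg_two]
    exact ⟨a, by omega⟩
  · rintro ⟨j, rfl⟩
    exact ⟨_, ⟨j, by omega, j, by omega, rfl⟩,
      by simp only [Multiset.map_add, Multiset.map_replicate, h4, h5, add_comm], dg_two⟩

theorem su_ti_mu [hp : Fact r.Prime] (h2 : r ≠ 2) (h0 : (r : F) ≠ 0) (hq : r ∣ q + 1)
    (hm : 2 * m ≤ finrank F V) {P : Prop} (hP : (∀ f, Inv B f → f ^ r = 1 → f ≠ 1 →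
      ∃ W : Submodule F V, (finrank F W = m ∧ TI B W) ∧ St f W) ↔ P)
    (h : r - 1 + 2 * m ≤ finrank F V → P) :
    AllU B r (fun f => ∃ W : Submodule F V, (finrank F W = m ∧ TI B W) ∧ St f W) ↔
      P ∧ (r ∣ m ∨ padicValNat r (finrank F V) ≤ padicValNat r (q + 1)) := by
  classical
  have hr := hp.out
  rw [su_split hB _ (st_of_smul _), forall_np_iff hB (P := r ∣ m) hr h0 hq fun f h => ?_,
    exMu_odd_iff hF h2 hq, imp_iff_or_not, not_not]
  · refine and_congr_left' ⟨fun H => ?_, fun H g h1 h3 h4 _ => hP.2 H g h1 h3 (by simpa using h4 1)⟩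
    by_cases hn : r ∣ finrank F V
    · have h1 := (orderOf_eq_one_iff_dvd Nat.card_pos).2 (hq.trans (succ_dvd_card hF))
      have h3 := card_cycF_eq_div hr h0
      have h4 := Nat.le_of_dvd finrank_pos hn
      have h5 := hr.two_le
      rw [h1, Nat.div_one] at h3
      have hS := (dich_mu (hF := hF) h0 hq).shp_of (u := 0) (by simp) (fun _ => id) (cycF F r).nodup (by simp)
      rw [Multiset.map_zero, zero_add, zero_add] at hS
      obtain ⟨g, h6, h7⟩ := exists_inv_herm_cyc hB h0 (fun _ => id) (N := finrank F V - (r - 1))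
        (map_eq_of_fix fun P hP => ((dich_mu h0 hq).iff P hP).2 trivial)
        (by rw [h1, Finset.card_val, h3]; omega)
      obtain ⟨φ, hφ⟩ := cycF_nonempty h0
      obtain ⟨b, h8, j, h9, h10⟩ := (herm_ti_shape hB hr h0 h6 (fun _ => id) h7 hS).1 (H g h6
        (pow_eq_one_of_ed h0 (fun _ => id) h7) (ne_smul_of_mem_ed (P := φ) (Q := X - 1)
          (h7 ▸ Multiset.mem_add.2 (.inl hφ))
          (h7 ▸ Multiset.mem_add.2 (.inr (Multiset.mem_replicate.2 ⟨by omega, rfl⟩)))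
          fun e => X_sub_one_notMem_cycF hr.ne_one h0 (e ▸ hφ))
        ⟨1, one_pow _, by
          have h8 := dg_cyc h0 (s := (cycF F r).val) (fun _ => id) 0
          rw [Multiset.replicate_zero, add_zero, h1, Finset.card_val, h3] at h8
          rw [det_of_add h7, h8, Finset.prod_val, show (cycF F r).prod id = _ from prod_cycF h0,
            cyclotomic_coeff_zero F h5]
          simp [(hr.even_sub_one h2).neg_one_pow]⟩)
      obtain rfl : b = 0 := by simpa using h8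
      exact h (by omega)
    · refine hP.1 fun g h1 h3 _ => ?_
      by_cases h4 : ∀ z : F, g ≠ z • 1
      · exact H g h1 h3 h4 (exists_scale hB hr (.inr hn) h1 h3)
      push Not at h4
      obtain ⟨z, rfl⟩ := h4
      obtain ⟨W, h4⟩ := exists_ti_herm hB hm
      exact ⟨W, h4, St.smul (fun _ => id) z⟩
  obtain ⟨k, z, h1, h3, h4, -, h5⟩ := h.odd hB hr h2
  rw [ti_iff_ed (frob_ne_id hF) hB h.1 (isSemisimple_of_pow h0 (mu_ne_zero h3) h4), h5]
  constructor
  · rintro ⟨w, h6, rfl⟩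
    obtain ⟨j, -, rfl⟩ := Multiset.le_replicate_iff.1 ((Multiset.le_add_right _ _).trans h6)
    simp [dg_replicate]
  · rintro ⟨j, rfl⟩
    refine ⟨Multiset.replicate j (X ^ r - C z), ?_, by simp [dg_replicate, mul_comm]⟩
    rw [Multiset.map_replicate, pstar_pow_sub hr.ne_zero h3, ← Multiset.replicate_add,
      Multiset.replicate_le_replicate]
    exact Nat.le_of_mul_le_mul_right (by rw [← h1]; lia) hr.pos

theorem su_ti_two (h2 : (2 : F) ≠ 0) (hm : 2 * m ≤ finrank F V) (h1 : 2 ≤ finrank F V) :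
    AllU B 2 (fun f => ∃ W : Submodule F V, (finrank F W = m ∧ TI B W) ∧ St f W) ↔
      (2 * m < finrank F V ∨ padicValNat 2 (q + 1) ≤ padicValNat 2 (finrank F V)) := by
  have hq := Nat.odd_iff.1 (odd_of_two_ne hF h2)
  have h3 := X_sub_C_ne_neg h2 (one_ne_zero (α := F))
  have p1 : pstar (frob hF) (X - C 1) = X - C 1 := by simpa using pstar_X_sub_one
  have p2 : pstar (frob hF) (X - C (-1)) = X - C (-1) := by simpa using pstar_X_add_one
  have key : ∀ g a b, Inv B g → ed g = Multiset.replicate a (X - C 1) + Multiset.replicate b (X - C (-1)) →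
      ((∃ W : Submodule F V, (finrank F W = m ∧ TI B W) ∧ St g W) ↔ m ≤ a / 2 + b / 2) :=
    fun g a b h4 h5 => by
      rw [ti_iff_ed (frob_ne_id hF) hB h4 (isSemisimple_of_pow h2 (by simp) (sq_of_two h5)), h5]
      have k2 : ∀ i j, Multiset.replicate i (X - C 1 : F[X]) + Multiset.replicate j (X - C (-1)) +
          (Multiset.replicate i (X - C 1 : F[X]) + Multiset.replicate j (X - C (-1))).map
            (pstar (frob hF)) =
          Multiset.replicate (i + i) (X - C 1) + Multiset.replicate (j + j) (X - C (-1)) := fun i j => by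
        rw [Multiset.map_add, Multiset.map_replicate, Multiset.map_replicate, p1, p2,
          Multiset.replicate_add, Multiset.replicate_add, add_add_add_comm]
      constructor
      · rintro ⟨w, h6, rfl⟩
        obtain ⟨i, -, j, -, rfl⟩ := le_two_iff.1 ((Multiset.le_add_right _ _).trans h6)
        rw [k2, two_inj h3] at h6
        rw [dg_two]
        omega
      · refine fun h6 => ⟨_, (k2 (min m (a / 2)) (m - min m (a / 2))).trans_le
          ((two_inj h3).2 (by omega)), ?_⟩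
        rw [dg_two]
        omega
  rw [su_split hB _ (st_of_smul _), and_iff_left fun f h => ?_, ← not_lt (a := padicValNat _ _),
    ← exists_mu_pow_neg_iff h2 (succ_dvd_card hF) finrank_pos.ne']
  · refine ⟨fun H => (hm.lt_or_eq).imp_right fun e ⟨b, h4, h5⟩ => ?_, fun H g h4 h5 _ ⟨c, h6, h7⟩ => ?_⟩
    · obtain ⟨g, h6, h7⟩ := exists_inv_herm hB (isPP_two (a := finrank F V - 1) (b := 1))
        (coeff_two one_ne_zero (neg_ne_zero.2 one_ne_zero))
        (by rw [Multiset.map_add, Multiset.map_replicate, Multiset.map_replicate, p1, p2])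
        (by rw [dg_two]; omega)
      have := (key g _ _ h6 h7).1 (H g h6 (by simpa using sq_of_two h7) (ne_smul_of_mem_ed
        (h7 ▸ Multiset.mem_add.2 (.inl (Multiset.mem_replicate.2 ⟨by omega, rfl⟩)))
        (h7 ▸ Multiset.mem_add.2 (.inr (Multiset.mem_replicate.2 ⟨one_ne_zero, rfl⟩))) h3) ⟨b, h4, by simp [det_of_two h7, h5]⟩)
      omega
    · obtain ⟨a, b, h8, h9⟩ := exists_ed_of_sq (f := g) (y := 1) h2 one_ne_zero (by simpa using h5)
      refine (key g a b h4 h9).2 ?_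
      rcases H with H | H
      · omega
      rcases Nat.even_or_odd b with e | e
      · obtain ⟨_, rfl⟩ := e
        omega
      · rw [det_of_two h9, e.neg_one_pow, one_pow, one_mul, mul_neg_one, neg_eq_iff_eq_neg] at h7
        exact (H ⟨c, h6, h7⟩).elim
  obtain ⟨k, y, h4, h5, -, -, h6, -, h7⟩ := h.two hB h2
  refine (ti_iff_ed (frob_ne_id hF) hB h.1 (isSemisimple_of_pow h2 (mul_ne_zero h5 h5)
    (sq_of_two h7))).2 ⟨Multiset.replicate m (X - C y), ?_, by simp [dg_replicate]⟩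
  rw [Multiset.map_replicate, h6, h7]
  exact le_two_iff.2 ⟨m, by omega, m, by omega, rfl⟩

end H58
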