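import Cfsg.Agent.H58.ElND2
import Cfsg.Agent.H58.ElUni

/-!
Unipotent isometries and the nondegenerate subspaces they fix.
-/

open Polynomial Module

namespace H58

open H53
open H59 (perp mem_perp)
open H56 (O SqCl sqcl)

variable {F : Type*} [Field F] {σ : F →+* F} {ε : F}
variable {V : Type*} [AddCommGroup V] [Module F V] [FiniteDimensional F V]
variable {B : V →ₛₗ[σ] V →ₗ[F] F} {f : End F V} {Q : QuadraticForm F V} {A C W : Submodule F V}
variable {s t : Multiset F[X]} {μ : Multiset ℕ} {m : ℕ}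

theorem realQ_hyp (hs : ∀ P ∈ s, IsPP P) (h0 : ∀ P ∈ s, P.coeff 0 ≠ 0) :
    RealQ True (s + s.map (pstar (RingHom.id F))) := by
  obtain ⟨g, hg⟩ := exists_gl_med_eq (n := Fin (s.map natDegree).sum) hs h0 (by simp)
  have hσ : ∀ a : F, RingHom.id F (RingHom.id F a) = a := fun _ => rfl
  have h1 := ed_hyp hσ g.isUnit
  rw [hg] at h1
  let R := LinearMap.BilinMap.toQuadraticMap (hypForm hσ 0 (Fin (s.map natDegree).sum))
  have h2 : R.polarBilin = hypForm hσ 1 _ := LinearMap.ext₂ fun x y => by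
    simp [R, LinearMap.BilinMap.polar_toQuadraticMap, hypForm_apply]
  rw [← h1]
  refine (realQ_ed (Q := R) (h2 ▸ (isSF_hypForm hσ (by simp)).nondegenerate)
    fun v => inv_hypForm hσ g.isUnit v v).congr (iff_true_intro ⟨LinearMap.range (.inl F _ _), ?_, ?_⟩)
  · rw [LinearMap.finrank_range_of_inj LinearMap.inl_injective, finrank_prod, two_mul]
  · rintro _ ⟨x, rfl⟩
    simp [R, hypForm_apply]

theorem exists_of_isCompl (hc : IsCompl A C) (g : End F A) (k : End F C) :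
    ∃ f : End F V, St f A ∧ St f C ∧ (∀ v : A, f v = g v) ∧ (∀ v : C, f v = k v) ∧
      edOn f A = ed g ∧ edOn f C = ed k := by
  set f := LinearMap.ofIsCompl hc (A.subtype ∘ₗ g) (C.subtype ∘ₗ k)
  have h1 : ∀ v : A, f v = g v := fun v => LinearMap.ofIsCompl_apply_left hc v
  have h2 : ∀ v : C, f v = k v := fun v => LinearMap.ofIsCompl_apply_right hc v
  have h3 : St f A := fun v hv => (h1 ⟨v, hv⟩).symm ▸ (g _).2
  have h4 : St f C := fun v hv => (h2 ⟨v, hv⟩).symm ▸ (k _).2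
  exact ⟨f, h3, h4, h1, h2, by
    rw [edOn_eq h3, show f.restrict h3 = g from LinearMap.ext fun v => Subtype.ext (h1 v)], by
    rw [edOn_eq h4, show f.restrict h4 = k from LinearMap.ext fun v => Subtype.ext (h2 v)]⟩

theorem exists_inv_add (hB : IsSF ε B) (hA : ND B A)
    (h1 : ∃ g, Inv (B.domRestrict₁₂ A A) g ∧ ed g = s)
    (h2 : ∃ g, Inv (B.domRestrict₁₂ (perp B A) (perp B A)) g ∧ ed g = t) :
    ∃ f, Inv B f ∧ St f A ∧ edOn f A = s ∧ edOn f (perp B A) = t := by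
  obtain ⟨g, h3, rfl⟩ := h1
  obtain ⟨k, h4, rfl⟩ := h2
  have hc := hB.isCompl_perp hA
  obtain ⟨f, h5, -, h6, h7, h8⟩ := exists_of_isCompl hc g k
  refine ⟨f, fun x y => ?_, h5, h8⟩
  obtain ⟨a, b, rfl⟩ := H59.exists_add_eq_of_isCompl hc x
  obtain ⟨c, d, rfl⟩ := H59.exists_add_eq_of_isCompl hc y
  simp [h6, h7, d.2 a a.2, (k d).2 _ (g a).2, hB.eq_zero_comm.1 (b.2 c c.2),
    hB.eq_zero_comm.1 ((k b).2 _ (g c).2), show B (g a) (g c) = B a c from h3 a c,
    show B (k b) (k d) = B b d from h4 b d]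

theorem exists_qinv_add (hQ : Q.polarBilin.Nondegenerate) (hA : ND Q.polarBilin A)
    {g : End F A} {k : End F (perp Q.polarBilin A)} (h1 : QInv (Q.restrict A) g)
    (h2 : QInv (Q.restrict (perp Q.polarBilin A)) k) :
    ∃ f, QInv Q f ∧ St f A ∧ (∀ v : A, f v = g v) ∧ (∀ v : perp Q.polarBilin A, f v = k v) ∧
      edOn f A = ed g ∧ edOn f (perp Q.polarBilin A) = ed k ∧ ed f = ed g + ed k := by
  have hc := (isSF_polar hQ).isCompl_perp hA
  obtain ⟨f, h5, h9, h6, h7, h8, h10⟩ := exists_of_isCompl hc g k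
  refine ⟨f, fun x => ?_, h5, h6, h7, h8, h10, by rw [ed_eq_edOn_add h5 h9 hc, h8, h10]⟩
  obtain ⟨a, b, rfl⟩ := H59.exists_add_eq_of_isCompl hc x
  have h3 := (k b).2 _ (g a).2
  have h4 := b.2 a a.2
  rw [QuadraticMap.polarBilin_apply_apply] at h3 h4
  rw [map_add, h6, h7, QuadraticMap.map_add Q, QuadraticMap.map_add Q, h3, h4,
    show Q (g a) = Q a from h1 a, show Q (k b) = Q b from h2 b]

/-- The elementary divisors of a unipotent map of Jordan type `μ`. -/
noncomputable abbrev up (F : Type*) [Field F] (μ : Multiset ℕ) : Multiset F[X] :=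
  μ.map fun k => (X - 1) ^ k

theorem dgs_up : dgs (up F μ) = μ.sum := by
  simp only [dgs, Multiset.map_map, Function.comp_def, natDegree_X_sub_one_pow, Multiset.map_id']

theorem map_pstar_up : (up F μ).map (pstar σ) = up F μ := map_eq_of_fix fun P hP => by
  obtain ⟨k, -, rfl⟩ := Multiset.mem_map.1 hP
  rw [pstar_pow, pstar_X_sub_one]

theorem isPP_up (h : ∀ k ∈ μ, 0 < k) : ∀ P ∈ up F μ, IsPP P := fun P hP => by
  obtain ⟨k, hk, rfl⟩ := Multiset.mem_map.1 hP
  exact isPP_X_sub_one_pow (h k hk)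

theorem coeff_up : ∀ P ∈ up F μ, P.coeff 0 ≠ 0 := fun P hP => by
  obtain ⟨k, -, rfl⟩ := Multiset.mem_map.1 hP
  simp [coeff_zero_eq_eval_zero]

theorem pos_of_ed_up (h : ed f = up F μ) : ∀ k ∈ μ, 0 < k :=
  (jt_eq_of_ed_eq_map h).2 ▸ jt_pos f

theorem exists_up_of_nd (hB : IsSF ε B) (hf : Inv B f) (h : ed f = up F μ) (hW : St f W)
    (hd : ND B W) : ∃ ν ρ, μ = ν + ρ ∧ edOn f W = up F ν ∧ edOn f (perp B W) = up F ρ ∧
      ν.sum = finrank F W := by
  rw [ed_eq_edOn_add_perp hB hf hW hd] at h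
  obtain ⟨ν, ρ, h1, h2, h3⟩ := exists_add_of_map_eq_add h.symm
  exact ⟨ν, ρ, h1, h2.symm, h3.symm, by rw [← dg_edOn hW, ← h2, dgs_up]⟩

theorem even_count_of_edOn (h2 : (2 : F) ≠ 0) (hQ : Q.polarBilin.Nondegenerate) (hf : QInv Q f)
    (hW : St f W) (hd : ND Q.polarBilin W) (h : edOn f W = up F μ) :
    ∀ k, Even k → Even (μ.count k) := fun k hk => by
  have h0 := pos_of_ed_up (edOn_eq hW ▸ h)
  rcases Nat.eq_zero_or_pos k with rfl | h1
  · rw [Multiset.count_eq_zero_of_notMem fun h => (h0 0 h).false]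
    exact Even.zero
  · have := real_edOn (alt := False) (isSF_polar hQ) False.elim hf.inv hW hd
    rw [h] at this
    exact (real_symm_unip_iff h2 h0).1 this k hk h1

variable [Finite F]

theorem exists_qinv_unip (h2 : (2 : F) ≠ 0) (hQ : Q.polarBilin.Nondegenerate)
    (h0 : ∀ k ∈ μ, 0 < k) (he : ∀ k, Even k → Even (μ.count k)) (hs : μ.sum = finrank F V)
    (h : Odd (finrank F V) ∨ IsPlus Q ∨ ∃ k ∈ μ, Odd k) : ∃ f, QInv Q f ∧ ed f = up F μ := by
  rcases (finrank F V).even_or_odd with hn | hn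
  swap
  · exact exists_qinv_odd hQ hn ((real_symm_unip_iff h2 h0).2 fun k hk _ => he k hk)
      (by rw [dgs_up, hs])
  by_cases h1 : ∃ k ∈ μ, Odd k
  · obtain ⟨k, hk, h1⟩ := h1
    obtain ⟨ν, rfl⟩ := Multiset.exists_cons_of_mem hk
    rw [Multiset.sum_cons] at hs
    obtain ⟨A, -, hA, h3⟩ := exists_nd_le_two_ne h2 hQ (nd_top (isSF_polar hQ)) (j := k)
      (by rw [finrank_top]; omega)
    have h4 := (isSF_polar hQ).finrank_add_finrank_perp A
    have h5 : ∀ j, Even j → j ≠ k := fun j hj h => Nat.not_even_iff_odd.2 h1 (h ▸ hj)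
    obtain ⟨g, h6, h7⟩ := exists_qinv_odd (nondeg_restrict hQ hA) (h3 ▸ h1) (s := up F {k})
      ((real_symm_unip_iff h2 (by simpa using h1.pos)).2 fun j hj _ => by simp [h5 j hj])
      (by rw [dgs_up, h3, Multiset.sum_singleton])
    obtain ⟨l, h8, h9⟩ := exists_qinv_odd
      (nondeg_restrict hQ ((isSF_polar hQ).disjoint_perp hA)) (by
        rw [Nat.odd_iff] at h1 ⊢
        rw [Nat.even_iff] at hn
        omega) (s := up F ν)
      ((real_symm_unip_iff h2 fun j hj => h0 j (Multiset.mem_cons_of_mem hj)).2 fun j hj _ => by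
        simpa [h5 j hj] using he j hj) (by rw [dgs_up]; omega)
    obtain ⟨f, h10, -, -, -, -, -, h11⟩ := exists_qinv_add hQ hA h6 h8
    exact ⟨f, h10, by simp [h11, h7, h9]⟩
  · obtain ⟨ν, rfl⟩ := exists_add_self_of_even_count (s := μ) fun k => by
      rcases k.even_or_odd with h3 | h3
      · exact he k h3
      · rw [Multiset.count_eq_zero_of_notMem fun h => h1 ⟨k, h, h3⟩]
        exact Even.zero
    refine exists_qinv_even hQ hn ?_ (by rw [dgs_up, hs])
    have := realQ_hyp (isPP_up (F := F) fun k hk => h0 k (Multiset.mem_add.2 (Or.inl hk))) coeff_up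
    rw [map_pstar_up, ← Multiset.map_add] at this
    exact this.congr (iff_of_true trivial
      ((h.resolve_left (Nat.not_odd_iff_even.2 hn)).resolve_right h1))

variable (p : ℕ) [hp : Fact p.Prime] [CharP F p]

omit [Finite F] in
theorem pow_char_of_ed_up (h : ed f = up F μ) (h1 : ∀ k ∈ μ, k ≤ p) : f ^ p = 1 :=
  pow_char_eq_one_of_jt p (jt_eq_of_ed_eq_map h).1 ((jt_eq_of_ed_eq_map h).2.symm ▸ h1)

omit [Finite F] hp in
theorem ne_smul_of_ed_up (h : ed f = up F μ) {k : ℕ} (hk : k ∈ μ) (h1 : 1 < k) (c : F) :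
    f ≠ c • 1 :=
  ne_smul_of_mem_jt ((jt_eq_of_ed_eq_map h).2.symm ▸ hk) h1 c

omit [Finite F] in
theorem odd_char' (h2 : (2 : F) ≠ 0) : Odd p :=
  hp.out.odd_of_ne_two fun h => h2 (by subst h; exact CharP.cast_eq_zero F 2)

/-- Every non-scalar element of order `p` of `Ω(Q)` fixes a subspace in the family `Φ`. -/
abbrev AllFix (Q : QuadraticForm F V) (p : ℕ) (Φ : Submodule F V → Prop) : Prop :=
  ∀ f, InOm Q f → f ^ p = 1 → (∀ c : F, f ≠ c • 1) → ∃ W, Φ W ∧ St f W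

theorem AllFix.exists_up {Φ : Submodule F V → Prop} (H : AllFix Q p Φ) (h2 : (2 : F) ≠ 0)
    (hQ : Q.polarBilin.Nondegenerate) (h : QInv Q f) (he : ed f = up F μ) (h0 : ∀ k ∈ μ, k ≤ p)
    {k : ℕ} (hk : k ∈ μ) (h1 : 1 < k) : ∃ W, Φ W ∧ St f W :=
  H f (inOm_of_odd hQ (H56.not_isExc_of_two_ne h2) h (odd_char' p h2) (pow_char_of_ed_up p he h0))
    (pow_char_of_ed_up p he h0) (ne_smul_of_ed_up he hk h1)

theorem AllFix.exists_le {Φ : Submodule F V → Prop} (H : AllFix Q p Φ) (h2 : (2 : F) ≠ 0)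
    (hQ : Q.polarBilin.Nondegenerate) (hΦ : ∀ W, Φ W → finrank F W = m ∧ ND Q.polarBilin W)
    (hm : m ≤ finrank F V) (h0 : ∀ k ∈ μ, 0 < k ∧ k ≤ p) (he : ∀ k, Even k → Even (μ.count k))
    (hs : μ.sum = finrank F V) (h : Odd (finrank F V) ∨ IsPlus Q ∨ ∃ k ∈ μ, Odd k) :
    ∃ ν ≤ μ, ν.sum = m ∧ ∀ k, Even k → Even (ν.count k) := by
  rcases eq_replicate_one_or fun k hk => (h0 k hk).1 with h1 | ⟨k, h1, h3⟩
  · refine ⟨Multiset.replicate m 1, h1 ▸ (Multiset.replicate_le_replicate 1).2 (by omega), by simp,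
      fun k hk => ?_⟩
    rw [Multiset.count_replicate, if_neg (by rintro rfl; simp at hk)]
    exact Even.zero
  obtain ⟨f, h4, h5⟩ := exists_qinv_unip h2 hQ (fun k hk => (h0 k hk).1) he hs h
  obtain ⟨W, h6, h7⟩ := H.exists_up p h2 hQ h4 h5 (fun k hk => (h0 k hk).2) h1 h3
  obtain ⟨ν, ρ, rfl, h8, -, h9⟩ := exists_up_of_nd (isSF_polar hQ) h4.inv h5 h7 (hΦ W h6).2
  exact ⟨ν, Multiset.le_add_right _ _, h9.trans (hΦ W h6).1,
    even_count_of_edOn h2 hQ h4 h7 (hΦ W h6).2 h8⟩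

omit [Finite F] in
theorem three_le_char (h2 : (2 : F) ≠ 0) : 3 ≤ p := by
  have := hp.out.two_le
  have := Nat.odd_iff.1 (odd_char' p h2)
  omega

omit [Finite F] hp in
theorem le_three_parts {a b c : ℕ} {ν : Multiset ℕ}
    (h : ν ≤ Multiset.replicate a 1 + Multiset.replicate b 2 + Multiset.replicate c 3) :
    ∃ x ≤ a, ∃ y ≤ b, ∃ z ≤ c,
      ν = Multiset.replicate x 1 + Multiset.replicate y 2 + Multiset.replicate z 3 := by
  obtain ⟨w, z, h1, h2, rfl⟩ := exists_of_le_add_replicate h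
  obtain ⟨u, y, h3, h4, rfl⟩ := exists_of_le_add_replicate h1
  obtain ⟨x, h5, rfl⟩ := Multiset.le_replicate_iff.1 h3
  exact ⟨x, h5, y, h4, z, h2, rfl⟩

theorem AllFix.three_parts {Φ : Submodule F V → Prop} (H : AllFix Q p Φ) (h2 : (2 : F) ≠ 0)
    (hQ : Q.polarBilin.Nondegenerate) (hΦ : ∀ W, Φ W → finrank F W = m ∧ ND Q.polarBilin W)
    (hm : m ≤ finrank F V) (a b c : ℕ) (hs : a + 4 * b + 3 * c = finrank F V)
    (h : IsPlus Q ∨ 0 < a + c) : ∃ x ≤ a, ∃ y ≤ b, ∃ z ≤ c, m = x + 4 * y + 3 * z := by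
  have h3 := three_le_char p h2
  obtain ⟨ν, h4, h5, h6⟩ := H.exists_le p h2 hQ hΦ hm
    (μ := Multiset.replicate a 1 + Multiset.replicate (2 * b) 2 + Multiset.replicate c 3)
    (by simp only [Multiset.mem_add, Multiset.mem_replicate]; omega)
    (fun k hk => by
      rw [Nat.even_iff] at hk ⊢
      simp only [Multiset.count_add, Multiset.count_replicate]
      split_ifs <;> omega) (by simp; omega) (Or.inr (h.imp_right fun h => by
        rcases Nat.eq_zero_or_pos a with rfl | h4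
        · exact ⟨3, by simp [Multiset.mem_replicate, show c ≠ 0 by omega], by decide⟩
        · exact ⟨1, by simp [Multiset.mem_replicate, h4.ne'], odd_one⟩))
  obtain ⟨x, h7, y, h8, z, h9, rfl⟩ := le_three_parts h4
  obtain ⟨u, hu⟩ := h6 2 even_two
  simp [Multiset.count_replicate] at hu h5
  exact ⟨x, h7, u, by omega, z, h9, by omega⟩

end H58
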