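import Cfsg.Agent.H58.QCount
import Cfsg.Agent.H58.WittIndex

/-! Quadratic forms over the field of two elements with a given polarization. -/

set_option autoImplicit false

namespace H58

open QuadraticMap

variable {m : ℕ}

/-- Functions polarizing to the polar form of the plus-type form. -/
def Pol (m : ℕ) (q : (Fin m ⊕ Fin m → ZMod 2) → ZMod 2) : Prop :=
  ∀ u v, q (u + v) = q u + q v + polar (qPlus m (ZMod 2)) u v

theorem zmod2_mul_self (x : ZMod 2) : x * x = x := by revert x; decide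

theorem zmod2_add_self (x : ZMod 2) : x + x = 0 := by revert x; decide

theorem zmod2_ne_zero {x : ZMod 2} : x ≠ 0 ↔ x = 1 := by revert x; decide

/-- The form `v ↦ Q v + f(v, a)`. -/
noncomputable def qShift (a : Fin m ⊕ Fin m → ZMod 2) :
    QuadraticForm (ZMod 2) (Fin m ⊕ Fin m → ZMod 2) :=
  qPlus m (ZMod 2) + linMulLin ((qPlus m (ZMod 2)).polarBilin.flip a)
    ((qPlus m (ZMod 2)).polarBilin.flip a)

theorem qShift_apply (a v : Fin m ⊕ Fin m → ZMod 2) :
    qShift a v = qPlus m (ZMod 2) v + polar (qPlus m (ZMod 2)) v a := by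
  simp [qShift, zmod2_mul_self]

theorem pol_qShift (a : Fin m ⊕ Fin m → ZMod 2) : Pol m (qShift a) := fun u v => by
  rw [qShift_apply, qShift_apply, qShift_apply, Q_add, polar_add_left]
  ring

theorem polar_qShift (a u v : Fin m ⊕ Fin m → ZMod 2) :
    polar (qShift a) u v = polar (qPlus m (ZMod 2)) u v := by
  rw [polar, pol_qShift a]
  ring

theorem qShift_nondeg (a : Fin m ⊕ Fin m → ZMod 2) : (polarBilin (qShift a)).Nondegenerate := by
  simpa only [nondeg_iff, polar_qShift] using qPlus_nondeg m (ZMod 2)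

theorem qShift_injective : Function.Injective fun a : Fin m ⊕ Fin m → ZMod 2 => ⇑(qShift a) := by
  intro a b h
  rw [← sub_eq_zero]
  refine (nondeg_iff _).1 (qPlus_nondeg m (ZMod 2)) _ fun w => ?_
  have := congrFun h w
  simp only [qShift_apply, add_right_inj] at this
  rw [polar_sub_left, polar_comm _ a, polar_comm _ b, this, sub_self]

theorem Pol.exists_eq {q : (Fin m ⊕ Fin m → ZMod 2) → ZMod 2} (h : Pol m q) :
    ∃ a, q = qShift a := by
  let l : (Fin m ⊕ Fin m → ZMod 2) →+ ZMod 2 := AddMonoidHom.mk' (fun v => q v - qPlus m _ v)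
    fun u v => by rw [h, Q_add]; ring
  refine ⟨(LinearMap.BilinForm.toDual _ (qPlus_nondeg m (ZMod 2))).symm (l.toZModLinearMap 2),
    funext fun v => ?_⟩
  rw [qShift_apply, polar_comm, ← polarBilin_apply_apply, LinearMap.BilinForm.apply_toDual_symm_apply]
  simp [l]

theorem card_qShift_eq (a : Fin m ⊕ Fin m → ZMod 2) (c : ZMod 2) :
    Nat.card {v // qShift a v = c} = Nat.card {v // qPlus m (ZMod 2) v = c + qPlus m _ a} :=
  Nat.card_congr ((Equiv.addRight a).subtypeEquiv fun v => by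
    rw [Equiv.coe_addRight, Q_add, qShift_apply]
    exact ⟨fun h => by linear_combination h, fun h => by linear_combination h⟩)

theorem Pol.card_ne {q : (Fin m ⊕ Fin m → ZMod 2) → ZMod 2} (h : Pol m q) :
    Nat.card {v // q v = 0} ≠ Nat.card {v // q v = 1} := by
  obtain ⟨a, rfl⟩ := h.exists_eq
  have h1 : Nat.card {v // qPlus m (ZMod 2) v = 0} ≠ Nat.card {v // qPlus m (ZMod 2) v = 1} := by
    rw [card_zero_qPlus, card_ne_zero_qPlus m one_ne_zero]
    have : 0 < Fintype.card (ZMod 2) ^ m := by positivity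
    omega
  rw [card_qShift_eq, card_qShift_eq]
  by_cases h2 : qPlus m (ZMod 2) a = 0
  · simpa [h2] using h1
  · rw [zmod2_ne_zero.1 h2, zmod2_add_self, zero_add]
    exact h1.symm

theorem Pol.equiv_iff {q : (Fin m ⊕ Fin m → ZMod 2) → ZMod 2} (h : Pol m q)
    (w : Fin m ⊕ Fin m → ZMod 2) :
    (∃ g : (Fin m ⊕ Fin m → ZMod 2) ≃ₗ[ZMod 2] (Fin m ⊕ Fin m → ZMod 2),
      ∀ v, q v + polar (qPlus m (ZMod 2)) v w = q (g v)) ↔ q w = 0 := by
  constructor
  · rintro ⟨g, hg⟩
    by_contra hw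
    refine h.card_ne (Nat.card_congr ((g.symm.toEquiv.trans (Equiv.addRight w)).subtypeEquiv
      fun v => ?_))
    obtain ⟨v, rfl⟩ := g.surjective v
    simp only [Equiv.trans_apply, LinearEquiv.coe_toEquiv, g.symm_apply_apply, Equiv.coe_addRight,
      ← hg, h v w, zmod2_ne_zero.1 hw]
    exact ⟨fun h => by linear_combination h, fun h => by linear_combination h⟩
  · intro hw
    obtain ⟨a, rfl⟩ := h.exists_eq
    have h2 : (qPlus m (ZMod 2)).polarBilin.flip w w = 0 :=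
      (polar_self' _ w).trans (mul_eq_zero_of_left rfl _)
    refine ⟨LinearEquiv.transvection h2, fun v => ?_⟩
    rw [LinearEquiv.transvection.apply, Q_add, Q_smul, hw, polar_smul_right, polar_qShift]
    simp [zmod2_mul_self]

theorem qShift_plus_iff (a : Fin m ⊕ Fin m → ZMod 2) :
    (∃ g : (Fin m ⊕ Fin m → ZMod 2) ≃ₗ[ZMod 2] (Fin m ⊕ Fin m → ZMod 2),
      ∀ v, qShift a v = qPlus m (ZMod 2) (g v)) ↔ qPlus m (ZMod 2) a = 0 := by
  simpa only [qShift_apply] using Pol.equiv_iff (q := qPlus m (ZMod 2)) (Q_add _) a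

theorem qShift_minus_iff (a : Fin m ⊕ Fin m → ZMod 2) :
    (∃ g : (Fin m ⊕ Fin m → ZMod 2) ≃ₗ[ZMod 2] ((Fin (m - 1) ⊕ Fin (m - 1)) ⊕ Fin 2 → ZMod 2),
      ∀ v, qShift a v = qMinus (m - 1) (ZMod 2) 1 1 (g v)) ↔ qPlus m (ZMod 2) a ≠ 0 := by
  have hab : ∀ z₁ z₂ : ZMod 2, z₁ ^ 2 + 1 * z₁ * z₂ + 1 * z₂ ^ 2 = 0 → z₁ = 0 ∧ z₂ = 0 := by decide
  rw [Ne, ← qShift_plus_iff]
  constructor
  · rintro ⟨g, hg⟩ ⟨k, hk⟩
    exact not_isPlus_qMinus _ hab ((isPlus_qPlus m).of_equiv (k.symm.trans g) fun v => by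
      rw [LinearEquiv.trans_apply, ← hg, hk, k.apply_symm_apply])
  · intro h
    obtain ⟨-, g, hg⟩ := exists_equiv_of_not_isPlus (Q := qShift a) (fun hP => by
      obtain ⟨g, hg⟩ := hP.exists_equiv (qShift_nondeg a) (m := m) (by simp [two_mul])
      exact h ⟨g.symm, fun v => by rw [← hg, g.apply_symm_apply]⟩) (qShift_nondeg a) (m := m)
      (by simp [two_mul]) hab
    exact ⟨g.symm, fun v => by rw [← hg, g.apply_symm_apply]⟩

theorem card_pol (P : ((Fin m ⊕ Fin m → ZMod 2) → ZMod 2) → Prop) :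
    Nat.card {q // Pol m q ∧ P q} = Nat.card {a : Fin m ⊕ Fin m → ZMod 2 // P (qShift a)} :=
  (Nat.card_eq_of_bijective (fun a : {a : Fin m ⊕ Fin m → ZMod 2 // P (qShift a)} =>
    (⟨qShift a.1, pol_qShift _, a.2⟩ : {q // Pol m q ∧ P q}))
    ⟨fun _ _ h => Subtype.ext (qShift_injective (congrArg Subtype.val h)), fun ⟨q, h1, h2⟩ => by
      obtain ⟨a, rfl⟩ := h1.exists_eq
      exact ⟨⟨a, h2⟩, rfl⟩⟩).symm

end H58
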