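import Cfsg.Agent.H20.LD4Kit

/-! Tower LD4, job `JobU42`: the four-dimensional representation of `PSp₄(3)`. -/

set_option autoImplicit false

namespace H58.L4

open Matrix Cfsg H20.LD Subgroup

universe u v

variable {k : Type u} [Field k]

theorem vv_mul (u f w g : V4 k) : vecMulVec u f * vecMulVec w g = (f ⬝ᵥ w) • vecMulVec u g := by
  rw [vecMulVec_mul_vecMulVec, vecMulVec_smul]

theorem braid_val {ω : k} (hω : ω ^ 2 + ω + 1 = 0) (h3 : (3 : k) ≠ 0) {u f w g : V4 k} (h1 : f ⬝ᵥ u = 1)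
    (h2 : g ⬝ᵥ w = 1) {a b : M4 k} (ha : a = ω • (1 + (ω ^ 2 - 1) • vecMulVec u f))
    (hb : b = ω • (1 + (ω ^ 2 - 1) • vecMulVec w g)) (hne : a ≠ b) (h : a * b * a = b * a * b) :
    3 * ((f ⬝ᵥ w) * (g ⬝ᵥ u)) = 1 := by
  have e : (ω ^ 3 * (ω ^ 2 - 1) * (ω ^ 2 + (ω ^ 2 - 1) ^ 2 * ((f ⬝ᵥ w) * (g ⬝ᵥ u)))) •
      (vecMulVec u f - vecMulVec w g) = 0 := by
    rw [ha, hb] at h
    simp only [smul_mul_assoc, mul_smul_comm, mul_add, add_mul, one_mul, mul_one, vv_mul, h1, h2, smul_add,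
      smul_smul] at h
    linear_combination (norm := module) h
  have e2 := (smul_eq_zero.1 e).resolve_right fun k => hne (by rw [ha, hb, sub_eq_zero.1 k])
  have q : ω ^ 2 - 1 ≠ 0 := fun k => h3 (by grind)
  have o : ω ≠ 0 := fun k => by simp [k] at hω
  have := (mul_eq_zero.1 e2).resolve_left (mul_ne_zero (pow_ne_zero _ o) q)
  exact mul_left_cancel₀ (pow_ne_zero 2 o) (by grind)

theorem comm_val {ω : k} (hω : ω ^ 2 + ω + 1 = 0) (h3 : (3 : k) ≠ 0) {u f w g : V4 k} (h1 : f ⬝ᵥ u = 1)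
    (h2 : g ⬝ᵥ w = 1) {a b : M4 k} (ha : a = ω • (1 + (ω ^ 2 - 1) • vecMulVec u f))
    (hb : b = ω • (1 + (ω ^ 2 - 1) • vecMulVec w g)) (hne : a ≠ b) (h : a * b = b * a) :
    f ⬝ᵥ w = 0 ∧ g ⬝ᵥ u = 0 := by
  have q : ω ^ 2 - 1 ≠ 0 := fun k => h3 (by grind)
  have o : ω ≠ 0 := fun k => by simp [k] at hω
  have e : (f ⬝ᵥ w) • vecMulVec u g = (g ⬝ᵥ u) • vecMulVec w f := by
    refine smul_right_injective _ (pow_ne_zero 2 (mul_ne_zero o q)) ?_
    rw [ha, hb] at h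
    simp only [smul_mul_assoc, mul_smul_comm, mul_add, add_mul, one_mul, mul_one, vv_mul, smul_add,
      smul_smul] at h
    linear_combination (norm := module) h
  have e1 := congrArg (· * vecMulVec u f) e
  have e2 := congrArg (vecMulVec w g * ·) e
  have e3 := congrArg (· * vecMulVec w g) e
  simp only [smul_mul_assoc, mul_smul_comm, vv_mul, h1, h2, smul_smul, mul_one] at e1 e2 e3
  have c : (f ⬝ᵥ w) * (g ⬝ᵥ u) = 0 := by_contra fun c => hne (by
    rw [ha, hb, smul_right_injective _ c (e1.trans e2.symm)])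
  have nz : ∀ {a : k} {x y z t : V4 k}, t ⬝ᵥ x = 1 → y ⬝ᵥ z = 1 → a • vecMulVec x y = 0 → a = 0 :=
    fun {a x y z t} a1 a2 k => by
      have := congrArg (fun M => t ⬝ᵥ M *ᵥ z) k
      simpa [smul_mulVec, vecMulVec_mulVec, a1, a2] using this
  have a := nz h1 h2 (e3.trans (by rw [mul_comm, c, zero_smul]))
  exact ⟨a, nz h2 h1 (e.symm.trans (by rw [a, zero_smul]))⟩

/-- the Cartan matrix -/
def cA (t : k) : M4 k := !![1, 1, 0, 0; t, 1, 1, 0; 0, t, 1, 1; 0, 0, t, 1]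

theorem det_cA {t : k} (h : 3 * t = 1) : (cA t).det ≠ 0 := by
  have : (cA t).det = t ^ 2 := by
    simp [cA, det_succ_row_zero, Fin.sum_univ_succ, Fin.succAbove]
    linear_combination -h
  rw [this]
  exact pow_ne_zero _ fun k => by simp [k] at h

theorem gen_unit {ω t : k} (hw : ω ^ 2 + ω + 1 = 0) (ht : 3 * t = 1) (i : Fin 4) :
    (ω ^ 2 • (1 + ((ω ^ 2) ^ 2 - 1) • (single i i 1 * cA t)))ᵀ * (diagonal ![1, 3, 9, 27] * cA t) *
      (ω • (1 + (ω ^ 2 - 1) • (single i i 1 * cA t))) = diagonal ![1, 3, 9, 27] * cA t := by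
  have s0 : diagonal ![1, 3, 9, 27] * cA t = (cA t)ᵀ * diagonal ![1, 3, 9, 27] := by
    ext a b
    rw [diagonal_mul, mul_diagonal]
    fin_cases a <;> fin_cases b <;> simp [cA] <;> grind
  have s3 : single i i (1 : k) * diagonal ![1, 3, 9, 27] = diagonal ![1, 3, 9, 27] * single i i 1 := by
    ext a b
    rw [diagonal_mul, mul_diagonal, single_apply]
    split_ifs with h
    · rw [← h.1, ← h.2, mul_comm]
    · simp
  have s1 : (single i i 1 * cA t)ᵀ * (diagonal ![1, 3, 9, 27] * cA t) =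
      diagonal ![1, 3, 9, 27] * cA t * (single i i 1 * cA t) := by
    rw [transpose_mul, transpose_single, mul_assoc, ← mul_assoc (single i i 1), s3, mul_assoc, ← mul_assoc, ← s0]
  have s2 : single i i 1 * cA t * (single i i 1 * cA t) = single i i 1 * cA t := by
    rw [← mul_assoc, single_mul_mul_single]
    fin_cases i <;> simp [cA]
  generalize single i i 1 * cA t = P, diagonal ![1, 3, 9, 27] * cA t = G at s1 s2
  simp only [transpose_smul, transpose_add, transpose_one, smul_mul_assoc, mul_smul_comm, add_mul, mul_add,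
    one_mul, mul_one, s1, mul_assoc G, s2, smul_add, smul_smul]
  match_scalars <;> grind

theorem braid_eq {G : Type*} [Group G] {a b : G} (h : a * b * a = b * a * b) (c : Commute a b) : a = b := by
  rw [← c.eq] at h
  exact mul_left_cancel h

theorem braid_conj {G : Type*} [Group G] {a b : G} (h : a * b * a = b * a * b) : a * b * a * (a * b)⁻¹ = b := by
  rw [h, mul_assoc b, mul_inv_cancel_right]

theorem jobU42 : JobU42.{u, v} := by
  intro p k _ _ X _ _ Γ _ ρ π h z hz x ω hx x3 hω p3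
  have := h.char
  have := Fact.mk h.prime
  have h3 : (3 : k) ≠ 0 := by exact_mod_cast h.cast_prime_ne Nat.prime_three p3.symm
  obtain ⟨t, ht⟩ : ∃ t : k, 3 * t = 1 := ⟨_, mul_inv_cancel₀ h3⟩
  have n01 : z 0 ≠ z 1 := fun e => h.nab ⟨⟨fun a b => by
    have e2 : z 1 = z 2 := braid_eq hz.b12 (e ▸ hz.c02)
    have e3 : z 2 = z 3 := braid_eq hz.b23 (e2 ▸ hz.c13)
    have : ∀ g, g ∈ zpowers (z 0) := fun g => (closure_le _).2 (by
      rintro _ ⟨i, rfl⟩
      fin_cases i <;> simp [← e3, ← e2, ← e]) (hz.gen.ge (mem_top g))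
    obtain ⟨i, rfl⟩ := this a
    obtain ⟨j, rfl⟩ := this b
    exact zpow_mul_comm _ _ _⟩⟩
  have n12 : z 1 ≠ z 2 := fun e => n01 (braid_eq hz.b01 (e ▸ hz.c02))
  have n23 : z 2 ≠ z 3 := fun e => n12 (braid_eq hz.b12 (e ▸ hz.c13))
  have n02 : z 0 ≠ z 2 := fun e => n23 (braid_eq hz.b23 (e ▸ hz.c03))
  have n03 : z 0 ≠ z 3 := fun e => n01 (braid_eq hz.b01 (e ▸ hz.c13.symm))
  have n13 : z 1 ≠ z 3 := fun e => n01 (braid_eq hz.b01 (e ▸ hz.c03))
  have o3 : Odd 3 := by decide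
  have step : ∀ {a b : Γ} {x : X} {u f : V4 k}, π x = a → x ^ 3 = 1 → f ⬝ᵥ u = 1 →
      (ρ x).val = ω • (1 + (ω ^ 2 - 1) • vecMulVec u f) → a ≠ b → a * b * a = b * a * b →
      ∃ (y : X) (w g : V4 k), π y = b ∧ y ^ 3 = 1 ∧ g ⬝ᵥ w = 1 ∧
        (ρ y).val = ω • (1 + (ω ^ 2 - 1) • vecMulVec w g) ∧ f ⬝ᵥ w = 1 ∧ g ⬝ᵥ u = t := by
    intro a b x u f e1 e2 e3 e4 hne hb
    obtain ⟨c, hc⟩ := h.surj (a * b)
    have a1 : π (c * x * c⁻¹) = b := by rw [map_mul, map_mul, map_inv, hc, e1, braid_conj hb]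
    have a2 : (c * x * c⁻¹) ^ 3 = 1 := by rw [conj_pow, e2, mul_one, mul_inv_cancel]
    obtain ⟨-, w, g, a3, a4⟩ := Hom3.conj (g := ρ x) ⟨hω.1, u, f, e3, e4⟩ (ρ c⁻¹)
    rw [← map_inv, inv_inv, ← map_mul, ← map_mul] at a4
    generalize c * x * c⁻¹ = y at a1 a2 a4
    have a5 := h.conj_of_odd (a := x * y) o3 e2 a2 (by rw [map_mul, e1, a1, braid_conj hb])
    rw [mul_inv_eq_iff_eq_mul, ← mul_assoc] at a5
    have a6 := braid_val hω.1 h3 e3 a3 e4 a4 (fun k => hne (by rw [← e1, ← a1, h.ext k])) (by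
      simp only [← val_mul', a5])
    have a7 : f ⬝ᵥ w ≠ 0 := fun k => by simp [k] at a6
    refine ⟨y, (f ⬝ᵥ w)⁻¹ • w, (f ⬝ᵥ w) • g, a1, a2, by simp [a3, a7], ?_, by simp [a7], ?_⟩
    · rw [a4, smul_vecMulVec, vecMulVec_smul, smul_smul (f ⬝ᵥ w)⁻¹, inv_mul_cancel₀ a7, one_smul]
    · rw [smul_dotProduct, smul_eq_mul]
      exact mul_left_cancel₀ h3 (a6.trans ht.symm)
  obtain ⟨hw, u0, f0, d0, v0⟩ := id hω
  obtain ⟨x1, u1, f1, p1, c1, d1, v1, a01, a10⟩ := step hx x3 d0 v0 n01 hz.b01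
  obtain ⟨x2, u2, f2, p2, c2, d2, v2, a12, a21⟩ := step p1 c1 d1 v1 n12 hz.b12
  obtain ⟨x4, u3, f3, p4, c3, d3, v3, a23, a32⟩ := step p2 c2 d2 v2 n23 hz.b23
  have cm : ∀ {a b : X} {i j : Fin 4}, π a = z i → π b = z j → a ^ 3 = 1 → z i ≠ z j → Commute (z i) (z j) →
      (ρ a).val ≠ (ρ b).val ∧ (ρ a).val * (ρ b).val = (ρ b).val * (ρ a).val := fun e1 e2 e3 hne c =>
    ⟨fun k => hne (by rw [← e1, ← e2, h.ext k]), by
      rw [← val_mul', ← val_mul', (h.commute_of_odd o3 e3 (by rwa [e1, e2])).eq]⟩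
  obtain ⟨a02, a20⟩ := comm_val hw h3 d0 d2 v0 v2 (cm hx p2 x3 n02 hz.c02).1 (cm hx p2 x3 n02 hz.c02).2
  obtain ⟨a03, a30⟩ := comm_val hw h3 d0 d3 v0 v3 (cm hx p4 x3 n03 hz.c03).1 (cm hx p4 x3 n03 hz.c03).2
  obtain ⟨a13, a31⟩ := comm_val hw h3 d1 d3 v1 v3 (cm p1 p4 c1 n13 hz.c13).1 (cm p1 p4 c1 n13 hz.c13).2
  let U : M4 k := (of ![u0, u1, u2, u3])ᵀ
  let Φ : M4 k := of ![f0, f1, f2, f3]
  have hA : Φ * U = cA t := by
    ext i j
    change ![f0, f1, f2, f3] i ⬝ᵥ ![u0, u1, u2, u3] j = _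
    fin_cases i <;> fin_cases j <;> simp [cA, *]
  have hU : U.det ≠ 0 := fun k => det_cA ht (by rw [← hA, det_mul, k, mul_zero])
  let B : G4 k := GeneralLinearGroup.mkOfDetNeZero U hU
  let y : Fin 4 → X := ![x, x1, x2, x4]
  have gen : closure (Set.range y) = ⊤ := h.eq_top_of_map _ (by
    rw [MonoidHom.map_closure, ← Set.range_comp, ← hz.gen]
    congr 2
    funext i
    fin_cases i <;> assumption)
  have hy : ∀ i, (cb ρ B (y i)).val = ω • (1 + (ω ^ 2 - 1) • (single i i 1 * cA t)) := fun i => by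
    have : (ρ (y i)).val = ω • (1 + (ω ^ 2 - 1) • (U * single i i 1 * Φ)) := by
      rw [show U * single i i 1 * Φ = vecMulVec (![u0, u1, u2, u3] i) (![f0, f1, f2, f3] i) by
        ext a b
        simp [U, Φ, mul_apply, single_apply, vecMulVec_apply, ite_and]]
      fin_cases i <;> assumption
    have e : (B⁻¹).val * U = 1 := val_inv_mul B
    rw [cb_val, this, ← hA]
    change _ * _ * U = _
    simp only [mul_smul_comm, smul_mul_assoc, mul_add, add_mul, mul_one, ← mul_assoc, e, one_mul]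
  let φ := frobenius k p
  have φt : φ t = t := mul_left_cancel₀ h3 (by rw [ht, ← map_ofNat φ 3, ← map_mul, ht, map_one])
  have φA : (cA t).map φ = cA t := by
    ext i j
    fin_cases i <;> fin_cases j <;> simp [cA, φt]
  have w3 : ω ^ 3 = 1 := by linear_combination (ω - 1) * hw
  have φy : ∀ i, (cb ρ B (y i)).val.map φ = φ ω • (1 + (φ ω ^ 2 - 1) • (single i i 1 * cA t)) := fun i => by
    rw [hy, ← φ.mapMatrix_apply]
    have sm : ∀ (c : k) (M : M4 k), φ.mapMatrix (c • M) = φ c • φ.mapMatrix M := fun c M => by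
      ext; simp
    rw [sm, map_add, map_one, sm, map_mul, φ.mapMatrix_apply, φ.mapMatrix_apply, φA, map_single, map_one, map_sub,
      map_pow, map_one]
  have trφ : ∀ g, tr ρ g ^ p = ((cb ρ B g).val.map φ).trace := fun g => by
    rw [← tr_cb B, ← AddMonoidHom.map_trace]; rfl
  refine ⟨fun hp g => ?_, fun hp g => ?_⟩
  · have φω : φ ω = ω := by rw [frobenius_def, pow_eq_pow_mod p w3, hp, pow_one]
    have : (φ.mapMatrix.toMonoidHom.comp ((Units.coeHom _).comp (cb ρ B))) = (Units.coeHom _).comp (cb ρ B) :=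
      MonoidHom.eq_of_eqOn_dense gen (by
        rintro _ ⟨i, rfl⟩
        exact (φy i).trans (by rw [φω]; exact (hy i).symm))
    rw [trφ, ← tr_cb B]
    exact congrArg trace (DFunLike.congr_fun this g)
  · have φω : φ ω = ω ^ 2 := by rw [frobenius_def, pow_eq_pow_mod p w3, hp]
    let G : M4 k := diagonal ![1, 3, 9, 27] * cA t
    have dG : G.det ≠ 0 := by
      rw [det_mul, det_diagonal]
      refine mul_ne_zero (Finset.prod_ne_zero_iff.2 fun i _ => ?_) (det_cA ht)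
      fin_cases i
      exacts [one_ne_zero, h3, by simpa using (by norm_num : (3 : k) ^ 2 = 9) ▸ pow_ne_zero 2 h3,
        by simpa using (by norm_num : (3 : k) ^ 3 = 27) ▸ pow_ne_zero 3 h3]
    have key : ∀ g, ((cb ρ B g).val.map φ)ᵀ * G * (cb ρ B g).val = G := fun g => by
      refine closure_induction (p := fun g _ => ((cb ρ B g).val.map φ)ᵀ * G * (cb ρ B g).val = G) ?_ (by simp)
        (fun a b _ _ ha hb => ?_) (fun a _ ha => ?_) (gen.ge (mem_top g))
      · rintro _ ⟨i, rfl⟩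
        rw [φy, hy, φω]
        exact gen_unit hw ht i
      · rw [val_mul', Matrix.map_mul, transpose_mul, mul_assoc _ _ G, ← mul_assoc, mul_assoc _ _ (cb ρ B a).val,
          ha, hb]
      · nth_rewrite 1 [← ha]
        rw [← mul_assoc, ← mul_assoc, ← transpose_mul, ← Matrix.map_mul, mul_assoc, ← val_mul', mul_inv_cancel]
        simp
    have e : ((cb ρ B g).val.map φ)ᵀ = G * (cb ρ B g⁻¹).val * G⁻¹ := by
      nth_rewrite 1 [← key g]
      rw [mul_assoc _ _ (cb ρ B g⁻¹).val, ← val_mul', mul_inv_cancel, map_one, Units.val_one, mul_one,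
        mul_nonsing_inv_cancel_right _ _ (Ne.isUnit dG)]
    rw [trφ, ← trace_transpose, e, trace_mul_comm, nonsing_inv_mul_cancel_left _ _ (Ne.isUnit dG), ← tr_cb B]
    rfl

end H58.L4
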