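import Cfsg.Agent.H58.LDW
import Cfsg.Agent.H57.SLGen
import Cfsg.Agent.H57.SLCard

/-! Tower LD5, job `JobPL3`: `L₃(r)` has no five-dimensional module without elements of rank one. -/

set_option autoImplicit false

namespace H58.LD

open Matrix Cfsg H41.LD Subgroup
open scoped MatrixGroups

universe u

variable {K : Type*} [Field K] {F : Type*} [Field F]

/-- diagonal elements -/
def dg3 : Fˣ × Fˣ →* SL(3, F) := MonoidHom.mk' (fun m => ⟨diagonal ![m.1, m.2, ((m.1 * m.2)⁻¹ : Fˣ)], by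
    simp [det_diagonal, Fin.prod_univ_three, mul_assoc]⟩) fun a b => Subtype.ext (by
  change _ = diagonal _ * diagonal _
  rw [diagonal_mul_diagonal]
  exact congrArg diagonal (funext fun i => by fin_cases i <;> simp; ring))

theorem dg3_val (a b : Fˣ) : (dg3 (a, b)).1 = !![(a : F), 0, 0; 0, b, 0; 0, 0, ((a : F) * b)⁻¹] := by
  change diagonal _ = _
  ext i j
  fin_cases i <;> fin_cases j <;> simp [mul_comm]

theorem dg3_inj : Function.Injective (dg3 (F := F)) := fun _ _ h =>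
  Prod.ext (Units.ext (congrFun₂ (congrArg Subtype.val h) 0 0))
    (Units.ext (congrFun₂ (congrArg Subtype.val h) 1 1))

/-- the cyclic permutation matrix -/
def cy : SL(3, F) := ⟨!![0, 0, 1; 1, 0, 0; 0, 1, 0], by simp [det_fin_three]⟩

/-- the signed transposition -/
def tp : SL(3, F) := ⟨!![0, 1, 0; -1, 0, 0; 0, 0, 1], by simp [det_fin_three]⟩

/-- the block embedding -/
def b2 : SL(2, F) →* SL(3, F) := MonoidHom.mk' (fun g => ⟨!![g 0 0, g 0 1, 0; g 1 0, g 1 1, 0; 0, 0, 1], by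
    simpa [det_fin_three] using (det_fin_two g.1).symm.trans g.2⟩) fun a b => Subtype.ext (by
  change _ = (_ : Matrix _ _ F) * (_ : Matrix _ _ F)
  ext i j
  fin_cases i <;> fin_cases j <;> simp [mul_apply, Fin.sum_univ_three])

theorem b2_val (g : SL(2, F)) : (b2 g).1 = !![g 0 0, g 0 1, 0; g 1 0, g 1 1, 0; 0, 0, 1] := rfl

theorem b2_inj : Function.Injective (b2 (F := F)) := fun a b h => by
  have := congrFun₂ (congrArg Subtype.val h)
  ext i j
  fin_cases i <;> fin_cases j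
  exacts [this 0 0, this 0 1, this 1 0, this 1 1]

/-- diagonal elements of `SL₂` -/
def dg2 (a : Fˣ) : SL(2, F) := ⟨!![a, 0; 0, (a : F)⁻¹], by simp [det_fin_two]⟩

/-- the matrix of an element -/
def mv {n : ℕ} : SL(n, F) →* Mt n F := SpecialLinearGroup.coeMonoidHom

theorem mv_inj {n : ℕ} : Function.Injective (mv (F := F) (n := n)) := fun _ _ h => Subtype.ext h

theorem mv_mk {n : ℕ} (A : Mt n F) (h : A.det = 1) : mv ⟨A, h⟩ = A := rfl

theorem tv_pow {n : ℕ} {i j : Fin n} (h : i ≠ j) (c : F) (k : ℕ) :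
    SpecialLinearGroup.transvection h c ^ k = SpecialLinearGroup.transvection h (k * c) := by
  induction k with
  | zero => simp
  | succ k ih => rw [pow_succ, ih, ← SpecialLinearGroup.transvection_add, Nat.cast_succ, add_one_mul]

theorem sl_ext {a b c d : SL(3, F)} (h : a.1 * b.1 = c.1 * d.1) : a * b = c * d := Subtype.ext h

/-- no module in the defining characteristic when the torus has no element of order three -/
theorem core_sub [IsAlgClosed K] (p : ℕ) [Fact p.Prime] [CharP K p] (Y : Subgroup SL(3, F))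
    (L : Subgroup SL(2, F)) (M : Subgroup Fˣ) [Finite M] {ρ : Y →* Mt 5 K} (hi : Function.Injective ρ)
    (hT : NT ρ) (hM : ((Nat.card M : ℕ) : K) ≠ 0) (h3 : (Nat.card M).Coprime 3)
    (hd : ∀ a ∈ M, ∀ b ∈ M, dg3 (a, b) ∈ Y) (hc : cy ∈ Y) (ht : tp ∈ Y) (hL : ∀ g ∈ L, b2 g ∈ Y)
    (hq : IsQuasisimple L) {a : Fˣ} (ha : a ∈ M) (hl : dg2 a ∈ L) (hz : (⟨_, hl⟩ : L) ∉ center L)
    {u : L} (hu : u ^ p = 1) : u = 1 :=
  core3 p hi hT hM h3 ((dg3.comp (M.subtype.prodMap M.subtype)).codRestrict Y fun m => hd _ m.1.2 _ m.2.2)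
    (fun _ _ h => Prod.ext (Subtype.ext (congrArg Prod.fst (dg3_inj (congrArg Subtype.val h))))
      (Subtype.ext (congrArg Prod.snd (dg3_inj (congrArg Subtype.val h)))))
    (σ := ⟨cy, hc⟩) (τ := ⟨tp, ht⟩)
    (fun a b => Subtype.ext (sl_ext (by
      change cy.1 * (dg3 (a.1, b.1)).1 = (dg3 ((a.1 * b.1)⁻¹, a.1)).1 * cy.1
      simp [dg3_val, cy, mul_comm])))
    (fun a b => Subtype.ext (sl_ext (by
      change tp.1 * (dg3 (a.1, b.1)).1 = (dg3 (b.1, a.1)).1 * tp.1
      simp [dg3_val, tp, mul_comm])))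
    hq ((b2.comp L.subtype).codRestrict Y fun g => hL _ g.2)
    (fun _ _ h => Subtype.ext (b2_inj (congrArg Subtype.val h))) (a := ⟨a, ha⟩)
    (fun g => Subtype.ext (sl_ext (by
      change (b2 g.1).1 * (dg3 (a, a)).1 = (dg3 (a, a)).1 * (b2 g.1).1
      simp [dg3_val, b2_val, mul_comm])))
    (l := ⟨_, hl⟩) (Subtype.ext (Subtype.ext (by
      change (b2 (dg2 a)).1 = (dg3 (a, a⁻¹)).1
      rw [b2_val]
      simp [dg3_val, dg2]))) hz hu

section hess

variable {w : F} (hw : w ^ 2 + w + 1 = 0)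

/-- the diagonal generator of `3¹⁺²` -/
def hx : SL(3, F) := ⟨!![1, 0, 0; 0, w, 0; 0, 0, w ^ 2], by simp [det_fin_three]; grind⟩

include hw in
theorem sub_ne (h3 : (3 : F) ≠ 0) : w - w ^ 2 ≠ 0 := fun h => h3 (by grind)

/-- the Fourier matrix -/
def hf (h3 : (3 : F) ≠ 0) : SL(3, F) := ⟨(w - w ^ 2)⁻¹ • !![1, 1, 1; 1, w, w ^ 2; 1, w ^ 2, w], by
  rw [det_smul, inv_pow, inv_mul_eq_one₀ (pow_ne_zero _ (sub_ne hw h3))]
  simp [det_fin_three]; grind⟩

/-- the twisted Fourier matrix -/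
def hg (h3 : (3 : F) ≠ 0) : SL(3, F) := ⟨(w - w ^ 2)⁻¹ • !![1, 1, w ^ 2; 1, w, w; w, 1, w], by
  rw [det_smul, inv_pow, inv_mul_eq_one₀ (pow_ne_zero _ (sub_ne hw h3))]
  simp [det_fin_three]; grind⟩

theorem hess_rel (h3 : (3 : F) ≠ 0) : hx hw ^ 3 = 1 ∧ cy (F := F) ^ 3 = 1 ∧
    mv (hx hw * cy) = w • mv (cy * hx hw) ∧ hf hw h3 * cy = hx hw * hf hw h3 ∧
    hf hw h3 * hx hw ^ 2 = cy * hf hw h3 ∧ hg hw h3 * (cy * hx hw) = hx hw * hg hw h3 ∧
    hg hw h3 * hx hw ^ 2 = cy * hx hw * hg hw h3 := by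
  simp only [← mv_inj.eq_iff, pow_three, sq (hx hw), map_mul, map_one]
  simp only [hx, cy, hf, hg, mv_mk]
  generalize (w - w ^ 2)⁻¹ = c
  simp [one_fin_three]
  grind

/-- no module faithful on `3²` -/
theorem hess_sub [IsAlgClosed K] (h3 : (3 : F) ≠ 0) (h3' : (3 : K) ≠ 0) (Y : Subgroup SL(3, F))
    (ρ : Y →* Mt 5 K) (hρ : ∀ z ∈ center Y, ρ z = 1) (m1 : hx hw ∈ Y) (m2 : cy ∈ Y) (m3 : hf hw h3 ∈ Y)
    (m4 : hg hw h3 ∈ Y) : ρ ⟨_, m1⟩ = 1 := by
  obtain ⟨r1, r2, r3, r4, r5, r6, r7⟩ := hess_rel hw h3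
  refine hess h3' ρ (y := ⟨_, m2⟩) (f := ⟨_, m3⟩) (g := ⟨_, m4⟩) (Subtype.ext r1) (Subtype.ext r2) ?_
    (Subtype.ext r4) (Subtype.ext r5) (Subtype.ext r6) (Subtype.ext r7)
  rw [← inv_mul_cancel_right (⟨_, m1⟩ * ⟨_, m2⟩ : Y) (⟨_, m2⟩ * ⟨_, m1⟩), map_mul, hρ, one_mul]
  have k : mv (hx hw * cy * (cy * hx hw)⁻¹) = w • 1 := by
    rw [map_mul, r3, smul_mul_assoc, ← map_mul, mul_inv_cancel, map_one]
  refine mem_center_iff.2 fun g => Subtype.ext (mv_inj ?_)
  change mv (g.1 * (hx hw * cy * (cy * hx hw)⁻¹)) = mv (hx hw * cy * (cy * hx hw)⁻¹ * g.1)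
  rw [map_mul, map_mul _ _ g.1, k, mul_smul_comm, smul_mul_assoc, mul_one, one_mul]

theorem hx_not_central (h3 : (3 : F) ≠ 0) {Y : Subgroup SL(3, F)} (m1 : hx hw ∈ Y) (m2 : cy ∈ Y) :
    (⟨_, m1⟩ : Y) ∉ center Y := fun h => by
  have : cy * hx hw = hx hw * cy := congrArg Subtype.val (mem_center_iff.1 h ⟨_, m2⟩)
  have := congrFun₂ (congrArg mv this) 1 0
  simp only [map_mul] at this
  simp [hx, cy, mv_mk] at this
  exact sub_ne hw h3 (by rw [← this]; ring)

end hess

theorem mv_tv {i j : Fin 3} (h : i ≠ j) (c : F) :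
    mv (SpecialLinearGroup.transvection h c) = Matrix.of fun a b => (if a = b then 1 else 0) +
      if a = i ∧ b = j then c else 0 := by
  ext a b
  change (1 + single i j c) a b = _
  simp [one_apply, single_apply, eq_comm]

theorem jobPL3 : JobPL3.{u} := by
  intro F _ _ p hp ho hF K _ _ _ ρ h
  have := Fact.mk hp
  obtain ⟨r, _⟩ := CharP.exists F
  obtain ⟨n, hr, hn⟩ := FiniteField.card F r
  have := Fact.mk hr
  let f : SL(3, F) →* PSL(3, F) := QuotientGroup.mk' _
  have hf1 : ∀ g, pull ρ f g = 1 ↔ g ∈ center SL(3, F) := fun g => (pull_one h f).trans (QuotientGroup.eq_one_iff _)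
  by_cases hpr : r = p
  · subst hpr
    have h4 : 4 ≤ Fintype.card F := hF.resolve_right fun k => k.2
      ((Nat.prime_dvd_prime_iff_eq hr Nat.prime_three).1 (k.1 ▸ hn ▸ dvd_pow_self r n.2.ne'))
    have hc : Nat.card Fˣ = Fintype.card F - 1 := by rw [Nat.card_units, Nat.card_eq_fintype_card]
    by_cases h3 : 3 ∣ Fintype.card F - 1
    · have : Fact (Nat.Prime 3) := ⟨Nat.prime_three⟩
      obtain ⟨w, hw⟩ := exists_prime_orderOf_dvd_card' (G := Fˣ) 3 (hc ▸ h3)
      have w3 : (w : F) ^ 3 = 1 := by rw [← Units.val_pow_eq_pow_val, ← hw, pow_orderOf_eq_one]; rfl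
      have w1 : (w : F) ≠ 1 := fun k => by simp [Units.val_eq_one.1 k] at hw
      have hw' : (w : F) ^ 2 + w + 1 = 0 := mul_left_cancel₀ (sub_ne_zero.2 w1) (by linear_combination w3)
      have n3 : ¬ r ∣ 3 := fun k => by
        obtain rfl := (Nat.prime_dvd_prime_iff_eq hr Nat.prime_three).1 k
        have : 3 ∣ Fintype.card F := hn ▸ dvd_pow_self 3 n.2.ne'
        omega
      have a : (3 : F) ≠ 0 := fun k => n3 ((CharP.cast_eq_zero_iff F r 3).1 (by exact_mod_cast k))
      have b : (3 : K) ≠ 0 := fun k => n3 ((CharP.cast_eq_zero_iff K r 3).1 (by exact_mod_cast k))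
      have := (hf1 _).1 (hess_sub hw' a b ⊤ ((pull ρ f).comp (Subgroup.subtype ⊤)) (fun z hz => (hf1 _).2
        (mem_center_iff.2 fun g => congrArg Subtype.val (mem_center_iff.1 hz ⟨g, trivial⟩)))
        trivial trivial trivial trivial)
      exact hx_not_central hw' a (Y := ⊤) trivial trivial
        (mem_center_iff.2 fun g => Subtype.ext (mem_center_iff.1 this g.1))
    · have c3 : (Fintype.card F - 1).Coprime 3 := ((Nat.Prime.coprime_iff_not_dvd Nat.prime_three).2 h3).symm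
      have hz : center SL(3, F) = ⊥ := eq_bot_of_card_eq _ (by
        rw [H57.card_center_sl, Nat.card_eq_fintype_card, Fintype.card_fin]; exact c3.symm)
      obtain ⟨a, a0, a1⟩ : ∃ a : F, a ≠ 0 ∧ a ^ 2 ≠ 1 := by
        classical
        obtain ⟨a, -, ha⟩ := Finset.exists_mem_notMem_of_card_lt_card (s := {0, 1, -1})
          (t := (Finset.univ : Finset F)) (lt_of_le_of_lt Finset.card_le_three (by simp; omega))
        exact ⟨a, by simp_all, by simp_all⟩
      have := core_sub r ⊤ ⊤ ⊤ (ρ := (pull ρ f).comp (Subgroup.subtype ⊤))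
        ((injective_iff_map_eq_one _).2 fun g k => Subtype.ext (mem_bot.1 (hz ▸ (hf1 _).1 k)))
        (fun g => pull_nt h f g.1) (by
          rw [card_top, hc, Nat.cast_sub (by omega), hn, Nat.cast_pow, CharP.cast_eq_zero]
          simp) (by rwa [card_top, hc]) (fun _ _ _ _ => trivial) trivial trivial (fun _ _ => trivial)
        (H14.quasi_top_iff.2 ⟨⟨H57.sl_commutator_eq_top_of_sq_ne_one a0 a1⟩,
          H57.psl_fin_isSimpleGroup le_rfl fun _ => h4⟩) (a := Units.mk0 a a0) trivial trivial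
        (fun k => by
          have := congrFun₂ (congrArg (mv.comp (Subgroup.subtype ⊤))
            (mem_center_iff.1 k ⟨⟨!![1, 1; 0, 1], by simp [det_fin_two]⟩, trivial⟩)) 0 1
          simp only [map_mul] at this
          simp [dg2, mv_mk] at this
          exact a1 (by rw [sq]; nth_rewrite 1 [← this]; exact inv_mul_cancel₀ a0))
        (u := ⟨SpecialLinearGroup.transvection (zero_ne_one (α := Fin 2)) 1, trivial⟩)
        (Subtype.ext ((tv_pow zero_ne_one _ _).trans (by simp)))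
      have e : SpecialLinearGroup.transvection (zero_ne_one (α := Fin 2)) (1 : F) = 1 := congrArg Subtype.val this
      exact one_ne_zero ((SpecialLinearGroup.transvection_mem_center_iff _ _).1 (e ▸ one_mem _ :
        SpecialLinearGroup.transvection (zero_ne_one (α := Fin 2)) (1 : F) ∈ center _))
  · have h2 : p ≠ 2 := fun k => hpr (by
      have := mt ho.1 (not_not.2 k)
      rw [hn, Nat.not_odd_iff_even, Nat.even_pow] at this
      exact (hr.even_iff.1 this.1).trans k.symm)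
    have r2 : r ≠ 2 := fun k => by
      have := ho.2 h2
      rw [hn, k, ← Nat.not_even_iff_odd] at this
      exact this (Nat.even_pow.2 ⟨even_two, n.2.ne'⟩)
    refine absurd ((hf1 _).1 (heis (pull ρ f) (x := .transvection (by decide : (0 : Fin 3) ≠ 1) 1)
      (y := .transvection (by decide : (1 : Fin 3) ≠ 2) 1) (z := .transvection (by decide : (0 : Fin 3) ≠ 2) (-1))
      (g := dg3 (-1, -1)) (m := r)
      (fun k => hpr ((Nat.prime_dvd_prime_iff_eq hp hr).1 ((CharP.cast_eq_zero_iff K p r).1 k)).symm)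
      (hr.odd_of_ne_two r2) ((tv_pow _ _ _).trans (by simp)) ((tv_pow _ _ _).trans (by simp)) ?_ ?_ ?_ ?_))
      (by simp [SpecialLinearGroup.transvection_mem_center_iff])
    all_goals
      refine mv_inj ?_
      simp only [SpecialLinearGroup.transvection_inv, map_mul, mv_tv, show mv (dg3 _) = _ from dg3_val _ _]
      ext i j
      fin_cases i <;> fin_cases j <;> simp [mul_apply, Fin.sum_univ_three]

end H58.LD
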