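import Cfsg.Agent.H58.LDW
import Cfsg.Agent.H19.L3Fin

/-! Tower LD5, job `JobSc`: Scott's lemma for `L₃(2)`, `A₇` and `L₃(3)`. -/

set_option autoImplicit false
set_option maxRecDepth 100000

namespace H58.LD

open Matrix Cfsg H41.LD Subgroup H19 Equiv
open scoped MatrixGroups

universe u

variable {K : Type*} [Field K] {Γ : Type*} [Group Γ]

/-- a two-generator form of Scott's lemma -/
theorem scott {ρ : Γ →* Mt 5 K} (irr : ∀ W : Submodule K (Fin 5 → K), (∀ g, ∀ w ∈ W, ρ g *ᵥ w ∈ W) → W = ⊥ ∨ W = ⊤)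
    {t y : Γ} (hg : closure {t, y} = ⊤) (r : (ρ t - 1).rank + (ρ y - 1).rank ≤ 5)
    (d : (ρ (t * y) - 1).det = 0) : False := by
  have ind : ∀ P : Γ → Prop, P 1 → P t → P y → (∀ a b, P a → P b → P (a * b)) → (∀ a, P a → P a⁻¹) → ∀ g, P g :=
    fun P h1 h2 h3 h4 h5 g => closure_induction (p := fun g _ => P g) (by rintro _ (rfl | rfl) <;> assumption)
      h1 (fun a b _ _ => h4 a b) (fun a _ => h5 a) (hg.ge (mem_top g))
  have inv : ∀ g v, ρ g *ᵥ (ρ g⁻¹ *ᵥ v) = v := fun g v => by
    rw [mulVec_mulVec, ← map_mul, mul_inv_cancel, map_one, one_mulVec]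
  have k2 : ∀ w, ρ t *ᵥ w = w → ρ y *ᵥ w = w → w = 0 := fun w h1 h2 => by
    have f := ind (fun g => ρ g *ᵥ w = w) (by simp) h1 h2 (fun a b ha hb => by
      rw [map_mul, ← mulVec_mulVec, hb, ha]) fun a ha => by simpa [ha] using inv a⁻¹ w
    rcases irr (K ∙ w) (fun g v hv => by
      obtain ⟨c, rfl⟩ := Submodule.mem_span_singleton.1 hv
      rwa [mulVec_smul, f]) with k | k
    · exact Submodule.span_singleton_eq_bot.1 k
    · by_contra h
      have := finrank_span_singleton (K := K) h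
      rw [k] at this
      simp at this
  let X := LinearMap.range (ρ t - 1).mulVecLin
  let Y := LinearMap.range (ρ y - 1).mulVecLin
  have hX : ∀ v, ρ t *ᵥ v - v ∈ X := fun v => ⟨v, by simp⟩
  have hY : ∀ v, ρ y *ᵥ v - v ∈ Y := fun v => ⟨v, by simp⟩
  have f := ind (fun g => ∀ v, ρ g *ᵥ v - v ∈ X ⊔ Y) (by simp) (fun v => Submodule.mem_sup_left (hX v))
    (fun v => Submodule.mem_sup_right (hY v)) (fun a b ha hb v => by
      simpa [← mulVec_mulVec] using add_mem (ha (ρ b *ᵥ v)) (hb v)) fun a ha v => by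
      simpa [-mulVec_mulVec, inv] using neg_mem (ha (ρ a⁻¹ *ᵥ v))
  have e : X ⊓ Y = ⊥ := by
    rcases irr (X ⊔ Y) (fun g w hw => by simpa using add_mem (f g w) hw) with k | k
    · exact le_bot_iff.1 (inf_le_sup.trans k.le)
    · have := Submodule.finrank_sup_add_finrank_inf_eq X Y
      rw [k, finrank_top, Module.finrank_fin_fun] at this
      exact Submodule.finrank_eq_zero.1 (by change Module.finrank K X + Module.finrank K Y ≤ 5 at r; omega)
  obtain ⟨w, h0, hw⟩ := exists_mulVec_eq_zero_iff.2 d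
  rw [sub_mulVec, one_mulVec, sub_eq_zero, map_mul, ← mulVec_mulVec] at hw
  have : ρ y *ᵥ w - w ∈ X ⊓ Y := ⟨by simpa [-mulVec_mulVec, hw] using neg_mem (hX (ρ y *ᵥ w)), hY w⟩
  rw [e, Submodule.mem_bot, sub_eq_zero] at this
  exact h0 (k2 w (by rwa [this] at hw) this)

variable {ρ ρ' : Γ →* Mt 5 K}

theorem Sim.rank (h : Sim ρ ρ') (g : Γ) : (ρ g - 1).rank ≤ (ρ' g - 1).rank := by
  obtain ⟨B, B', h1, h2⟩ := h.symm
  rw [show ρ g - 1 = B' * (ρ' g - 1) * B by rw [mul_sub, sub_mul, mul_one, mul_eq_one_comm.1 h1, h2]]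
  exact (rank_mul_le_left _ _).trans (rank_mul_le_right _ _)

theorem rank_diag {g : Γ} {d : Fin 5 → K} (h : ρ g = diagonal d) (s : Finset (Fin 5))
    (hs : ∀ i, d i ≠ 1 → i ∈ s) : (ρ g - 1).rank ≤ s.card := by
  classical
  rw [h, ← diagonal_one, diagonal_sub, rank_diagonal, Fintype.card_subtype]
  exact Finset.card_le_card fun i hi => hs i (sub_ne_zero.1 (Finset.mem_filter.1 hi).2)

theorem rank_inv [IsAlgClosed K] {t : Γ} (ht : t * t = 1) (hd : (ρ t).det = 1)
    (h : (2 : K) ≠ 0 → (ρ t).trace = 1) : (ρ t - 1).rank ≤ 2 := by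
  by_cases h2 : (2 : K) = 0
  · have := rank_add_rank_le_card_of_mul_eq_zero (A := ρ t - 1) (B := ρ t - 1) (by
      rw [sub_mul, mul_sub, ← map_mul, ht, map_one, mul_one, one_mul]
      calc _ = (2 : K) • (1 - ρ t) := by rw [two_smul]; abel
        _ = 0 := by rw [h2, zero_smul])
    rw [Fintype.card_fin] at this
    omega
  classical
  obtain ⟨ρ', d, hs, e⟩ := exists_diag ρ (fun _ : Unit => t) (fun _ _ => rfl) fun _ =>
    ⟨2, by exact_mod_cast h2, by rw [sq, ht, map_one]⟩
  let s := Finset.univ.filter fun i => d () i ≠ 1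
  refine (hs.rank t).trans ((rank_diag (e ()) s (by simp [s])).trans (not_lt.1 fun k => ?_))
  have c : ∀ i, d () i = ((if i ∈ s then -1 else 1 : ℤ) : K) := fun i => by
    have := (diag_one (diag_mul (e ()) (e ()))).1 (by rw [ht, map_one]) i
    by_cases k : d () i = 1 <;> simp [s, k]
    exact (mul_self_eq_one_iff.1 this).resolve_left k
  have : ∀ s : Finset (Fin 5), 2 < s.card → (∏ i, if i ∈ s then -1 else 1 : ℤ) = -1 ∨
    (∑ i, if i ∈ s then -1 else 1 : ℤ) = -3 := by decide +kernel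
  rcases this s k with k | k
  · rw [← hs.det, e (), det_diagonal, Finset.prod_congr rfl fun i _ => c i, ← Int.cast_prod, k] at hd
    exact h2 (by push_cast at hd; linear_combination -hd)
  · have := h h2
    rw [← hs.trace, e (), trace_diagonal, Finset.sum_congr rfl fun i _ => c i, ← Int.cast_sum, k] at this
    exact mul_ne_zero h2 h2 (by push_cast at this; linear_combination -this)

theorem rank_three [IsAlgClosed K] {y : Γ} {l k : ℕ} (hl : (l : K) ≠ 0) (hy : y ^ l = 1)
    (hc : IsConj y (y ^ k)) (hk : ∀ j ∈ [1, 2, 4, 5], 1 ≤ k ^ j ∧ (k ^ j - 1).Coprime l) : (ρ y - 1).rank ≤ 3 := by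
  obtain ⟨ρ', d, hs, e⟩ := exists_diag ρ (fun _ : Unit => y) (fun _ _ => rfl) fun _ => ⟨l, hl, by rw [hy, map_one]⟩
  obtain ⟨n, hn⟩ := isConj_iff.1 hc
  obtain ⟨π, hπ⟩ := exists_perm ρ' n
  have e1 := hπ (e ()) (diag_pow (e ()) k) (by rw [← hn, inv_mul_cancel_right])
  have e2 := (diag_one (diag_pow (e ()) l)).1 (by rw [hy, map_one])
  have T : ∀ j ∈ [1, 2, 4, 5], ∀ i, (π ^ j) i = i → d () i = 1 := fun j hj i hi => by
    have a : ∀ j i, d () ((π ^ j) i) ^ k ^ j = d () i := fun j => by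
      induction j with
      | zero => simp
      | succ j ih => exact fun i => by rw [pow_succ' π, Perm.mul_apply, pow_succ' k, pow_mul, e1, ih]
    have b := a j i
    rw [hi, ← Nat.sub_add_cancel (hk j hj).1, pow_succ, mul_eq_right₀ (diag_ne (e ()) i)] at b
    simpa [(hk j hj).2.gcd_eq_one] using pow_gcd_eq_one.2 ⟨b, e2 i⟩
  refine (hs.rank y).trans ?_
  by_cases h : ∀ i, d () i = 1
  · exact (rank_diag (e ()) ∅ fun i hi => (hi (h i)).elim).trans (by simp)
  obtain ⟨i, hi⟩ := not_forall.1 h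
  have n1 : π i ≠ i := fun k => hi (T 1 (by simp) i k)
  have n3 : π (π (π i)) = i := by
    rcases perm_period π i with k | k | k | k | k
    exacts [(n1 k).elim, (hi (T 2 (by simp) i k)).elim, k, (hi (T 4 (by simp) i k)).elim,
      (hi (T 5 (by simp) i k)).elim]
  refine (rank_diag (e ()) {π i, π (π i), i} fun j hj => ?_).trans Finset.card_le_three
  rcases perm_three π i j n1 n3 with k | k | k | k
  exacts [by simp [k], by simp [k], by simp [k], (hj (T 2 (by simp) j k)).elim]

theorem nil_of_pow (p : ℕ) [Fact p.Prime] [CharP K p] {z : Γ} {k : ℕ} (h : z ^ p ^ k = 1) :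
    IsNilpotent (ρ z - 1) := ⟨p ^ k, by
  rw [sub_pow_char_pow_of_commute _ _ (Commute.one_right _), ← map_pow, h, map_one, one_pow, sub_self]⟩

theorem det_of_pow (p : ℕ) [Fact p.Prime] [CharP K p] {z : Γ} {k : ℕ} (h : z ^ p ^ k = 1) :
    (ρ z - 1).det = 0 := by
  obtain ⟨m, hm⟩ := nil_of_pow (ρ := ρ) p h
  exact IsNilpotent.eq_zero ⟨m, by rw [← det_pow, hm, det_zero]⟩

theorem det_of_real (h2 : (2 : K) ≠ 0) {z : Γ} (hd : (ρ z).det = 1) (h : IsConj z z⁻¹) :
    (ρ z - 1).det = 0 := by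
  obtain ⟨c, hc⟩ := isConj_iff.1 h
  have e1 : ρ c * (ρ z - 1) = (ρ z⁻¹ - 1) * ρ c := by
    rw [mul_sub, sub_mul, ← map_mul, ← map_mul, ← hc, inv_mul_cancel_right, mul_one, one_mul]
  have e2 : ρ z * (ρ z⁻¹ - 1) = -(ρ z - 1) := by
    rw [mul_sub, ← map_mul, mul_inv_cancel, map_one, mul_one, neg_sub]
  have e3 := congrArg det e1
  have e4 := congrArg det e2
  rw [det_mul, det_mul, mul_comm, mul_left_inj' (det_ne ρ c)] at e3
  rw [det_mul, hd, one_mul, det_neg, Fintype.card_fin, ← e3] at e4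
  exact mul_left_cancel₀ h2 (by linear_combination e4)

theorem non_of (p : ℕ) (hp : p.Prime) {t y : Γ} (hg : closure {t, y} = ⊤) (ht : t * t = 1) (h1 : t ≠ 1)
    {l k : ℕ} (hl : ¬ p ∣ l) (hy : y ^ l = 1) (hc : IsConj y (y ^ k))
    (hk : ∀ j ∈ [1, 2, 4, 5], 1 ≤ k ^ j ∧ (k ^ j - 1).Coprime l)
    (hz : (t * y) ^ p ^ 2 = 1 ∨ (p ≠ 2 ∧ IsConj (t * y) (t * y)⁻¹)) : Non.{u} Γ p := by
  intro K _ _ _ ρ h
  have := Fact.mk hp
  have hd : ∀ g, (pull ρ (.id Γ) g).det = 1 := fun g => congrArg Units.val (h.le ⟨g, rfl⟩)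
  refine scott (ρ := pull ρ (.id Γ)) (fun W hW => (irr_of_gspan_eq_top h.span).eq_bot_or_top W (by
    rintro _ ⟨g, rfl⟩; exact hW g)) hg (add_le_add (rank_inv ht (hd t) fun h2 => h.inv h2 t ht h1)
      (rank_three (mt (CharP.cast_eq_zero_iff K p l).1 hl) hy hc hk)) ?_
  rcases hz with hz | ⟨h2, hz⟩
  · exact det_of_pow p hz
  · exact det_of_real (fun k => h2 ((Nat.prime_dvd_prime_iff_eq hp Nat.prime_two).1
      ((CharP.cast_eq_zero_iff K p 2).1 (by exact_mod_cast k)))) (hd _) hz

theorem non_of_sm {c5 c6 : Prop} (hs : Sm Γ c5 c6 True) (p : ℕ) (hp : p.Prime) (h7 : p ≠ 7) {t y : Γ}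
    (hg : closure {t, y} = ⊤) (h : t * t = 1 ∧ t ≠ 1 ∧ y ^ 7 = 1 ∧ y ^ 3 ≠ 1 ∧ y ^ 4 ≠ 1 ∧ y ^ 5 ≠ 1 ∧ y ^ 6 ≠ 1 ∧
      (t * y) ^ 4 = 1 ∧ (t * y) ^ 7 ≠ 1) : Non.{u} Γ p := by
  obtain ⟨a1, a2, a3, a4, a5, a6, a7, a8, a9⟩ := h
  refine non_of p hp hg a1 a2 (l := 7) (k := 2) (mt (Nat.prime_dvd_prime_iff_eq hp (by decide)).1 h7) a3
    ((hs y).resolve_left (by simp [*])).2.2 (by decide) ?_
  by_cases h2 : p = 2
  · exact .inl (by rw [h2]; exact a8)
  · exact .inr ⟨h2, ((hs _).resolve_right fun k => a9 k.2.1).1⟩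

/-- an involution of `A₇` -/
def t7 : alternatingGroup (Fin 7) := ⟨swap 0 1 * swap 2 6, Perm.mem_alternatingGroup.2 (by decide +kernel)⟩

theorem closure_a7 : closure {t7, c7} = ⊤ := by
  have ha : t7 ∈ closure {t7, c7} := Subgroup.subset_closure (by simp)
  have hb : c7 ∈ closure {t7, c7} := Subgroup.subset_closure (by simp)
  have h : ∀ x : Fin 7, 0 ≠ x → 1 ≠ x → ∃ l ∈ [[true, false, true, false, false, true, false, false, false, true, false, false, true, false, false, true],
      [false, true, false, true, false, false, true, false, false, false, true, false, false, true, false],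
      [false, true, false, false, false, true, false, false, true, false, false, false, true, false], [false,
      false, true, false, false, false, true, false, false, true, false, false, true, false, true], [true,
      false, false, true, false, false, true, false, false, false, true, false, false, true, false, true]],
      ((wd t7 c7 l : alternatingGroup (Fin 7)) : Perm (Fin 7)) = H86.cyc 0 1 x := by decide +kernel
  have h1 := H86.alternating_le_of_cyc (a := (0 : Fin 7)) (b := 1) (by decide)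
    (H := (closure {t7, c7}).map (alternatingGroup (Fin 7)).subtype) fun x h0 h1 => by
      obtain ⟨l, -, hl⟩ := h x h0 h1
      exact ⟨_, wd_mem ha hb l, hl⟩
  refine eq_top_iff.2 fun x _ => ?_
  obtain ⟨y, hy, e⟩ := h1 x.2
  exact Subtype.ext e ▸ hy

theorem closure_l2 : Subgroup.closure {a2, (a2 * b2) ^ 4} = ⊤ := by
  have ha : a2 ∈ Subgroup.closure {a2, (a2 * b2) ^ 4} := Subgroup.subset_closure (by simp)
  have hb : (a2 * b2) ^ 4 ∈ Subgroup.closure {a2, (a2 * b2) ^ 4} := Subgroup.subset_closure (by simp)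
  refine eq_top_iff.2 (closure_ab2.ge.trans ((closure_le _).2 ?_))
  have e : wd a2 ((a2 * b2) ^ 4) [true, false, false] = b2 := by decide +kernel
  have hc := wd_mem ha hb [true, false, false]
  rw [e] at hc
  exact Set.insert_subset ha (Set.singleton_subset_iff.2 hc)

/-- an involution of `SL₃(3)` -/
def t3 : SL(3, ZMod 3) := ⟨!![2, 0, 1; 0, 2, 1; 0, 0, 1], by decide +kernel⟩

/-- an element of order thirteen of `SL₃(3)` -/
def y3 : SL(3, ZMod 3) := ⟨!![1, 1, 1; 0, 1, 1; 1, 0, 1], by decide +kernel⟩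

theorem closure_l3 : Subgroup.closure {t3, y3} = ⊤ := by
  have ha : t3 ∈ Subgroup.closure {t3, y3} := Subgroup.subset_closure (by simp)
  have hb : y3 ∈ Subgroup.closure {t3, y3} := Subgroup.subset_closure (by simp)
  have : Fact (Nat.Prime 3) := ⟨Nat.prime_three⟩
  have h : ∀ (i j : Fin 3) (c : ZMod 3), i ≠ j → ∃ l ∈ [[false, true, false, false, false, false, false, false, false, true, false, false, false, false, false,
      true], [false, false, true, false, false, false, true, false], [false, true, false, false, false, false,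
      false, false, false, false, false, true, false, false, true, false, false, true, false], [false, true,
      false, false, false, false, false, true, false, false, false, false, false, false, false, true], [false,
      true, false, false, true, false, false, true, false, false, false, true, false, false, true, false,
      false, true], [true, false, true, false, false, true, false, false, false, false, true, false, false,
      false, false, false]], ∃ k ∈ [0, 1, 2],
      (wd t3 y3 l ^ k).1 = transvection i j c := by decide +kernel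
  refine H57.sl_eq_top_of_transvections _ fun i j hij c => ?_
  obtain ⟨l, -, k, -, e⟩ := h i j c hij
  rw [← show wd t3 y3 l ^ k = .transvection hij c from Subtype.ext e]
  exact pow_mem (wd_mem ha hb l) k

theorem jobSc : JobSc.{u} := fun p hp => by
  refine ⟨fun h7 => ⟨non_of_sm sm_sl2 p hp h7 closure_l2 (by decide +kernel),
    non_of_sm sm_alt7 p hp h7 closure_a7 (by decide +kernel)⟩, ?_, ?_⟩
  · rintro rfl K _ _ _ ρ h _ ⟨g, rfl⟩
    have := Fact.mk hp
    rcases sm_alt7 g with ⟨k, -⟩ | ⟨-, k, -⟩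
    · obtain ⟨c, hc⟩ := isConj_iff.1 k
      rw [← map_inv, ← hc, map_mul, trc_mul_comm, ← map_mul, inv_mul_cancel_left]
    · have e : ∀ z : alternatingGroup (Fin 7), z ^ 7 = 1 → trc (ρ z) = 5 := fun z hz => by
        have := (isNilpotent_trace_of_isNilpotent (nil_of_pow (ρ := pull ρ (.id _)) 7 (k := 1) hz)).eq_zero
        rw [trace_sub, trace_one, sub_eq_zero] at this
        exact this.trans (by simp)
      rw [← map_inv, e g k, e _ (by rw [inv_pow, k, inv_one])]
  · rintro rfl
    exact non_of 3 hp closure_l3 (by decide +kernel) (by decide +kernel) (l := 13) (k := 3) (by decide)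
      (by decide +kernel) (isConj_iff.2 ⟨⟨!![1, 0, 2; 1, 1, 1; 0, 0, 1], by decide +kernel⟩,
        mul_inv_eq_iff_eq_mul.2 (by decide +kernel)⟩) (by decide) (.inl (by decide +kernel))

end H58.LD
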