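import Cfsg.Agent.H13.SL4Spec

set_option autoImplicit false

/-! The stabiliser of a pair of complementary totally isotropic lines is maximal in `SU₄(q)`,
`q ≥ 4`. -/

namespace H58.SU4

open Module H59 H62 Cfsg Cfsg.Geo

variable {F V : Type*} [Field F] [AddCommGroup V] [Module F V] {σ : F →+* F}
  {M : Subgroup (V ≃ₗ[F] V)} {B : V →ₛₗ[σ] V →ₗ[F] F}

/-- `M` contains the product of two commuting transvections with centres `a`, `b`. -/
def Has2 (M : Subgroup (V ≃ₗ[F] V)) (B : V →ₛₗ[σ] V →ₗ[F] F) (a b : V) (s r : F) : Prop :=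
  ∃ e ∈ M, ∀ x, e x = x + (s * B a x) • a + (r * B b x) • b

theorem Has2.conj {a b : V} {s r : F} {g : V ≃ₗ[F] V} (hg : g ∈ M) (hB : g ∈ isom B)
    (h : Has2 M B a b s r) : Has2 M B (g a) (g b) s r := by
  obtain ⟨e, he, hx⟩ := h
  refine ⟨g * e * g⁻¹, M.mul_mem (M.mul_mem hg he) (M.inv_mem hg), fun x => ?_⟩
  obtain ⟨x, rfl⟩ := g.surjective x
  simp [hx, hB a x, hB b x]

theorem Has2.of_smul {a b : V} {s r l m : F} (h : Has2 M B (l • a) (m • b) s r) :
    Has2 M B a b (σ l * l * s) (σ m * m * r) := by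
  obtain ⟨e, he, hx⟩ := h
  exact ⟨e, he, fun x => by simp only [hx, form_smul_left]; module⟩

theorem Has2.symm {a b : V} {s r : F} (h : Has2 M B a b s r) : Has2 M B b a r s := by
  obtain ⟨e, he, hx⟩ := h
  exact ⟨e, he, fun x => by rw [hx]; abel⟩

theorem Has2.sub {a b : V} {s r s' r' : F} (haa : B a a = 0) (hbb : B b b = 0) (hab : B a b = 0)
    (hba : B b a = 0) (h : Has2 M B a b s r) (h' : Has2 M B a b s' r') :
    Has2 M B a b (s - s') (r - r') := by
  obtain ⟨e, he, hx⟩ := h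
  obtain ⟨e', he', hx'⟩ := h'
  have hi : ∀ x, e'⁻¹ x = x - (s' * B a x) • a - (r' * B b x) • b := fun x => e'.injective (by
    rw [LinearEquiv.coe_inv, LinearEquiv.apply_symm_apply, hx']
    simp only [map_sub, map_smul, haa, hbb, hab, hba, smul_eq_mul]
    module)
  refine ⟨e * e'⁻¹, M.mul_mem he (M.inv_mem he'), fun x => ?_⟩
  rw [LinearEquiv.mul_apply, hi, hx]
  simp only [map_sub, map_smul, haa, hbb, hab, hba, smul_eq_mul]
  module

theorem eq_zero_of_forall_fixed (h : IsHerm B) {t : F} (ht : ∀ c : F, σ (c * t) - c * t = 0) :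
    t = 0 := by
  by_contra h0
  obtain ⟨x, hx⟩ := exists_not_fixed h.ne_id
  have := ht (x / t)
  rw [div_mul_cancel₀ _ h0, sub_eq_zero] at this
  exact hx this

/-- the elements `ρ(a', b', c)` for another pair of points of the line `⟨a, b⟩` -/
theorem two_points (h : IsHerm B) {a b : V} (haa : B a a = 0) (hbb : B b b = 0) (hab : B a b = 0)
    (hρ : ∀ c : F, HasEich M B a (c • b))
    (hs : ∀ s r : F, s + σ s = 0 → r + σ r = 0 → Has2 M B a b s r → s = 0 ∧ r = 0)
    {α β γ δ : F} (hρ' : ∀ c : F, HasEich M B (α • a + β • b) (c • (γ • a + δ • b))) :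
    α * γ = 0 ∧ β * δ = 0 := by
  have hba := h.eq_zero_comm.1 hab
  have key : ∀ c : F, σ (c * (σ α * γ)) - c * (σ α * γ) = 0 ∧
      σ (c * (σ β * δ)) - c * (σ β * δ) = 0 := fun c => by
    obtain ⟨e, he, hx⟩ := hρ' c
    obtain ⟨e', he', hx'⟩ := hρ (-(c * δ * σ α - σ c * β * σ γ))
    refine hs _ _ (by simp [h.invol]) (by simp [h.invol]) ⟨e * e', M.mul_mem he he', fun x => ?_⟩
    rw [LinearEquiv.mul_apply, hx, hx']
    simp only [map_add, map_sub, map_smul, LinearMap.add_apply, form_smul_left, haa, hbb, hab, hba,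
      smul_eq_mul, map_neg, map_mul, h.invol]
    module
  have h1 := eq_zero_of_forall_fixed h fun c => (key c).1
  have h2 := eq_zero_of_forall_fixed h fun c => (key c).2
  simpa using And.intro h1 h2

variable [FiniteDimensional F V] {D : Fin 2 → Submodule F V} {π : Fin 2 → V →ₗ[F] V}

theorem eich_mem (h : IsHerm B) (hs : SingPair B D π)
    (hM : ∀ e : V ≃ₗ[F] V, StabD D e → e ∈ sisom B → e ∈ M) {i j : Fin 2} (hij : i ≠ j)
    {u w : V} (hu : u ∈ D i) (hw : w ∈ D j) (huw : B u w = 0) :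
    ∃ e ∈ M, e ∈ isom B ∧ ∀ x, e x = x + B w x • u - B u x • w := by
  obtain ⟨e, he, hx⟩ := h.exists_eichler (hs.sing i u hu u hu) huw (a := 0)
    (by simp [hs.sing j w hw w hw])
  simp only [zero_mul, zero_smul, sub_zero] at hx
  refine ⟨e, hM e (StabD.of_fix fun k x hx' => ?_) he, he.1, hx⟩
  rw [hx]
  by_cases hk : k = i
  · subst hk
    simpa [hs.sing k u hu x hx'] using (D k).add_mem hx' ((D k).smul_mem _ hu)
  · obtain rfl : k = j := by omega
    simpa [hs.sing k w hw x hx'] using (D k).sub_mem hx' ((D k).smul_mem _ hw)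

/-- one full point in a member of the pair gives everything -/
theorem mem_of_full [Finite F] (h : IsHerm B) (hs : SingPair B D π)
    (hm : ∀ i, finrank F (D i) = 2)
    (hM : ∀ e : V ≃ₗ[F] V, StabD D e → e ∈ sisom B → e ∈ M) {i : Fin 2} {x : V} (hx : x ∈ D i)
    (hx0 : x ≠ 0) (hf : FullU M B x) : ∀ e ∈ sisom B, e ∈ M := by
  obtain ⟨s, hsB, hsw⟩ := hs.exists_su_swap h (by omega) hm
  have hsM := hM s (IsProj.stabD_of_le hm s _ hsw) hsB
  have hmove : ∀ i, ∀ u ∈ D i, u ≠ 0 → FullU M B u → ∀ u' ∈ D i, FullU M B u' := by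
    intro i u hu hu0 hf u' hu'
    by_cases h0 : u' ∈ F ∙ u
    · obtain ⟨c, rfl⟩ := Submodule.mem_span_singleton.1 h0
      exact hf.smul h c
    obtain ⟨j, hj⟩ := exists_ne i
    obtain ⟨z, hz, z1, -, z2⟩ := hs.sep_pair hj.symm ((D i).sub_mem hu' hu) ((D i).sub_mem hu' hu)
      hu (by
        rw [Set.pair_eq_singleton]
        refine notMem_span_symm hu0 fun h3 => h0 ?_
        simpa using Submodule.add_mem _ h3 (Submodule.mem_span_singleton_self u))
    obtain ⟨k, hk, hkB, hkx⟩ := eich_mem h hs hM hj.symm ((D i).sub_mem hu' hu)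
      ((D j).smul_mem (B u z)⁻¹ hz) (by rw [map_smul, z1, smul_zero])
    have := hf.conj hk hkB
    rwa [hkx, hs.sing i _ ((D i).sub_mem hu' hu) u hu, ← h.symm, map_smul, smul_eq_mul,
      inv_mul_cancel₀ z2, map_one, zero_smul, sub_zero, one_smul, add_sub_cancel] at this
  have hall : ∀ j, ∀ u ∈ D j, FullU M B u := by
    intro j
    by_cases hij : j = i
    · exact hij ▸ hmove i x hx hx0 hf
    · have : Equiv.swap 0 1 i = j := by revert hij; fin_cases i <;> fin_cases j <;> simp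
      exact hmove j (s x) (this ▸ hsw i x hx) (by simpa using hx0) (hf.conj hsM hsB.1)
  refine mem_of_forall_fullU h (Or.inl fun h3 => ?_) (fun v hv => ?_)
  · have h4 := Submodule.finrank_add_finrank_le_of_disjoint (s := D 0) (t := D 1)
      (Submodule.disjoint_def.2 fun x => hs.proj.eq_zero_of_mem (by simp))
    rw [hm, hm] at h4
    omega
  rw [← hs.proj.add_two v] at hv ⊢
  have m0 := hs.proj.mem 0 v
  have m1 := hs.proj.mem 1 v
  by_cases h0 : π 0 v = 0
  · simpa [h0] using hall 1 _ m1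
  by_cases h1 : B (π 1 v) (π 0 v) = 0
  swap; · exact (hall 1 _ m1).add h (hall 0 _ m0) h1 hv
  obtain ⟨z, hz, hz0⟩ := hs.exists_ne_zero (j := 1) (by simp) m0 h0
  obtain ⟨d, hd0, hd⟩ := exists_trace_zero_ne_zero h.ne_id h.invol
  obtain ⟨y, hy, hy1⟩ : ∃ y ∈ D 1, B (π 0 v) y = d :=
    ⟨(d / B (π 0 v) z) • z, (D 1).smul_mem _ hz, by simp [hz0]⟩
  have hy2 : B y (π 0 v) = σ d := by rw [← h.symm, hy1]
  have hy3 : σ d ≠ 0 := h.conj_ne_zero hd0
  have := (hall 1 _ ((D 1).sub_mem m1 hy)).add h ((hall 1 y hy).add h (hall 0 _ m0)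
    (by rwa [hy2]) (by simp [hs.sing 0 _ m0 _ m0, hs.sing 1 _ hy _ hy, hy1, hy2, add_comm, hd]))
    (by simpa [h1, hs.sing 1 _ m1 _ hy, hs.sing 1 _ hy _ hy, hy2] using hd0)
    (by rwa [show π 0 v + y + (π 1 v - y) = π 0 v + π 1 v by abel])
  convert this using 1; abel

/-- scaling one point of a member of the pair -/
theorem exists_scale (h : IsHerm B) (hs : SingPair B D π) {i j : Fin 2} (hij : i ≠ j) {u w : V}
    (hu : u ∈ D i) (hu0 : u ≠ 0) (hw : w ∈ D j) (huw : B u w = 0) {l : F} (hl : l ≠ 0) :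
    ∃ k ∈ isom B, ((LinearEquiv.det k : Fˣ) : F) = l / σ l ∧ k u = l • u ∧ k w = w ∧
      ∀ t, ∀ x ∈ D t, k x ∈ D t := by
  obtain ⟨z, hz, hz0⟩ := hs.exists_ne_zero hij hu hu0
  have hz' := (D j).smul_mem (B u z)⁻¹ hz
  have e1 : B u ((B u z)⁻¹ • z) = 1 := by simp [hz0]
  generalize (B u z)⁻¹ • z = f at hz' e1
  have e2 : B f u = 1 := by rw [← h.symm, e1, map_one]
  obtain ⟨k, hk, hdet, hkx⟩ := h.exists_hypScale (hs.sing i _ hu _ hu) (hs.sing j _ hz' _ hz') e1 hl
  refine ⟨k, hk, hdet, ?_, ?_, fun t x hx => ?_⟩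
  · rw [hkx, e2, hs.sing i _ hu _ hu]; module
  · rw [hkx, huw, hs.sing j _ hz' _ hw]; simp
  rw [hkx]
  by_cases ht : t = i
  · subst ht
    simpa [hs.sing t u hu x hx] using (D t).add_mem hx ((D t).smul_mem _ hu)
  · obtain rfl : t = j := by omega
    simpa [hs.sing t f hz' x hx] using (D t).add_mem hx ((D t).smul_mem _ hz')

theorem Has2.scale [Finite F] (h : IsHerm B) (hs : SingPair B D π)
    (hM : ∀ e : V ≃ₗ[F] V, StabD D e → e ∈ sisom B → e ∈ M) {i j : Fin 2} (hij : i ≠ j) {u w : V}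
    (hu : u ∈ D i) (hu0 : u ≠ 0) (hw : w ∈ D j) (hw0 : w ≠ 0) (huw : B u w = 0) {s r : F}
    (h2 : Has2 M B u w s r) {α κ : F} (hα : σ α = α) (hα0 : α ≠ 0) (hκ : σ κ = κ) (hκ0 : κ ≠ 0) :
    Has2 M B u w (α * s) (κ ^ 2 / α * r) := by
  obtain ⟨l, hl⟩ := exists_norm_eq' h.ne_id h.invol hα
  have hl0 : l ≠ 0 := by rintro rfl; exact hα0 (by simpa using hl.symm)
  have hl1 := h.conj_ne_zero hl0
  obtain ⟨k, k1, k2, k3, k4, k5⟩ := exists_scale h hs hij hu hu0 hw huw hl0
  obtain ⟨k', k1', k2', k3', k4', k5'⟩ := exists_scale h hs hij.symm hw hw0 hu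
    (h.eq_zero_comm.1 huw) (div_ne_zero hκ0 hl0)
  have hk : k * k' ∈ sisom B := mem_sisom.2 ⟨mul_mem k1 k1', by
    rw [map_mul, ← Units.val_inj, Units.val_mul, k2, k2', map_div₀, hκ, Units.val_one]
    field_simp⟩
  have := h2.conj (hM _ (StabD.of_fix fun t x hx => k5 t (k' x) (k5' t x hx)) hk) hk.1
  rw [LinearEquiv.mul_apply, LinearEquiv.mul_apply, k4', k3, k3', map_smul, k4] at this
  convert this.of_smul using 2
  · exact hl.symm
  · rw [map_div₀, hκ, ← hl]; field_simp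

theorem full_of_has2 [Finite F] (h : IsHerm B) (hs : SingPair B D π)
    (hM : ∀ e : V ≃ₗ[F] V, StabD D e → e ∈ sisom B → e ∈ M) {κ : F} (hκ : σ κ = κ) (hκ0 : κ ≠ 0)
    (hκ1 : κ ^ 2 ≠ 1) {i j : Fin 2} (hij : i ≠ j) {u w : V}
    (hu : u ∈ D i) (hu0 : u ≠ 0) (hw : w ∈ D j) (hw0 : w ≠ 0) (huw : B u w = 0) {s r : F}
    (h2 : Has2 M B u w s r) (hr : r + σ r = 0) (hr0 : r ≠ 0) : FullU M B w := by
  have uu := hs.sing i _ hu _ hu
  have ww := hs.sing j _ hw _ hw
  have h3 := (h2.scale h hs hM hij hu hu0 hw hw0 huw (map_one σ) one_ne_zero hκ hκ0).sub uu ww huw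
    (h.eq_zero_comm.1 huw) h2
  have r1 : σ r = -r := by linear_combination hr
  have k1 : κ ^ 2 - 1 ≠ 0 := sub_ne_zero.2 hκ1
  refine ⟨ww, fun c hc => ?_⟩
  by_cases hc0 : c = 0
  · exact ⟨1, M.one_mem, by simp [hc0]⟩
  have c1 : σ c = -c := by linear_combination hc
  obtain ⟨e, he, hx⟩ := h3.scale h hs hM hij hu hu0 hw hw0 huw (α := (κ ^ 2 - 1) * r / c)
    (by rw [map_div₀, map_mul, map_sub, map_pow, hκ, r1, c1, map_one]; field_simp)
    (div_ne_zero (mul_ne_zero k1 hr0) hc0) (map_one σ) one_ne_zero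
  refine ⟨e, he, fun x => ?_⟩
  rw [hx, show 1 ^ 2 / ((κ ^ 2 - 1) * r / c) * (κ ^ 2 / 1 * r - r) = c by field_simp]
  simp

theorem exists_perp_mem (hm : ∀ i, finrank F (D i) = 2) (i : Fin 2) (u : V) :
    ∃ w ∈ D i, w ≠ 0 ∧ B u w = 0 := by
  obtain ⟨w, h1, h2, h3⟩ := exists_mem_notMem_ker [B u] (W := D i) (Z := ⊥) (by simp [hm])
  exact ⟨w, h1, by simpa using h2, h3 _ (by simp)⟩

theorem mem_span_of_perp (h : IsHerm B) (h4 : finrank F V = 4) {a b x : V}
    (hli : LinearIndependent F ![a, b]) (haa : B a a = 0) (hbb : B b b = 0) (hab : B a b = 0)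
    (h1 : B a x = 0) (h2 : B b x = 0) : ∃ s t : F, s • a + t • b = x := by
  have e1 := finrank_span_eq_card hli
  rw [Matrix.range_cons_cons_empty] at e1
  have e2 := h.finrank_add_finrank_perp (Submodule.span F {a, b})
  have e3 : Submodule.span F {a, b} ≤ perp B (Submodule.span F {a, b}) := by
    rw [Submodule.span_le]
    rintro _ (rfl | rfl) <;> simp [mem_perp_pair, haa, hbb, hab, h.eq_zero_comm.1 hab]
  rw [← Submodule.mem_span_pair, Submodule.eq_of_le_of_finrank_le e3 (by simp at e1; omega)]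
  exact mem_perp_pair.2 ⟨h1, h2⟩

omit [FiniteDimensional F V] in
theorem exists_skew_iso [Finite F] (h : IsHerm B) {s r c : F} (hs : s + σ s = 0) (hr : r + σ r = 0) :
    ∃ x y : F, (x ≠ 0 ∨ y ≠ 0) ∧ σ x * x * s + σ x * y * c - σ y * x * σ c + σ y * y * r = 0 := by
  by_cases h0 : s = 0
  · exact ⟨1, 0, Or.inl one_ne_zero, by simp [h0]⟩
  have s1 : σ s = -s := by linear_combination hs
  have r1 : σ r = -r := by linear_combination hr
  obtain ⟨z, hz⟩ := exists_norm_eq' h.ne_id h.invol (μ := -(r + c * σ c / s) / s) (by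
    simp only [map_div₀, map_neg, map_add, map_mul, h.invol, s1, r1]; field_simp; ring)
  refine ⟨z - c / s, 1, Or.inr one_ne_zero, ?_⟩
  simp only [map_sub, map_div₀, map_one, s1]
  field_simp at hz ⊢
  linear_combination hz

theorem su_pair_maximal2 [Finite F] (h : IsHerm B) (hs : SingPair B D π) (h4 : finrank F V = 4)
    (hm : ∀ i, finrank F (D i) = 2) {κ : F} (hκ : σ κ = κ) (hκ0 : κ ≠ 0) (hκ1 : κ ^ 2 ≠ 1)
    (hM : ∀ e : V ≃ₗ[F] V, StabD D e → e ∈ sisom B → e ∈ M)
    {g : V ≃ₗ[F] V} (hg : g ∈ M) (hgB : g ∈ isom B) (hns : ¬ StabD D g) :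
    ∀ e ∈ sisom B, e ∈ M := by
  by_contra hc
  have small : ∀ i j, i ≠ j → ∀ u ∈ D i, u ≠ 0 → ∀ w ∈ D j, w ≠ 0 → B u w = 0 → ∀ s r : F,
      s + σ s = 0 → r + σ r = 0 → Has2 M B u w s r → s = 0 ∧ r = 0 := by
    intro i j hij u hu hu0 w hw hw0 huw s r h1 h2 h3
    constructor <;> by_contra h0
    · exact hc (mem_of_full h hs hm hM hu hu0 (full_of_has2 h hs hM hκ hκ0 hκ1 hij.symm hw hw0 hu
        hu0 (h.eq_zero_comm.1 huw) h3.symm h1 h0))
    · exact hc (mem_of_full h hs hm hM hw hw0 (full_of_has2 h hs hM hκ hκ0 hκ1 hij hu hu0 hw hw0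
        huw h3 h2 h0))
  have rho : ∀ i j, i ≠ j → ∀ u ∈ D i, ∀ w ∈ D j, B u w = 0 → ∀ c : F, HasEich M B u (c • w) :=
    fun i j hij u hu w hw huw c => by
      obtain ⟨k, hk, -, hx⟩ := eich_mem h hs hM hij hu ((D j).smul_mem c hw) (by simp [huw])
      exact ⟨k, hk, hx⟩
  have main : ∀ i, ∀ u ∈ D i, g u ∈ D 0 ∨ g u ∈ D 1 := by
    intro i u hu
    by_cases hu0 : u = 0
    · simp [hu0]
    obtain ⟨j, hj⟩ := exists_ne i
    obtain ⟨w, hw, hw0, huw⟩ := exists_perp_mem (B := B) hm j u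
    have aa : B (g u) (g u) = 0 := (hgB u u).trans (hs.sing i u hu u hu)
    have bb : B (g w) (g w) = 0 := (hgB w w).trans (hs.sing j w hw w hw)
    have ab : B (g u) (g w) = 0 := (hgB u w).trans huw
    have ba := h.eq_zero_comm.1 ab
    have ρ : ∀ c : F, HasEich M B (g u) (c • g w) := fun c => by
      simpa using (rho i j hj.symm u hu w hw huw c).conj hg hgB
    have sm : ∀ s r : F, s + σ s = 0 → r + σ r = 0 → Has2 M B (g u) (g w) s r → s = 0 ∧ r = 0 :=
      fun s r h1 h2 h3 => small i j hj.symm u hu hu0 w hw hw0 huw s r h1 h2 (by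
        simpa using h3.conj (M.inv_mem hg) (Subgroup.inv_mem _ hgB))
    have li : LinearIndependent F ![g u, g w] := linearIndependent_pair_of_notMem
      (by simpa using hu0) fun h0 => by
        obtain ⟨c, hc⟩ := Submodule.mem_span_singleton.1 h0
        rw [← map_smul, g.injective.eq_iff] at hc
        exact hw0 (hs.proj.eq_zero_of_mem hj hw (hc ▸ (D i).smul_mem c hu))
    generalize g u = a at aa ab ba ρ sm li ⊢
    generalize g w = b at bb ab ba ρ sm li
    -- a point of the line whose two components are orthogonal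
    have sk : ∀ x y, B x y = 0 → B (π 1 x) (π 0 y) = -B (π 0 x) (π 1 y) := fun x y hxy => by
      rw [← hs.proj.add_two x, ← hs.proj.add_two y] at hxy
      simp only [map_add, LinearMap.add_apply, hs.sing 0 _ (hs.proj.mem 0 _) _ (hs.proj.mem 0 _),
        hs.sing 1 _ (hs.proj.mem 1 _) _ (hs.proj.mem 1 _)] at hxy
      linear_combination hxy
    obtain ⟨x, y, hxy, hp⟩ := exists_skew_iso h (s := B (π 0 a) (π 1 a)) (r := B (π 0 b) (π 1 b))
      (c := B (π 0 a) (π 1 b)) (by rw [h.symm, sk a a aa]; ring) (by rw [h.symm, sk b b bb]; ring)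
    have hp' : B (π 0 (x • a + y • b)) (π 1 (x • a + y • b)) = 0 := by
      rw [h.symm, sk b a ba] at hp
      simp only [map_add, map_smul, LinearMap.add_apply, form_smul_left, smul_eq_mul]
      linear_combination hp
    have key : ∀ φ : V →ₗ[F] F, φ (x • a + y • b) = 0 → (∀ e, σ e = e → ∃ k ∈ M, k ∈ isom B ∧
        ∀ z, B (x • a + y • b) z = 0 → k z = z + (e * φ z) • (x • a + y • b)) →
        φ a = 0 ∧ φ b = 0 := by
      intro φ h1 h2
      have h3 : ∀ e, σ e = e → (1 + e * φ a * x) * (e * φ b * x) = 0 ∧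
          (e * φ a * y) * (1 + e * φ b * y) = 0 := fun e he => by
        obtain ⟨k, k1, k2, k3⟩ := h2 e he
        refine two_points h aa bb ab ρ sm fun c => ?_
        have := (ρ c).conj k1 k2
        rw [map_smul, k3 a (by simp [aa, ba]),
          k3 b (by simp [ab, bb])] at this
        convert this using 1
        · module
        · module
      obtain ⟨p1, p2⟩ := h3 1 (map_one σ)
      obtain ⟨p3, p4⟩ := h3 κ hκ
      have k1 : κ - 1 ≠ 0 := fun h0 => hκ1 (by rw [sub_eq_zero.1 h0]; simp)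
      have q1 : φ b * x = 0 := by
        refine mul_left_cancel₀ (mul_ne_zero hκ0 k1) ?_
        linear_combination κ ^ 2 * p1 - p3
      have q2 : φ a * y = 0 := by
        refine mul_left_cancel₀ (mul_ne_zero hκ0 k1) ?_
        linear_combination κ ^ 2 * p2 - p4
      simp only [map_add, map_smul, smul_eq_mul] at h1
      rcases hxy with h0 | h0
      · have q3 : φ b = 0 := (mul_eq_zero.1 q1).resolve_right h0
        exact ⟨by simpa [q3, h0] using h1, q3⟩
      · have q3 : φ a = 0 := (mul_eq_zero.1 q2).resolve_right h0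
        exact ⟨q3, by simpa [q3, h0] using h1⟩
    have pa : B (x • a + y • b) a = 0 := by simp [aa, ba]
    have pb : B (x • a + y • b) b = 0 := by simp [ab, bb]
    have p0 : x • a + y • b ≠ 0 := fun h0 => by
      have := LinearIndependent.pair_iff.1 li x y h0
      tauto
    generalize x • a + y • b = p at hp' key pa pb p0
    have m0 := hs.proj.mem 0 p
    have m1 := hs.proj.mem 1 p
    have ep := hs.proj.add_two p
    obtain ⟨u', hu', hu0', w', hw', hw0', q1, q2, q3, q4⟩ : ∃ u' ∈ D 0, u' ≠ 0 ∧ ∃ w' ∈ D 1,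
        w' ≠ 0 ∧ B u' a = 0 ∧ B u' b = 0 ∧ B w' a = 0 ∧ B w' b = 0 := by
      by_cases h1 : π 1 p = 0
      · rw [h1, add_zero] at ep
        rw [ep] at m0
        obtain ⟨w', hw', hw0', e1⟩ := exists_perp_mem (B := B) hm 1 p
        have := key (B w') (h.eq_zero_comm.1 e1) fun e he => by
          obtain ⟨k, k1, k2, k3⟩ := eich_mem h hs hM (i := 0) (j := 1) (by simp) m0
            ((D 1).smul_mem e hw') (by simp [e1])
          exact ⟨k, k1, k2, fun z hz => by simp [k3, hz, he]⟩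
        exact ⟨p, m0, p0, w', hw', hw0', pa, pb, this⟩
      by_cases h0 : π 0 p = 0
      · rw [h0, zero_add] at ep
        rw [ep] at m1
        obtain ⟨u', hu', hu0', e1⟩ := exists_perp_mem (B := B) hm 0 p
        have := key (B u') (h.eq_zero_comm.1 e1) fun e he => by
          obtain ⟨k, k1, k2, k3⟩ := eich_mem h hs hM (i := 1) (j := 0) (by simp) m1
            ((D 0).smul_mem e hu') (by simp [e1])
          exact ⟨k, k1, k2, fun z hz => by simp [k3, hz, he]⟩
        exact ⟨u', hu', hu0', p, m1, p0, this.1, this.2, pa, pb⟩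
      have e1 : ∀ z, B p z = 0 → B (π 0 p) z = -B (π 1 p) z := fun z hz => by
        rw [← ep, map_add, LinearMap.add_apply] at hz
        linear_combination hz
      have := key (B (π 1 p)) (by
        nth_rewrite 2 [← ep]
        rw [map_add, h.eq_zero_comm.1 hp', hs.sing 1 _ m1 _ m1, add_zero]) fun e he => by
          obtain ⟨k, k1, k2, k3⟩ := eich_mem h hs hM (i := 0) (j := 1) (by simp) m0
            ((D 1).smul_mem e m1) (by simp [hp'])
          refine ⟨k, k1, k2, fun z hz => ?_⟩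
          rw [k3, e1 z hz, form_smul_left, he]
          nth_rewrite 6 [← ep]
          module
      exact ⟨_, m0, h0, _, m1, h1, by rw [e1 a pa, this.1, neg_zero],
        by rw [e1 b pb, this.2, neg_zero], this⟩
    obtain ⟨α, β, rfl⟩ := mem_span_of_perp h h4 li aa bb ab (h.eq_zero_comm.1 q1)
      (h.eq_zero_comm.1 q2)
    obtain ⟨γ, δ, rfl⟩ := mem_span_of_perp h h4 li aa bb ab (h.eq_zero_comm.1 q3)
      (h.eq_zero_comm.1 q4)
    obtain ⟨r1, r2⟩ := two_points h aa bb ab ρ sm (rho 0 1 (by simp) _ hu' _ hw'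
      (by simp [aa, bb, ab, ba]))
    have dis : ∀ z ∈ D 0, z ∈ D 1 → z = 0 := fun z => hs.proj.eq_zero_of_mem (by simp)
    by_cases hα : α = 0
    · have hβ : β ≠ 0 := by rintro rfl; simp [hα] at hu0'
      have hδ : δ = 0 := (mul_eq_zero.1 r2).resolve_left hβ
      have hγ : γ ≠ 0 := by rintro rfl; simp [hδ] at hw0'
      right
      simpa [hδ, Submodule.smul_mem_iff _ hγ] using hw'
    · have hγ : γ = 0 := (mul_eq_zero.1 r1).resolve_left hα
      have hδ : δ ≠ 0 := by rintro rfl; simp [hγ] at hw0'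
      have hβ : β = 0 := (mul_eq_zero.1 r2).resolve_right hδ
      left
      simpa [hβ, Submodule.smul_mem_iff _ hα] using hu'
  have le : ∀ i, (D i).map (g : V →ₗ[F] V) ≤ D 0 ∨ (D i).map (g : V →ₗ[F] V) ≤ D 1 := fun i =>
    le_or_le_of_forall_mem (by rintro _ ⟨u, hu, rfl⟩; exact main i u hu)
  have ne : ∀ t, (D 0).map (g : V →ₗ[F] V) ≤ D t → ¬ (D 1).map (g : V →ₗ[F] V) ≤ D t := by
    intro t h0 h1
    have : (⊤ : Submodule F V) ≤ D t := fun v _ => by
      obtain ⟨v, rfl⟩ := g.surjective v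
      rw [← hs.proj.add_two v, map_add]
      exact add_mem (h0 ⟨_, hs.proj.mem 0 v, rfl⟩) (h1 ⟨_, hs.proj.mem 1 v, rfl⟩)
    have := Submodule.finrank_mono this
    rw [finrank_top, hm] at this
    omega
  refine hns ?_
  rcases le 0 with h0 | h0
  · refine StabD.of_fix fun i v hv => ?_
    fin_cases i
    · exact h0 ⟨v, hv, rfl⟩
    · exact ((le 1).resolve_left (ne 0 h0)) ⟨v, hv, rfl⟩
  · refine IsProj.stabD_of_le hm g (Equiv.swap 0 1) fun i v hv => ?_
    fin_cases i
    · exact h0 ⟨v, hv, rfl⟩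
    · exact ((le 1).resolve_right (ne 1 h0)) ⟨v, hv, rfl⟩

omit [FiniteDimensional F V] in
theorem exists_fixed_sq_ne_one [Fintype F] {q : ℕ} (hF : Fintype.card F = q ^ 2) (hq : 4 ≤ q) :
    ∃ κ : F, frob hF κ = κ ∧ κ ≠ 0 ∧ κ ^ 2 ≠ 1 := by
  classical
  by_contra! hc
  have h1 := card_fixed hF
  have h2 : Nat.card {x : F // x ^ q = x} ≤ ({0, 1, -1} : Finset F).card := by
    rw [← Nat.card_eq_finsetCard]
    refine Nat.card_le_card_of_injective (fun x => ⟨x.1, ?_⟩) fun x y hxy =>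
      Subtype.ext (Subtype.mk.inj hxy)
    by_cases h0 : x.1 = 0
    · simp [h0]
    · simpa [h0] using hc x.1 x.2 h0
  have h3 : ({0, 1, -1} : Finset F).card ≤ 3 := Finset.card_le_three
  omega

universe u

theorem jobU5 : H13.L4.JobU5.{u} := by
  intro F _ _ q hF hq D hD hts
  have h := isHerm_uForm hF 4
  obtain ⟨π, hp⟩ := exists_isProj hD.indep hD.iSup_eq_top
  have hs := singPair_of_herm h hp fun i u hu v hv => by
    rw [← hermForm_eq]; exact hts i v hv u hu
  obtain ⟨κ, k1, k2, k3⟩ := exists_fixed_sq_ne_one hF hq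
  refine isMaximalIn_of_toLE (StabD D) (· ∈ sisom (uForm hF 4)) (mem_su_iff hF)
    (fun g => and_congr (mem_decompositionStabilizer_iff D g) (mem_su_iff hF g)) ?_
    fun M hM hle g hg hns => su_pair_maximal2 h hs (by simp) hD.finrank_eq k1 k2 k3 hM hg
      (hle g hg).1 hns
  obtain ⟨u, hu, hu0⟩ := exists_mem_notMem (W := D 0) (Z := ⊥) (by simp [hD.finrank_eq])
  obtain ⟨w, hw, hw0⟩ := hs.exists_ne_zero (j := 1) (by simp) hu (by simpa using hu0)
  obtain ⟨d, hd0, hd⟩ := exists_trace_zero_ne_zero h.ne_id h.invol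
  obtain ⟨e, he, hex⟩ := h.exists_transv (hs.sing 1 w hw w hw) hd
  refine ⟨e, axisGrp_le_sisom (hs.sing 1 w hw w hw) he,
    hp.not_stabD hu (j := 0) (k := 1) (by simp) ?_ ?_⟩
  · simpa [hex, hp.of_mem hu, hp.of_ne 0 1 (by simp) w hw] using hu0
  · have : w ≠ 0 := by rintro rfl; simp at hw0
    have h2 : uForm hF 4 w u ≠ 0 := fun h' => hw0 (h.eq_zero_comm.1 h')
    simp [hex, hp.of_mem hw, hp.of_ne 1 0 (by simp) u hu, this, hd0, h2]

end H58.SU4
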