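import Cfsg.Agent.H13.SL4Spec

set_option autoImplicit false

/-! Rational structures on unitary `4`-spaces (odd index subfield): unipotent elements. -/

namespace H58.SU4

open Module H59 H62

variable {F₀ F V₀ V : Type*} [Field F₀] [Field F] [Algebra F₀ F] [AddCommGroup V₀] [Module F₀ V₀]
  [AddCommGroup V] [Module F V] [Module F₀ V] [IsScalarTower F₀ F V] {j : V₀ →ₗ[F₀] V}
  {σ : F →+* F} {M : Subgroup (V ≃ₗ[F] V)} {B : V →ₛₗ[σ] V →ₗ[F] F}

/-- A unitary space with a rational structure on which the form is rational. -/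
structure URat4 (j : V₀ →ₗ[F₀] V) (B : V →ₛₗ[σ] V →ₗ[F] F) (M : Subgroup (V ≃ₗ[F] V)) : Prop where
  bc : IsBaseChange F j
  herm : IsHerm B
  sig : ∀ c ∈ ratF F₀ F, σ c ∈ ratF F₀ F
  rat : ∀ x ∈ LinearMap.range j, ∀ y ∈ LinearMap.range j, B x y ∈ ratF F₀ F
  tr : ∀ c ∈ ratF F₀ F, σ c = c → ∃ a ∈ ratF F₀ F, a + σ a = c
  iso : ∀ W : Submodule F₀ V₀, 2 ≤ finrank F₀ W → ∃ x ∈ W, x ≠ 0 ∧ B (j x) (j x) = 0
  le : ∀ e ∈ subf F j, e ∈ sisom B → e ∈ M
  h4 : finrank F₀ V₀ = 4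
  om : ∃ ω ∈ ratF F₀ F, σ ω ≠ ω

namespace URat4

variable [FiniteDimensional F₀ V₀] [Finite F₀]

omit [Finite F₀] in
theorem ex_of (h : URat4 j B M) {k : ℕ} {p : V → Prop}
    (hp : ∀ W : Submodule F₀ V₀, k ≤ finrank F₀ W → ∃ x ∈ W, x ≠ 0 ∧ p (j x)) (L : List V)
    (hL : ∀ v ∈ L, v ∈ LinearMap.range j) (W : Submodule F V)
    (hd : finrank F W + L.length + k ≤ 4) :
    ∃ z ∈ LinearMap.range j, z ∉ W ∧ (∀ v ∈ L, B v z = 0) ∧ p z := by
  choose φ hφ using fun v : {v // v ∈ L} =>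
    exists_dual_of_rat (j := j) (φ := B v) fun x => h.rat _ (hL v v.2) _ ⟨x, rfl⟩
  obtain ⟨x, h1, h2, h3⟩ := exists_notMem_ker_of hp (L.attach.map φ)
    ((W.restrictScalars F₀).comap j) (by
      have := finrank_comap_le h.bc W
      have := h.h4
      simp; omega)
  exact ⟨j x, ⟨x, rfl⟩, h1, fun v hv => by
    rw [← hφ ⟨v, hv⟩, h2 _ (List.mem_map_of_mem (List.mem_attach _ _)), map_zero], h3⟩

theorem exists_rep (h : URat4 j B M) (φ : Dual F₀ V₀) :
    ∃ b ∈ LinearMap.range j, B b = h.bc.toDual φ := by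
  have : Finite V₀ := Module.finite_of_finite F₀
  have : Finite (Dual F₀ V₀) := Module.finite_of_finite F₀
  choose ψ hψ using fun x =>
    exists_dual_of_rat (j := j) (φ := B (j x)) fun y => h.rat _ ⟨x, rfl⟩ _ ⟨y, rfl⟩
  have e : ∀ x, B (j x) = h.bc.toDual (ψ x) := fun x =>
    h.bc.algHom_ext _ _ fun y => by rw [h.bc.toDual_comp_apply, hψ]
  obtain ⟨x, rfl⟩ := (Function.Injective.bijective_of_nat_card_le (f := ψ) (fun x y hxy =>
    rat_inj h.bc (sub_eq_zero.1 (h.herm.nondeg _ fun v => by simp [e, hxy]))) (by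
      rw [Module.natCard_eq_pow_finrank (K := F₀), Module.natCard_eq_pow_finrank (K := F₀) (V := V₀),
        Subspace.dual_finrank_eq])).2 φ
  exact ⟨_, ⟨x, rfl⟩, e x⟩

theorem ex_dual (h : URat4 j B M) {z : V} (hz : z ∈ LinearMap.range j) {S : Set V}
    (hS : ∀ v ∈ S, v ∈ LinearMap.range j) (hzS : z ∉ Submodule.span F S) :
    ∃ b ∈ LinearMap.range j, B b z = 1 ∧ ∀ v ∈ S, B b v = 0 := by
  obtain ⟨x, rfl⟩ := hz
  obtain ⟨φ, p1, p0⟩ := exists_dual_eq_one
    (W := ((Submodule.span F S).restrictScalars F₀).comap j) (x := x) hzS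
  obtain ⟨b, hb, e⟩ := h.exists_rep φ
  refine ⟨b, hb, by simp [e, h.bc.toDual_comp_apply, p1], fun v hv => ?_⟩
  obtain ⟨y, rfl⟩ := hS v hv
  simp [e, h.bc.toDual_comp_apply, p0 y (Submodule.subset_span hv)]

theorem exists_sub (h : URat4 j B M) {v w : V} (hw : w ∈ LinearMap.range j) (hw0 : w ≠ 0)
    (hv : ∀ b ∈ LinearMap.range j, B w b = 0 → B b v ∈ ratF F₀ F) :
    ∃ c : F, v - c • w ∈ LinearMap.range j := by
  obtain ⟨w, rfl⟩ := hw
  refine exists_sub_mem_range h.bc (by rintro rfl; simp at hw0) fun φ hφ => ?_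
  obtain ⟨b, hb, e⟩ := h.exists_rep φ
  exact e ▸ hv b hb (h.herm.eq_zero_comm.1 (by simp [e, h.bc.toDual_comp_apply, hφ]))

omit [FiniteDimensional F₀ V₀] [Finite F₀] in
theorem exists_iso_sub (h : URat4 j B M) {a f : V} (ha : a ∈ LinearMap.range j) (haa : B a a = 0)
    (hf : f ∈ LinearMap.range j) (haf : B a f ≠ 0) :
    ∃ s ∈ ratF F₀ F, B (f - s • a) (f - s • a) = 0 := by
  obtain ⟨t, ht, e⟩ := h.tr _ (h.rat f hf f hf) (h.herm.self_fixed f)
  have h1 : B f a ≠ 0 := fun h0 => haf (h.herm.eq_zero_comm.1 h0)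
  refine ⟨t / B f a, div_mem ht (h.rat f hf a ha), ?_⟩
  simp only [map_sub, LinearMap.sub_apply, form_smul_left, map_smul, haa, smul_eq_mul, map_div₀,
    h.herm.symm, ← e]
  field_simp
  ring

theorem ex_partner (h : URat4 j B M) {z : V} (hz : z ∈ LinearMap.range j) (hzz : B z z = 0)
    {S : Set V} (hS : ∀ v ∈ S, v ∈ LinearMap.range j) (hS' : ∀ v ∈ S, B z v = 0)
    (hzS : z ∉ Submodule.span F S) :
    ∃ b ∈ LinearMap.range j, B b b = 0 ∧ B b z = 1 ∧ B z b = 1 ∧ ∀ v ∈ S, B b v = 0 := by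
  obtain ⟨b, hb, p1, p0⟩ := h.ex_dual hz hS hzS
  have p2 : B z b = 1 := by rw [← h.herm.symm, p1, map_one]
  obtain ⟨s, hs, e⟩ := h.exists_iso_sub hz hzz hb (by simp [p2])
  exact ⟨_, sub_mem hb (smul_mem_range hs hz), e, by simp [p1, hzz], by simp [p2, hzz],
    fun v hv => by simp [p0 v hv, hS' v hv]⟩

theorem mem_of_iso (h : URat4 j B M) {w a : V} (hw : w ∈ LinearMap.range j)
    (ha : a ∈ LinearMap.range j) (haa : B a a = 0) (hwa : B w a = 0) (haw : a ∉ F ∙ w)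
    {T : Submodule F₀ V} (haT : a ∈ T)
    (hT : ∀ z ∈ LinearMap.range j, B z z = 0 → B w z = 0 → B z a ≠ 0 → z ∈ T) :
    ∀ f ∈ LinearMap.range j, B w f = 0 → f ∈ T := by
  have key : ∀ f ∈ LinearMap.range j, B w f = 0 → B a f ≠ 0 → f ∈ T := fun f hf h1 h2 => by
    obtain ⟨s, hs, e⟩ := h.exists_iso_sub ha haa hf h2
    have := hT _ (sub_mem hf (smul_mem_range hs ha)) e (by simp [h1, hwa])
      (by simpa [haa, h.herm.eq_zero_comm (x := f)] using h2)
    obtain ⟨s, rfl⟩ := hs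
    rwa [algebraMap_smul, T.sub_mem_iff_left (T.smul_mem _ haT)] at this
  obtain ⟨b, hb, -, -, p1, p0⟩ := h.ex_partner ha haa (S := {w}) (by simpa)
    (by simpa using h.herm.eq_zero_comm.1 hwa) haw
  have p2 : B w b = 0 := h.herm.eq_zero_comm.1 (p0 w rfl)
  intro f hf h1
  by_cases h2 : B a f = 0
  · exact (T.add_mem_iff_left (key b hb p2 (by simp [p1]))).1
      (key _ (add_mem hf hb) (by simp [h1, p2]) (by simp [h2, p1]))
  · exact key f hf h1 h2

variable {w y : V}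

theorem ue_mem (h : URat4 j B M) (hw : w ∈ LinearMap.range j) (hy : y ∈ LinearMap.range j) {a : F}
    (ha : a ∈ ratF F₀ F) {e : V ≃ₗ[F] V}
    (he : ∀ x, e x = x + B y x • w - B w x • y - (a * B w x) • w) : e ∈ subf F j := by
  have : Finite V₀ := Module.finite_of_finite F₀
  refine mem_subf_of (rat_inj h.bc) one_ne_zero fun x => ?_
  have hx : j x ∈ LinearMap.range j := ⟨x, rfl⟩
  rw [one_smul, he]
  exact sub_mem (sub_mem (add_mem hx (smul_mem_range (h.rat _ hy _ hx) hw))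
    (smul_mem_range (h.rat _ hw _ hx) hy)) (smul_mem_range (mul_mem ha (h.rat _ hw _ hx)) hw)

theorem exists_ue (h : URat4 j B M) (hw : w ∈ LinearMap.range j) (hww : B w w = 0)
    (hy : y ∈ LinearMap.range j) (hwy : B w y = 0) : ∃ a ∈ ratF F₀ F, a + σ a = B y y ∧
      ∃ e ∈ M, e ∈ isom B ∧ ∀ x, e x = x + B y x • w - B w x • y - (a * B w x) • w := by
  have := rat_finite h.bc
  obtain ⟨a, ha, e⟩ := h.tr _ (h.rat y hy y hy) (h.herm.self_fixed y)
  obtain ⟨g, hg, hx⟩ := h.herm.exists_eichler hww hwy e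
  exact ⟨a, ha, e, g, h.le g (h.ue_mem hw hy ha hx) hg, hg.1, hx⟩

theorem mem_addUE (h : URat4 j B M) (hw : w ∈ LinearMap.range j) (hww : B w w = 0)
    (hy : y ∈ LinearMap.range j) (hwy : B w y = 0) : y ∈ addUE M h.herm hww := by
  obtain ⟨a, -, ha, e, h1, -, h2⟩ := h.exists_ue hw hww hy hwy
  exact ⟨hwy, a, ha, e, h1, h2⟩

theorem exists_map (h : URat4 j B M) {w' : V} (hw : w ∈ LinearMap.range j) (hww : B w w = 0)
    (hw0 : w ≠ 0) (hw' : w' ∈ LinearMap.range j) (hww' : B w' w' = 0) (hw0' : w' ≠ 0) :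
    ∃ k ∈ M, k ∈ subf F j ∧ k ∈ isom B ∧ k w = w' := by
  have := rat_finite h.bc
  have H := h.herm
  have step : ∀ w ∈ LinearMap.range j, B w w = 0 → ∀ w' ∈ LinearMap.range j, B w' w' = 0 →
      B w w' = 0 → w ≠ 0 → w' ∉ F ∙ w → ∃ k ∈ M, k ∈ subf F j ∧ k ∈ isom B ∧ k w = w' := by
    intro w hw hww w' hw' hww' h0 hw0 h1
    obtain ⟨b, hb, p1, p0⟩ := h.ex_dual hw' (S := {w}) (by simpa) h1
    obtain ⟨b', hb', q1, q0⟩ := h.ex_dual hw (S := {w'}) (by simpa) (notMem_span_symm hw0 h1)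
    have p2 := p0 w rfl
    obtain ⟨s, hs, e⟩ := h.exists_iso_sub hw hww (add_mem hb hb') (by
      simp [← H.symm _ w, p2, q1])
    have hz := sub_mem (add_mem hb hb') (smul_mem_range hs hw)
    have z1 : B (b + b' - s • w) w = 1 := by simp [p2, q1, hww]
    obtain ⟨a, k, hk, ha, -, -, h3, hx⟩ := exists_ue_map H e (v := w) (v' := w')
      (by rw [z1]; exact one_ne_zero)
      (by simp [p1, p2, q1, q0 w' rfl, hww, h0]) (hww'.trans hww.symm)
    rw [z1, inv_one, one_smul] at hx ha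
    have := h.ue_mem hz (sub_mem hw hw') (ha ▸ mul_mem (one_mem _) (h.rat _ (sub_mem hw hw') _ hw)) hx
    exact ⟨k, h.le k this hk, this, hk.1, h3⟩
  have two : ∀ z ∈ LinearMap.range j, B z z = 0 → B w z = 0 → B w' z = 0 → z ∉ F ∙ w → z ∉ F ∙ w' →
      ∃ k ∈ M, k ∈ subf F j ∧ k ∈ isom B ∧ k w = w' := fun z hz h1 h2 h3 h4 h5 => by
    obtain ⟨k, a1, a2, a3, a4⟩ := step w hw hww z hz h1 h2 hw0 h4
    obtain ⟨k', b1, b2, b3, b4⟩ := step w' hw' hww' z hz h1 h3 hw0' h5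
    exact ⟨k'⁻¹ * k, mul_mem (inv_mem b1) a1, mul_mem (inv_mem b2) a2, mul_mem (inv_mem b3) a3,
      by simp [a4, ← b4]⟩
  by_cases h0 : B w w' = 0
  · by_cases h1 : w' ∈ F ∙ w
    · obtain ⟨z, hz, h2, h3, h4⟩ := h.ex_of h.iso (p := fun z => B z z = 0) [w] (by simpa) (F ∙ w)
        (by have := finrank_span_one_le (F := F) w; simp; omega)
      obtain ⟨c, rfl⟩ := Submodule.mem_span_singleton.1 h1
      exact two z hz h4 (h3 w (by simp)) (by simp [h3 w (by simp)]) h2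
        fun h5 => h2 ((Submodule.span_singleton_le_iff_mem _ _).2 h1 h5)
    · exact step w hw hww w' hw' hww' h0 hw0 h1
  obtain ⟨z, hz, h2, h3, h4⟩ := h.ex_of h.iso (p := fun z => B z z = 0) [w, w']
    (by simp [hw, hw', -LinearMap.mem_range]) ⊥ (by simp)
  have p1 := h3 w (by simp)
  have p2 := h3 w' (by simp)
  refine two z hz h4 p1 p2 (fun h5 => ?_) fun h5 => ?_ <;>
    obtain ⟨c, rfl⟩ := Submodule.mem_span_singleton.1 h5
  · simp [H.eq_zero_comm (x := w'), h0] at p2; simp [p2] at h2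
  · simp [h0] at p1; simp [p1] at h2

theorem hasU (h : URat4 j B M) {w : V} (hw : w ∈ LinearMap.range j) (hww : B w w = 0) {c : F}
    (hc : c ∈ ratF F₀ F) (hc' : c + σ c = 0) : HasU M B w c := by
  have := rat_finite h.bc
  obtain ⟨e, he, hx⟩ := h.herm.exists_transv hww hc'
  exact ⟨e, h.le e (h.ue_mem hw (zero_mem _) (neg_mem hc) fun x => by simp [hx])
    (axisGrp_le_sisom hww he), hx⟩

theorem exists_scale (h : URat4 j B M) {a : V} (hw : w ∈ LinearMap.range j) (hww : B w w = 0)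
    (ha : a ∈ LinearMap.range j) (hwa : B w a = 0) (hn : w ∉ F ∙ a) {l : F} (hl : l ∈ ratF F₀ F)
    (hl0 : l ≠ 0) : ∃ k ∈ isom B, k ∈ subf F j ∧ ((LinearEquiv.det k : Fˣ) : F) = l / σ l ∧
      k w = l • w ∧ k a = a := by
  have := rat_finite h.bc
  have : Finite V₀ := Module.finite_of_finite F₀
  obtain ⟨f, hf, p1, p2, p3, p4⟩ := h.ex_partner hw hww (S := {a}) (by simpa) (by simpa) hn
  obtain ⟨k, hk, hdet, hkx⟩ := h.herm.exists_hypScale hww p1 p3 hl0
  refine ⟨k, hk, mem_subf_of (rat_inj h.bc) one_ne_zero fun x => ?_, hdet, ?_, ?_⟩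
  · have hx : j x ∈ LinearMap.range j := ⟨x, rfl⟩
    rw [one_smul, hkx]
    exact add_mem (add_mem hx (smul_mem_range (mul_mem (sub_mem hl (one_mem _))
      (h.rat _ hf _ hx)) hw)) (smul_mem_range (mul_mem (sub_mem (inv_mem (h.sig _ hl)) (one_mem _))
      (h.rat _ hw _ hx)) hf)
  · rw [hkx, p2, hww]; module
  · rw [hkx, p4 a rfl, hwa]; simp

theorem smul_mem_addUE (h : URat4 j B M) (hw : w ∈ LinearMap.range j) (hww : B w w = 0)
    (hw0 : w ≠ 0) (hy : y ∈ addUE M h.herm hww) {a : V} (ha : a ∈ LinearMap.range j)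
    (haa : B a a = 0) (hwa : B w a = 0) {c : F} (hc : c ∈ ratF F₀ F) :
    (c * B a y) • a ∈ addUE M h.herm hww := by
  have := rat_finite h.bc
  have H := h.herm
  by_cases haw : a ∈ F ∙ w
  · obtain ⟨t, rfl⟩ := Submodule.mem_span_singleton.1 haw
    simp [hy.1]
  have r3 := H.eq_zero_comm.1 hwa
  have sq : ∀ κ ∈ ratF F₀ F, σ κ = κ → ∀ μ ∈ ratF F₀ F, ∀ s : F, s • a ∈ addUE M H hww →
      (κ * μ ^ 2 * s) • a ∈ addUE M H hww := by
    intro κ hκ hκ' μ hμ s hs
    by_cases h0 : κ = 0 ∨ μ = 0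
    · rcases h0 with rfl | rfl <;> simp
    push Not at h0
    have m1 := H.conj_ne_zero h0.2
    obtain ⟨k, k1, k2, k3, k4, k5⟩ := h.exists_scale hw hww ha hwa (notMem_span_symm hw0 haw)
      (h.sig _ hμ) m1
    obtain ⟨k', k1', k2', k3', k4', k5'⟩ := h.exists_scale ha haa hw r3 haw (mul_mem hκ hμ)
      (mul_ne_zero h0.1 h0.2)
    have hk : k * k' ∈ sisom B := mem_sisom.2 ⟨mul_mem k1 k1', by
      rw [map_mul, ← Units.val_inj, Units.val_mul, k3, k3', map_mul, hκ', H.invol, Units.val_one]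
      have := h0.1
      have := h0.2
      field_simp⟩
    obtain ⟨-, α, e1, e2⟩ := hs
    have := e2.conj (h.le _ (mul_mem k2 k2') hk) hk.1
    rw [LinearEquiv.mul_apply, LinearEquiv.mul_apply, k5', k4, map_smul, k4', map_smul, map_smul,
      k5] at this
    refine ⟨by simp [hwa], _, ?_, by
      convert this.of_smul H using 1
      rw [H.invol]; module⟩
    simp only [form_smul_left, map_smul, haa, smul_eq_mul, mul_zero, map_mul, H.invol] at e1 ⊢
    linear_combination σ μ * μ * e1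
  have tr : ∀ c ∈ ratF F₀ F, c + σ c ≠ 0 → ∀ s : F, s • a ∈ addUE M H hww →
      (c * s) • a ∈ addUE M H hww := fun c hc h0 s hs => by
    have q := add_mem hc (h.sig _ hc)
    have q1 : σ (c + σ c) = c + σ c := by rw [map_add, H.invol, add_comm]
    convert add_mem (sq _ (inv_mem q) (by rw [map_inv₀, q1]) c hc s hs)
      (sq _ (div_mem (mul_mem hc (h.sig _ hc)) q)
        (by rw [map_div₀, q1, map_mul, H.invol, mul_comm]) 1 (one_mem _) s hs) using 1
    rw [← add_smul]; congr 1; field_simp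
  have all : ∀ c ∈ ratF F₀ F, ∀ s : F, s • a ∈ addUE M H hww →
      (c * s) • a ∈ addUE M H hww := fun c hc s hs => by
    by_cases h0 : c + σ c = 0
    swap; · exact tr c hc h0 s hs
    obtain ⟨e, he, e1⟩ := h.tr 1 (one_mem _) (map_one σ)
    convert sub_mem (tr _ (add_mem hc he) (by
      rw [map_add, show c + e + (σ c + σ e) = 1 by linear_combination h0 + e1]
      exact one_ne_zero) s hs) (tr e he (by rw [e1]; exact one_ne_zero) s hs) using 1
    module
  obtain ⟨ω, hω, hω'⟩ := h.om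
  have hd : ω - σ ω ≠ 0 := sub_ne_zero.2 hω'.symm
  have hd' := sub_mem hω (h.sig _ hω)
  have tz : ω - σ ω + σ (ω - σ ω) = 0 := by simp [H.invol]
  obtain ⟨e, he, hx⟩ := h.hasU ha haa hd' tz
  have := apply_sub_mem_addUE H hww he (isom_of_utv H haa tz hx) (by simp [hx, r3]) hy
  rw [hx, add_sub_cancel_left] at this
  convert all _ (div_mem hc hd') _ this using 2
  field_simp

theorem good (h : URat4 j B M) (hw : w ∈ LinearMap.range j) (hww : B w w = 0) (hw0 : w ≠ 0)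
    (hy : y ∈ addUE M h.herm hww) {a : V} (ha : a ∈ LinearMap.range j) (haa : B a a = 0)
    (hwa : B w a = 0) (haw : a ∉ F ∙ w) :
    ∀ f ∈ LinearMap.range j, B w f = 0 → B a y • f ∈ addUE M h.herm hww := by
  let T : Submodule F₀ V :=
    { carrier := {f | ∀ c ∈ ratF F₀ F, (c * B a y) • f ∈ addUE M h.herm hww}
      zero_mem' := fun c _ => by simp
      add_mem' := fun h1 h2 c hc => by rw [smul_add]; exact add_mem (h1 c hc) (h2 c hc)
      smul_mem' := fun s f h1 c hc => by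
        rw [← algebraMap_smul F s f, smul_smul, mul_right_comm]
        exact h1 _ (mul_mem hc (alg_mem s)) }
  have haT : a ∈ T := fun c hc => h.smul_mem_addUE hw hww hw0 hy ha haa hwa hc
  intro f hf h1
  simpa using h.mem_of_iso hw ha haa hwa haw haT (fun z hz p1 p2 p3 c hc => by
    convert h.smul_mem_addUE hw hww hw0 (haT 1 (one_mem _)) hz p1 p2
      (div_mem hc (h.rat z hz a ha)) using 2
    simp only [map_smul, smul_eq_mul]; field_simp) f hf h1 1 (one_mem _)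

theorem exists_hyp (h : URat4 j B M) (hw : w ∈ LinearMap.range j) :
    ∃ a ∈ LinearMap.range j, ∃ a' ∈ LinearMap.range j, B a a = 0 ∧ B a' a' = 0 ∧ B a a' = 1 ∧
      B a' a = 1 ∧ B w a = 0 ∧ B w a' = 0 ∧ a ∉ F ∙ w := by
  obtain ⟨a, ha, h2, h3, h4⟩ := h.ex_of h.iso (p := fun z => B z z = 0) [w] (by simpa) (F ∙ w)
    (by have := finrank_span_one_le (F := F) w; simp; omega)
  have h5 := h3 w (by simp)
  obtain ⟨b, hb, p1, p2, p3, p4⟩ := h.ex_partner ha h4 (S := {w}) (by simpa)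
    (by simpa using h.herm.eq_zero_comm.1 h5) h2
  exact ⟨a, ha, b, hb, h4, p1, p3, p2, h5, h.herm.eq_zero_comm.1 (p4 w rfl), h2⟩

theorem hasU_of_good (h : URat4 j B M) (hw : w ∈ LinearMap.range j) (hww : B w w = 0) {s : F}
    (hs : ∀ f ∈ LinearMap.range j, B w f = 0 → s • f ∈ addUE M h.herm hww) :
    HasU M B w (s - σ s) := by
  obtain ⟨a, ha, a', ha', -, -, p1, p2, p3, p4, -⟩ := h.exists_hyp hw
  simpa [p1, p2] using hasU_of_mem_addUE h.herm hww (hs a ha p3) (h.mem_addUE hw hww ha' p4)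

theorem exists_partner (h : URat4 j B M) (hw : w ∈ LinearMap.range j) (hww : B w w = 0)
    (hw0 : w ≠ 0) : ∃ v ∈ LinearMap.range j, B v v = 0 ∧ B v w = 1 ∧ B w v = 1 := by
  obtain ⟨v, h1, h2, h3, h4, -⟩ := h.ex_partner hw hww (S := ∅) (by simp) (by simp) (by simpa)
  exact ⟨v, h1, h2, h3, h4⟩

theorem mem_of_good [Finite F] (h : URat4 j B M) (hw : w ∈ LinearMap.range j) (hww : B w w = 0)
    (hw0 : w ≠ 0) (hs : ∀ s : F, ∀ f ∈ LinearMap.range j, B w f = 0 → s • f ∈ addUE M h.herm hww) :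
    ∀ e ∈ sisom B, e ∈ M := by
  have := rat_finite h.bc
  have H := h.herm
  have full : FullU M B w := ⟨hww, fun c hc => by
    obtain ⟨x, rfl⟩ := exists_sub_eq_of_trace_zero H.ne_id H.invol hc
    exact h.hasU_of_good hw hww (hs x)⟩
  obtain ⟨v, hv, hvv, -, p2⟩ := h.exists_partner hw hww hw0
  have key : ∀ y (s : F), s • (y - B w y • v) ∈ addUE M H hww := fun y => by
    induction y using h.bc.inductionOn with
    | zero => simp
    | smul b x hx => intro a; convert hx (a * b) using 1; simp [smul_sub, smul_smul, mul_assoc]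
    | add x x' hx hx' =>
      intro a
      convert add_mem (hx a) (hx' a) using 1
      simp only [map_add]; module
    | tmul x =>
      exact fun a => hs a _ (sub_mem ⟨x, rfl⟩ (smul_mem_range (h.rat _ hw _ ⟨x, rfl⟩) hv))
        (by simp [p2])
  have big : ∀ y a, B w y = 0 → a + σ a = B y y → HasUE M B w y a := fun y a h1 h2 => by
    obtain ⟨-, a', h3, h4⟩ : y ∈ addUE M H hww := by simpa [h1] using key y 1
    simpa using h4.mul H (hasUE_zero.2 (full.2 (a' - a) (by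
      rw [map_sub]; linear_combination h3 - h2))) hww h1 (by simp)
  refine mem_of_forall_fullU H (Or.inl (by have := h.h4; rw [rat_finrank h.bc]; omega))
    fun p hp => ?_
  by_cases hp0 : p = 0
  · exact hp0 ▸ FullU.zero
  obtain ⟨w', hw', q1, q2⟩ : ∃ w' ∈ LinearMap.range j, B w' w' = 0 ∧ B p w' ≠ 0 := by
    by_contra! hc
    obtain ⟨a, ha, -, -, r1, -, -, -, r2, -, r3⟩ := h.exists_hyp hw
    have h1 := h.mem_of_iso hw ha r1 r2 r3 (T := (LinearMap.ker (B p)).restrictScalars F₀)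
      (hc a ha r1) fun z hz r _ _ => hc z hz r
    refine hp0 (H.nondeg p (LinearMap.congr_fun (h.bc.algHom_ext (B p) 0 fun x => ?_)))
    simpa [hc v hv hvv] using h1 _ (sub_mem ⟨x, rfl⟩ (smul_mem_range (h.rat _ hw _ ⟨x, rfl⟩) hv))
      (by simp [p2])
  obtain ⟨k, k1, -, k2, k3⟩ := h.exists_map hw' q1 (by rintro rfl; simp at q2) hw hww hw0
  obtain ⟨k', k1', -, k2', k3'⟩ := h.exists_map hw hww hw0 hv hvv (by rintro rfl; simp at p2)
  have q3 : B w (k p) ≠ 0 := by rw [← k3, k2]; exact fun h0 => q2 (H.eq_zero_comm.1 h0)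
  obtain ⟨a, e, he, -, r1, r2, r3, hx⟩ := exists_ue_map H hww (v := B w (k p) • v) (v' := k p)
    (by simpa [p2]) (by simp [p2]) (by simp [k2 p p, hp, hvv])
  obtain ⟨e', he', hx'⟩ := big _ a r1 r2
  obtain rfl : e = e' := LinearEquiv.ext fun x => (hx x).trans (hx' x).symm
  have := (r3 ▸ ((k3' ▸ full.conj k1' k2').smul H _).conj he' he.1).conj (inv_mem k1) (inv_mem k2)
  rwa [LinearEquiv.coe_inv, LinearEquiv.symm_apply_apply] at this

end URat4

end H58.SU4
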