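import Cfsg.Agent.H58.SU4R1
import Cfsg.Agent.H58.SU4P

set_option autoImplicit false

/-! Subfield subgroups of odd prime index are maximal in `SU₄(q)`. -/

namespace H58.SU4

open Module H59 H62

theorem mem_ratF_of_quadratic {F₀ F : Type*} [Field F₀] [Field F] [Algebra F₀ F]
    (hr : Odd (finrank F₀ F)) {ρ α β : F} (hα : α ∈ ratF F₀ F) (hβ : β ∈ ratF F₀ F)
    (h : ρ ^ 2 + β * ρ - α = 0) : ρ ∈ ratF F₀ F := by
  have : FiniteDimensional F₀ F := Module.finite_of_finrank_pos hr.pos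
  obtain ⟨α, rfl⟩ := hα
  obtain ⟨β, rfl⟩ := hβ
  have hi : IsIntegral F₀ ρ := Algebra.IsIntegral.isIntegral ρ
  have h1 := minpoly.degree_dvd hi
  have h2 := minpoly.natDegree_pos hi
  have h3 : (minpoly F₀ ρ).natDegree ≤ 2 := by
    have e : (Polynomial.C (1 : F₀) * Polynomial.X ^ 2 + Polynomial.C β * Polynomial.X +
        Polynomial.C (-α)).natDegree = 2 := Polynomial.natDegree_quadratic one_ne_zero
    rw [← e]
    refine Polynomial.natDegree_le_of_dvd (minpoly.dvd F₀ ρ ?_) fun h0 => ?_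
    · simpa [sub_eq_add_neg] using h
    · rw [h0] at e; simp at e
  have h4 : (minpoly F₀ ρ).natDegree ≠ 2 := fun h0 =>
    Nat.not_even_iff_odd.2 hr (even_iff_two_dvd.2 (h0 ▸ h1))
  exact minpoly.natDegree_eq_one_iff.1 (by omega)

section

variable {F₀ F V₀ V : Type*} [Field F₀] [Field F] [Algebra F₀ F] [AddCommGroup V₀] [Module F₀ V₀]
  [AddCommGroup V] [Module F V] [Module F₀ V] [IsScalarTower F₀ F V] {j : V₀ →ₗ[F₀] V}
  {σ : F →+* F} {M : Subgroup (V ≃ₗ[F] V)} {B : V →ₛₗ[σ] V →ₗ[F] F}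
  [FiniteDimensional F₀ V₀] [Finite F₀] {w y : V}

namespace URat4

theorem small_ue (h : URat4 j B M) (hs : URat.Small j h.herm M) (hw : w ∈ LinearMap.range j)
    (hww : B w w = 0) (hw0 : w ≠ 0) (hy : y ∈ addUE M h.herm hww) :
    ∃ c : F, y - c • w ∈ LinearMap.range j := by
  have key : ∀ z ∈ LinearMap.range j, B z z = 0 → B w z = 0 → B z y ∈ ratF F₀ F :=
    fun z hz p1 p2 => by
      by_cases h1 : z ∈ F ∙ w
      · obtain ⟨c, rfl⟩ := Submodule.mem_span_singleton.1 h1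
        simp [hy.1]
      exact hs w hw hw0 hww _ (h.good hw hww hw0 hy hz p1 p2 h1)
  let T : Submodule F₀ V :=
    { carrier := {f | B f y ∈ ratF F₀ F}
      zero_mem' := by simp
      add_mem' := fun {a b} h1 h2 => by
        change B (a + b) y ∈ ratF F₀ F
        rw [map_add]; exact add_mem h1 h2
      smul_mem' := fun s f h1 => by
        change B (s • f) y ∈ ratF F₀ F
        rw [← algebraMap_smul F s f, form_smul_left]
        exact mul_mem (h.sig _ (alg_mem s)) h1 }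
  obtain ⟨a, ha, -, -, r1, -, -, -, r2, -, r3⟩ := h.exists_hyp hw
  exact h.exists_sub hw hw0
    (h.mem_of_iso hw ha r1 r2 r3 (T := T) (key a ha r1 r2) fun z hz p1 p2 _ => key z hz p1 p2)

theorem hasU_all (h : URat4 j B M) (hw : w ∈ LinearMap.range j) (hww : B w w = 0) (hw0 : w ≠ 0)
    {c : F} (h1 : HasU M B w c) : ∀ z ∈ LinearMap.range j, B z z = 0 → HasU M B z c := by
  intro z hz hzz
  by_cases h0 : z = 0
  · exact ⟨1, M.one_mem, by simp [h0]⟩
  obtain ⟨k, k1, -, k2, k3⟩ := h.exists_map hw hww hw0 hz hzz h0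
  exact k3 ▸ h1.conj k1 k2

theorem small_u (h : URat4 j B M) (hs : URat.Small j h.herm M) (hw : w ∈ LinearMap.range j)
    (hww : B w w = 0) (hw0 : w ≠ 0) {c : F} (hc : c + σ c = 0) (h1 : HasU M B w c) :
    c ∈ ratF F₀ F := by
  obtain ⟨a, ha, a', ha', p1, p2, -, p3, p4, p5, p6⟩ := h.exists_hyp hw
  have all := h.hasU_all hw hww hw0 h1
  have h2 : -c • a ∈ addUE M h.herm hww := ⟨by simp [p4], -c, by simp [p1, ← neg_add, hc],
    HasUE.of_u h.herm hc (all _ (add_mem ha hw) (by simp [p1, p4, hww, h.herm.eq_zero_comm.1 p4]))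
      ((all a ha p1).neg p1) p4 p1⟩
  simpa [p3] using hs w hw hw0 hww _ (h.good hw hww hw0 h2 ha' p2 p5 fun h0 => by
    obtain ⟨t, rfl⟩ := Submodule.mem_span_singleton.1 h0
    simp [p4] at p3)

theorem mem_of_fix (h : URat4 j B M) (hs : URat.Small j h.herm M) (hM : ∀ e ∈ M, e ∈ sisom B)
    {d : V ≃ₗ[F] V} (hd : d ∈ M) (hw : w ∈ LinearMap.range j) (hww : B w w = 0) (hw0 : w ≠ 0)
    {c : F} (hdw : d w = c • w) : d ∈ subf F j := by
  have := rat_finite h.bc
  have : Finite V₀ := Module.finite_of_finite F₀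
  have H := h.herm
  have hB := (hM d hd).1
  have hc : σ c ≠ 0 := H.conj_ne_zero (by rintro rfl; simp [hw0] at hdw)
  obtain ⟨v, hv, p0, p1, p2⟩ := h.exists_partner hw hww hw0
  have h1 : B w (d v) = (σ c)⁻¹ := by
    have := hB w v
    rw [hdw, form_smul_left, p2] at this
    exact eq_inv_of_mul_eq_one_right this
  obtain ⟨a, t, ht, -, hy, ha, h2, htx⟩ := exists_ue_map H hww (v := d v) (v' := (σ c)⁻¹ • v)
    (by rw [h1]; exact inv_ne_zero hc) (by simp [h1, p2]) (by simp [hB v v, p0])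
  generalize (B w (d v))⁻¹ • (d v - (σ c)⁻¹ • v) = y at hy htx ha
  have tw : t w = w := by simp [htx, hww, H.eq_zero_comm.1 hy]
  have key : ∀ x ∈ LinearMap.range j, B w x = 0 → ∃ l ∈ LinearMap.range j, ∃ s : F,
      σ c • t (d x) = l + s • w := fun x hx q1 => by
    obtain ⟨_, -, q2, e, q3, -, q4⟩ := h.exists_ue hw hww hx q1
    have q5 : B w (σ c • d x) = 0 := by rw [map_smul, smul_eq_mul, ← form_smul_left, ← hdw, hB, q1]
    obtain ⟨s, hl⟩ := h.small_ue hs hw hww hw0 (y := σ c • d x) ⟨q5, _, by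
      simp only [map_mul, H.invol, form_smul_left, map_smul, hB x x, ← q2, smul_eq_mul]; ring,
      (hdw ▸ HasUE.conj hd hB ⟨e, q3, q4⟩).of_smul H⟩
    exact ⟨_, hl, s + B y (σ c • d x), by rw [← map_smul, htx, q5]; module⟩
  have hcc : σ c * c ∈ ratF F₀ F := by
    obtain ⟨a, ha, a', ha', -, -, r1, -, r2, r3, -⟩ := h.exists_hyp hw
    obtain ⟨l, hl, s, e⟩ := key a ha r2
    obtain ⟨l', hl', s', e'⟩ := key a' ha' r3
    have q1 : B w (l + s • w) = 0 := by
      rw [← e, ← tw, map_smul, ht.1, smul_eq_mul, ← form_smul_left, ← hdw, hB, r2]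
    have q2 : B w (l' + s' • w) = 0 := by
      rw [← e', ← tw, map_smul, ht.1, smul_eq_mul, ← form_smul_left, ← hdw, hB, r3]
    have q3 : B (l + s • w) (l' + s' • w) = σ c * c := by
      rw [← e, ← e', form_smul_left, map_smul, ht.1, hB, r1, H.invol]; simp [mul_comm]
    simp only [map_add, map_smul, hww, smul_zero, add_zero] at q1 q2
    simpa [← q3, q2, hww, H.eq_zero_comm.1 q1] using h.rat l hl l' hl'
  have hl : t * d ∈ subf F j := mem_subf_of (rat_inj h.bc) hc fun x => by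
    have hx : j x ∈ LinearMap.range j := ⟨x, rfl⟩
    have r1 := h.rat _ hw _ hx
    have r2 := h.rat _ hv _ hx
    obtain ⟨l, hl, s, e⟩ := key (j x - B w (j x) • v - B v (j x) • w)
      (sub_mem (sub_mem hx (smul_mem_range r1 hv)) (smul_mem_range r2 hw)) (by simp [p2, hww])
    have q1 : s = -B v l := by
      have := ht.1 (d v) (d (j x - B w (j x) • v - B v (j x) • w))
      rw [hB, h2, form_smul_left] at this
      have q2 := congrArg (B v) e
      simp only [map_sub, map_smul, p0, p1, smul_eq_mul, mul_zero, mul_one, sub_zero, sub_self,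
        mul_eq_zero, map_inv₀, H.invol, inv_eq_zero, map_add] at this q2
      rw [this.resolve_left fun h0 => hc (by simp [h0])] at q2
      linear_combination -q2
    have : σ c • (t * d) (j x) = l + s • w + B w (j x) • v + B v (j x) • (σ c * c) • w := by
      rw [← e]
      simp only [LinearEquiv.mul_apply, map_sub, map_smul, h2, hdw, tw]
      match_scalars <;> field_simp <;> ring
    rw [this, q1]
    exact add_mem (add_mem (add_mem hl (smul_mem_range (neg_mem (h.rat _ hv _ hl)) hw))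
      (smul_mem_range r1 hv)) (smul_mem_range r2 (smul_mem_range hcc hw))
  have htM : t ∈ M := by
    simpa using M.mul_mem (h.le _ hl (mul_mem ht (hM d hd))) (M.inv_mem hd)
  obtain ⟨s, hl'⟩ := h.small_ue hs hw hww hw0 (y := y) ⟨hy, a, ha, t, htM, htx⟩
  generalize hle : y - s • w = l at hl'
  obtain rfl : y = l + s • w := by rw [← hle]; abel
  have q1 : B w l = 0 := by simpa [hww] using hy
  obtain ⟨a', q2, q3, e, q4, -, q5⟩ := h.exists_ue hw hww hl' q1
  have q6 := h.small_u hs hw hww hw0 (by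
    simp only [map_add, LinearMap.add_apply, form_smul_left, map_smul, hww, q1,
      H.eq_zero_comm.1 q1, smul_eq_mul] at ha
    simp only [map_sub, map_add, H.invol]
    linear_combination q3 - ha)
    ((HasUE.of_add_smul ⟨t, htM, htx⟩).sub_u H ⟨e, q4, q5⟩ hww q1)
  have := h.ue_mem hw hl' (sub_mem q2 q6) (e := t) fun x => by
    simp only [htx, map_add, LinearMap.add_apply, form_smul_left]; module
  simpa using mul_mem (inv_mem this) hl

theorem mem_of_point (h : URat4 j B M) (hs : URat.Small j h.herm M) (hM : ∀ e ∈ M, e ∈ sisom B)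
    {d : V ≃ₗ[F] V} (hd : d ∈ M) (hw : w ∈ LinearMap.range j) (hww : B w w = 0) (hw0 : w ≠ 0)
    {c : F} (hc : c ≠ 0) (hdw : c • d w ∈ LinearMap.range j) : d ∈ subf F j := by
  obtain ⟨k, hk, hk', -, hkx⟩ := h.exists_map hdw (by simp [(hM d hd).1 w w, hww])
    (by simp [hc, hw0]) hw hww hw0
  simpa using mul_mem (inv_mem hk') (h.mem_of_fix hs hM (M.mul_mem hk hd) hw hww hw0 (c := c⁻¹)
    (by rw [eq_inv_smul_iff₀ hc, LinearEquiv.mul_apply, ← map_smul, hkx]))

theorem herm_maximal [Finite F] (h : URat4 j B M) (hr : (finrank F₀ F).Prime)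
    (hro : Odd (finrank F₀ F)) {ω : F}
    (hω : ω ∈ ratF F₀ F) (hω' : σ ω ≠ ω) (hM : ∀ e ∈ M, e ∈ sisom B) {g : V ≃ₗ[F] V} (hg : g ∈ M)
    (hns : g ∉ subf F j) : ∀ e ∈ sisom B, e ∈ M := by
  have := rat_finite h.bc
  have : Finite V := Module.finite_of_finite F
  have H := h.herm
  have gB := (hM g hg).1
  have hd : ω - σ ω ≠ 0 := sub_ne_zero.2 hω'.symm
  have hd' := sub_mem hω (h.sig _ hω)
  have tz : ∀ s, s - σ s + σ (s - σ s) = 0 := fun s => by simp [H.invol]
  by_cases hs : URat.Small j h.herm M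
  swap
  · simp only [URat.Small, not_forall] at hs
    obtain ⟨w, hw, hw0, hww, s, h1, h3⟩ := hs
    let C : F → Prop := fun s => ∀ f ∈ LinearMap.range j, B w f = 0 → s • f ∈ addUE M H hww
    have c1 : ∀ s, ∀ c ∈ ratF F₀ F, C s → C (s * c) := fun s c hc p f hf p1 => by
      rw [mul_smul]; exact p _ (smul_mem_range hc hf) (by simp [p1])
    let S : Subalgebra F₀ F :=
      { carrier := {t | ∀ s, C s → C (s * t)}
        add_mem' := fun p1 p2 s p f hf q => by
          rw [mul_add, add_smul]; exact add_mem (p1 s p f hf q) (p2 s p f hf q)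
        algebraMap_mem' := fun a s => c1 s _ (alg_mem a)
        mul_mem' := fun p1 p2 s p => mul_assoc s _ _ ▸ p2 _ (p1 s p) }
    have c2 : ∀ s, C s → s - σ s ∈ S := fun s p t q => by
      obtain ⟨a, ha, a', ha', p1, p2, p3, p4, p5, p6, p7⟩ := h.exists_hyp hw
      obtain ⟨e, he, hx⟩ := h.hasU_all hw hww hw0 (h.hasU_of_good hw hww p) a' ha' p2
      have := apply_sub_mem_addUE H hww he (hM e he).1 (by simp [hx, H.eq_zero_comm.1 p6])
        (q a ha p5)
      simpa [hx, p1, p3, p4, mul_comm, C] using h.good hw hww hw0 this ha p1 p5 p7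
    have hS : S = ⊤ := ((Subalgebra.isSimpleOrder_of_finrank_prime F₀ F hr).eq_bot_or_eq_top
      S).resolve_left fun h0 => h3 (by
        have q1 : s - σ s ∈ ratF F₀ F := Algebra.mem_bot.1 (h0 ▸ c2 s h1)
        have q2 : s * ω - σ (s * ω) ∈ ratF F₀ F := Algebra.mem_bot.1 (h0 ▸ c2 _ (c1 s ω hω h1))
        convert div_mem (sub_mem q2 (mul_mem q1 (h.sig _ hω))) hd' using 1
        rw [map_mul]; field_simp; ring)
    refine h.mem_of_good hw hww hw0 fun t => ?_
    simpa [C] using (show t ∈ S from hS ▸ Algebra.mem_top) 1 fun f hf p => by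
      simpa using h.mem_addUE hw hww hf p
  refine absurd ?_ hns
  have mem := LinearMap.mem_range_self j
  obtain ⟨w₀, hw₀, hw₀0, -, hww₀⟩ := h.ex_of h.iso (p := fun z => B z z = 0) [] (by simp) ⊥ (by simp)
  have hw₀0 : w₀ ≠ 0 := by simpa using hw₀0
  obtain ⟨t, ht, htx⟩ := (h.hasU hw₀ hww₀ hd' (tz ω)).conj hg gB
  have hu : g w₀ ≠ 0 := by simpa using hw₀0
  have huu : B (g w₀) (g w₀) = 0 := by rw [gB, hww₀]
  generalize hue : g w₀ = u at htx hu huu
  by_cases hc : ∃ w ∈ LinearMap.range j, w ≠ 0 ∧ B w w = 0 ∧ B u w = 0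
  · obtain ⟨_, ⟨w, rfl⟩, hw, hww, hwu⟩ := hc
    have h1 : t (j w) = (1 : F) • j w := by simp [htx, hwu]
    obtain ⟨x, hx⟩ := rat_dual_ne h.bc (φ := B u) fun h0 => hu (H.nondeg u (LinearMap.congr_fun h0))
    have := subf_apply_mem h.bc (h.mem_of_fix hs hM ht (mem w) hww hw h1) (x := w)
      (by rintro rfl; simp at hw) one_ne_zero (by simp [h1]) x
    rw [one_smul, htx, Submodule.add_mem_iff_right _ (mem x)] at this
    exact h.mem_of_point hs hM hg hw₀ hww₀ hw₀0 (mul_ne_zero hd hx) (hue ▸ this)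
  push Not at hc
  exfalso
  obtain ⟨w, hw, p1, p2, hww⟩ := h.ex_of h.iso (p := fun z => B z z = 0) [w₀] (by simpa) (F ∙ w₀)
    (by have := finrank_span_one_le (F := F) w₀; simp; omega)
  have p2 : B w₀ w = 0 := p2 _ (by simp)
  have hw0 : w ≠ 0 := by rintro rfl; simp at p1
  have q1 := hc w hw hw0 hww
  have q2 := hc w₀ hw₀ hw₀0 hww₀
  obtain ⟨k, hk, ⟨c, hkw⟩, -, hk0⟩ := HasTv.exists_map (ψ := (ω - σ ω) • B w₀)
    (φ := (ω - σ ω) • B (t w)) (h.hasU hw₀ hww₀ hd' (tz ω))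
    ((h.hasU hw hww hd' (tz ω)).conj ht (hM t ht).1) (by simp [hww₀])
    (by simp [(hM t ht).1 w w, hww]) (by simp [htx, p2, hd, q1, H.eq_zero_comm (x := w₀), q2])
    (by
      rw [LinearMap.smul_apply, smul_ne_zero_iff, ne_eq, ne_eq, H.eq_zero_comm]
      simp [htx, p2, hd, q1, H.eq_zero_comm (x := w₀), q2])
  have ti : ∀ x, t⁻¹ x = x - ((ω - σ ω) * B u x) • u := fun x => t.injective (by
    rw [LinearEquiv.coe_inv, LinearEquiv.apply_symm_apply]; simp [htx, huu])
  have hD := M.mul_mem (M.inv_mem ht) hk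
  have d1 : (t⁻¹ * k) w₀ = c • w := by simp [hkw]
  have hc0 : c ≠ 0 := by rintro rfl; simp [hw₀0] at hkw
  have d0 : c⁻¹ • (t⁻¹ * k) w₀ ∈ LinearMap.range j := by simpa [d1, hc0] using hw
  obtain ⟨x, hx, r1, r0⟩ := h.ex_dual hw₀ (S := {w}) (by simpa) (notMem_span_symm hw₀0 p1)
  obtain ⟨x', hx', r1', r0'⟩ := h.ex_dual hw (S := {w₀}) (by simpa) p1
  have r0 := r0 w rfl
  have r0' := r0' w₀ rfl
  obtain ⟨ρ, hρ⟩ : ∃ ρ : F, B u (ρ • w₀ + w) = 0 := ⟨-B u w / B u w₀, by simp [q2]⟩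
  have p3 := H.eq_zero_comm.1 p2
  have e1 : (t⁻¹ * k) (ρ • w₀ + w) = ρ • w₀ + w := by
    rw [LinearEquiv.mul_apply, hk0 _ (by simp [hww₀, p2]) (by
      rw [LinearMap.smul_apply, htx, map_add B, LinearMap.add_apply, form_smul_left, hρ]
      simp [hww, p3]), ti, hρ]
    simp
  have e2 : c⁻¹ • (t⁻¹ * k) w = (ρ / c) • w₀ + (c⁻¹ - ρ) • w := by
    rw [map_add, map_smul, d1] at e1
    rw [eq_sub_of_add_eq' e1]
    match_scalars <;> field_simp
  have hDs := h.mem_of_point hs hM hD hw₀ hww₀ hw₀0 (inv_ne_zero hc0) d0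
  obtain ⟨w₀, rfl⟩ := hw₀
  obtain ⟨w, rfl⟩ := hw
  have d2 := subf_apply_mem h.bc hDs (by rintro rfl; simp at hw₀0) (inv_ne_zero hc0) d0 w
  rw [e2] at d2
  have d3 := h.rat x hx _ d2
  have d4 := h.rat x' hx' _ d2
  simp only [map_add, map_smul, r0, r1, r0', r1', smul_eq_mul, mul_one, mul_zero, add_zero,
    zero_add] at d3 d4
  have d5 : ρ ∈ ratF F₀ F := mem_ratF_of_quadratic hro d3 d4 (by field_simp; ring)
  refine hc _ (add_mem (smul_mem_range d5 (mem w₀)) (mem w)) (fun h0 => ?_)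
    (by simp [hww₀, hww, p2, p3]) hρ
  simpa [r0', r1'] using congrArg (B x') h0

theorem exists_not_subf (h : URat4 j B M) {c : F}
    (hc : c ∉ ratF F₀ F) (hc' : c + σ c = 0) : ∃ e ∈ sisom B, e ∉ subf F j := by
  have := rat_finite h.bc
  obtain ⟨_, ⟨w, rfl⟩, hw0, -, hww⟩ := h.ex_of h.iso (p := fun z => B z z = 0) [] (by simp) ⊥
    (by simp)
  obtain ⟨_, ⟨v, rfl⟩, -, -, hv⟩ := h.exists_partner ⟨w, rfl⟩ hww (by simpa using hw0)
  obtain ⟨e, he, hx⟩ := h.herm.exists_transv hww hc'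
  exact ⟨e, axisGrp_le_sisom hww he, tv_not_mem_subf h.bc (w := w) (x := v)
    (by rintro rfl; simp at hw0) (by simp [hx, hww]) hc (by simp [hx, hv])⟩

end URat4

end

open Cfsg Cfsg.Geo

universe u

theorem jobU6 : H13.L4.JobU6.{u} := by
  intro F _ _ q hF F₀ r P hr hro hcard hP
  have h := ratL_isBaseChange F₀ P
  have hf := finrank_eq_of_card hcard
  have H := isHerm_uForm hF 4
  obtain ⟨ω, hω, hω'⟩ := exists_frob_ne hF F₀ hro hcard
  have hd : ω - frob hF ω ≠ 0 := sub_ne_zero.2 hω'.symm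
  have sig : ∀ c ∈ ratF F₀ F, frob hF c ∈ ratF F₀ F := fun c hc => pow_mem hc q
  have hd' := sub_mem hω (sig _ hω)
  have rat : ∀ x ∈ LinearMap.range (ratL F₀ P), ∀ y ∈ LinearMap.range (ratL F₀ P),
      uForm hF 4 x y ∈ ratF F₀ F := by
    rintro _ ⟨x, rfl⟩ _ ⟨y, rfl⟩; simpa using rat_of_isFormRat hF hP x y
  have U : ∀ M, (∀ e ∈ subf F (ratL F₀ P), e ∈ sisom (uForm hF 4) → e ∈ M) →
      URat4 (ratL F₀ P) (uForm hF 4) M := fun M hM =>
    ⟨h, H, sig, rat, fun c hc hc' => ⟨c * ω / (ω - frob hF ω), div_mem (mul_mem hc hω) hd', by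
      have : frob hF ω - ω ≠ 0 := sub_ne_zero.2 hω'
      simp only [map_div₀, map_mul, map_sub, H.invol, hc']; field_simp; ring⟩,
      fun W hW => exists_iso_herm h H sig rat hω hω' W hW, hM, by simp, ω, hω, hω'⟩
  refine isMaximalIn_of_toLE (· ∈ subf F (ratL F₀ P)) (· ∈ sisom (uForm hF 4)) (mem_su_iff hF)
    (fun g => and_congr (mem_subfieldSubgroup_iff F₀ P g) (mem_su_iff hF g)) ?_
    fun M hM hMB g hg hns => (U M hM).herm_maximal (hf ▸ hr) (hf ▸ hro) hω hω' hMB hg hns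
  obtain ⟨s, hs⟩ := exists_not_mem_ratF (F₀ := F₀) (F := F) (hf ▸ hr.one_lt)
  obtain ⟨t, ht⟩ : ∃ t, t - frob hF t ∉ ratF F₀ F := by
    by_contra! hc
    refine hs ?_
    convert div_mem (sub_mem (hc (s * ω)) (mul_mem (hc s) (sig _ hω))) hd' using 1
    rw [map_mul]; field_simp; ring
  exact (U ⊤ (by simp)).exists_not_subf ht (by simp [H.invol])

end H58.SU4
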