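import Cfsg.Agent.H13.T3B

/-! The end game for the normaliser of `3^{1+4}` in dimension nine. -/

set_option autoImplicit false
set_option linter.unusedSectionVars false

namespace H58.T3E

open Matrix hiding mul_inv_rev
open Cfsg Cfsg.Geo H25 H60.L3 H13.T3
open scoped MatrixGroups commutatorElement

universe u

variable {F : Type*} [Field F] {ι : Type} [Fintype ι] [DecidableEq ι]
variable {ω : Fˣ} {R G : Subgroup (GL ι F)} {a b d d' x x' y y' e f g j l r s : GL ι F}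

/-- the elements inverted modulo scalars -/
def invSub (hR : Ex ω R) (hs : s ∈ subgroupNormalizer R) : Subgroup (GL ι F) where
  carrier := {r | r ∈ R ∧ s * r * s⁻¹ * r ∈ scalars ι F}
  one_mem' := ⟨R.one_mem, by simp⟩
  mul_mem' {a b} ha hb := ⟨R.mul_mem ha.1 hb.1, by
    convert mul_mem (mul_mem ha.2 (hR.comm _ (R.inv_mem ha.1) _ (mem_N hs hb.1))) hb.2 using 1
    simp only [commutatorElement_def]; group⟩
  inv_mem' {a} ha := ⟨R.inv_mem ha.1, by
    convert inv_mem ((conj_mem_Z (g := a)).2 ha.2) using 1; group⟩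

theorem eq_one_of_sq (hω : Om ω) {k : ℕ} (h : ω ^ k * ω ^ k = 1) : ω ^ k = 1 := by
  rw [← cube_one (a := ω ^ k) (by rw [← pow_mul, mul_comm, pow_mul, hω.cube, one_pow]), h, mul_one]

theorem comm_of_anti (hR : Ex ω R) (ha : a ∈ R) (hb : b ∈ R)
    (h : ∀ c : Fˣ, a * b = c • (b * a) → b * a = c • (a * b)) : a * b = b * a := by
  have := hR.ne
  obtain ⟨k, h1, -⟩ := hR.ex_pow ha hb
  have h2 := h1
  rw [h _ h1, smul_smul] at h2
  rw [h1, eq_one_of_sq hR.om (smul_inj (h2.symm.trans (one_smul _ _).symm)), one_smul]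

theorem conj_rel {c : Fˣ} (s : GL ι F) (h : a * b = c • (b * a)) :
    s * a * s⁻¹ * (s * b * s⁻¹) = c • (s * b * s⁻¹ * (s * a * s⁻¹)) := by
  rw [conj_mul, conj_mul, h, mul_smul_comm, smul_mul_assoc]

theorem comm_of_inv_fix (hR : Ex ω R) (ha : a ∈ R) (hb : b ∈ R) (h1 : s * a * s⁻¹ = a⁻¹)
    (h2 : s * b * s⁻¹ = b) : a * b = b * a := comm_of_anti hR ha hb fun c h => by
  have := conj_rel s h
  rw [h1, h2] at this
  simpa using rel_inv this

theorem conj_conj (h : s * s ∈ scalars ι F) (a : GL ι F) : s * (s * a * s⁻¹) * s⁻¹ = a := by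
  calc _ = s * s * a * (s * s)⁻¹ := by group
    _ = a := by rw [comm_of_mem_scalars h, mul_inv_cancel_right]

theorem conj_neg (h : s * s ∈ scalars ι F) (a : GL ι F) :
    s * (s * a * s⁻¹ * a⁻¹) * s⁻¹ = (s * a * s⁻¹ * a⁻¹)⁻¹ := by
  rw [← conj_mul, conj_conj h]; group

theorem conj_pos (hR : Ex ω R) (hs : s ∈ subgroupNormalizer R) (h : s * s ∈ scalars ι F) (ha : a ∈ R) :
    s * (s * a * s⁻¹ * a) * s⁻¹ = s * a * s⁻¹ * a := by
  rw [← conj_mul, conj_conj h]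
  refine comm_of_anti hR ha (mem_N hs ha) fun c h1 => ?_
  simpa only [conj_conj h] using conj_rel s h1

theorem ss_comm (hω : Om ω) (hd : d ^ 3 = 1) (hx : x ^ 3 = 1) (h1 : g * d = d * g)
    (h2 : g * x = x * g) : ss ω d x * g * (ss ω d x)⁻¹ = g := by
  rw [mul_inv_eq_iff_eq_mul, ss_eq, smul_mul_assoc, mul_smul_comm, tt_comm hω hd hx h1 h2]

theorem comm_of_conj_eq (h : s * a * s⁻¹ = g * a * g⁻¹) : g⁻¹ * s * a = a * (g⁻¹ * s) := by
  calc _ = g⁻¹ * (s * a * s⁻¹) * s := by group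
    _ = _ := by rw [h]; group

theorem rel_mul_rel {c c' : Fˣ} (h : a * d = c • (d * a)) (h' : b * d = c' • (d * b)) :
    a * b * d = (c' * c) • (d * (a * b)) := by
  rw [mul_assoc, h', mul_smul_comm, rel_mul h, smul_smul]

theorem inv_mul_inv (hω : Om ω) : ω⁻¹ * ω⁻¹ = ω := by
  rw [← mul_inv_rev, inv_eq_of_mul_eq_one_left (cube_one hω.cube)]

theorem ss_mul_ss (hω : Om ω) (hd : d ^ 3 = 1) (hx : x ^ 3 = 1) (h : x * d = ω • (d * x)) :
    ss ω d x * ss ω d x = 1 := by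
  rw [ss_eq, smul_mul_assoc, mul_smul_comm, tt_mul_tt hω hd hx h, smul_smul]; simp

variable [Finite F]

theorem inv_case (h : Ov ω R G) (hs : s ∈ subgroupNormalizer R) (h2 : s * s ∈ scalars ι F)
    (hZ : s ∉ scalars ι F) (hb : b ∈ R) (h3 : s * b * s⁻¹ * b ∉ scalars ι F) :
    ∃ d x y y', Sb ω R d x y y' ∧ s * (ss ω d x)⁻¹ ∈ scalars ι F := by
  have hR := h.toEx
  obtain ⟨a, ha, h4⟩ : ∃ a ∈ R, s * a * s⁻¹ * a⁻¹ ∉ scalars ι F := by
    by_contra! hc
    obtain ⟨_, _, _, _, hS⟩ := h.exists_sb0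
    obtain ⟨r, hr, h4⟩ := hS.self h hc
    obtain ⟨c, h5⟩ := mem_Z.1 h4
    rw [mul_inv_eq_iff_eq_mul, smul_mul_assoc, one_mul] at h5
    rw [h5, smul_mul_assoc, mul_smul_comm, smul_mem_Z, smul_mem_Z] at h2
    exact hZ (h5 ▸ (smul_mem_Z c).2 (hR.Z_of_sq hr h2))
  have m1 : ∀ {a}, a ∈ R → s * a * s⁻¹ * a⁻¹ ∈ R := fun h => R.mul_mem (mem_N hs h) (R.inv_mem h)
  have m2 : ∀ {a}, a ∈ R → s * a * s⁻¹ * a ∈ R := fun h => R.mul_mem (mem_N hs h) h
  have hd := m1 ha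
  have hy := m2 hb
  have d1 := conj_neg h2 a
  have y1 := conj_pos hR hs h2 hb
  generalize s * a * s⁻¹ * a⁻¹ = d at *
  generalize s * b * s⁻¹ * b = y at *
  obtain ⟨u, hu, u1⟩ := hR.exists_rel hd h4
  obtain ⟨v, hv, v1⟩ := hR.exists_rel hy h3
  have hx := m1 hu
  have hy' := R.inv_mem (m2 hv)
  have x1 := conj_neg h2 u
  have y2 : s * (s * v * s⁻¹ * v)⁻¹ * s⁻¹ = (s * v * s⁻¹ * v)⁻¹ := by rw [← conj_inv, conj_pos hR hs h2 hv]
  have x2 : s * u * s⁻¹ * u⁻¹ * d = ω • (d * (s * u * s⁻¹ * u⁻¹)) := by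
    have e1 := conj_rel s u1
    rw [d1] at e1
    have e2 := rel_inv (rel_symm e1)
    rw [inv_inv] at e2
    rw [rel_mul_rel e2 (rel_symm (rel_inv u1)), inv_mul_inv h.om]
  have y3 : (s * v * s⁻¹ * v)⁻¹ * y = ω • (y * (s * v * s⁻¹ * v)⁻¹) := by
    have e1 := conj_rel s v1
    rw [y1] at e1
    rw [rel_symm (rel_inv (rel_mul_rel e1 v1)), mul_inv_rev, inv_mul_inv h.om]
  generalize s * u * s⁻¹ * u⁻¹ = x at *
  generalize (s * v * s⁻¹ * v)⁻¹ = y' at *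
  have hS : Sb ω R d x y y' := ⟨hd, hx, hy, hy', by rwa [sc_mul], by rwa [sc_mul],
    comm_of_inv_fix hR hd hy d1 y1, comm_of_inv_fix hR hd hy' d1 y2, comm_of_inv_fix hR hx hy x1 y1,
    comm_of_inv_fix hR hx hy' x1 y2⟩
  have c1 := h.cube d hd
  have c2 := h.cube x hx
  exact ⟨d, x, y, y', hS, by simpa using (conj_mem_Z (g := ss ω d x)).2 (hS.Z_of_comm h
    (comm_of_conj_eq (d1.trans (ss_conj_d h.om c1 c2 x2).symm))
    (comm_of_conj_eq (x1.trans (ss_conj_x h.om c1 c2 x2).symm))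
    (comm_of_conj_eq (y1.trans (ss_comm h.om c1 c2 hS.dy.symm hS.xy.symm).symm))
    (comm_of_conj_eq (y2.trans (ss_comm h.om c1 c2 hS.dy'.symm hS.xy'.symm).symm)))⟩

theorem ut_case (h : Ov ω R G) (hC : CT ω R G) (hS : Sb ω R d x y y') {d' x' : GL ι F} (hd' : d' ∈ R)
    (hx' : x' ∈ R) (h1 : x' * d' = ω • (d' * x')) (hg : g ∈ G)
    (h2 : g * ss ω d x * g⁻¹ * (ss ω d' x')⁻¹ ∈ scalars ι F) : g ∈ subgroupNormalizer R := by
  obtain ⟨c, h3⟩ := mem_Z.1 h2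
  rw [mul_inv_eq_iff_eq_mul, smul_mul_assoc, one_mul, ss_eq, ss_eq, mul_smul_comm, smul_mul_assoc,
    smul_comm, smul_left_cancel_iff] at h3
  have h4 := congrArg (fun g : GL ι F => g.val.trace) h3
  simp only [Units.val_mul, trace_units_conj, smul_val, trace_smul, h.trace_tt hS.md hS.mx hS.rel,
    h.trace_tt hd' hx' h1, smul_eq_mul] at h4
  rw [show c = 1 from Units.ext ((mul_eq_right₀ h.om.ne).1 h4.symm), one_smul] at h3
  obtain ⟨n, n1, n2, n3, n4⟩ := h.move13 hS.md hS.mx hd' hx' hS.rel h1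
  rw [← n3, ← n4, ← tt_conj h.om (h.cube d hS.md) (h.cube x hS.mx)] at h3
  exact (Subgroup.mul_mem_cancel_left _ (inv_mem n2)).1
    (hC d x y y' hS _ (mul_mem (inv_mem n1) hg) (comm_of_conj_eq h3))

theorem rank_conj (g : GL ι F) (m : Matrix ι ι F) : (g.val * m * g⁻¹.val).rank = m.rank := by
  refine le_antisymm ((rank_mul_le_left _ _).trans (rank_mul_le_right _ _)) ?_
  conv_lhs => rw [show m = g⁻¹.val * (g.val * m * g⁻¹.val) * g.val by simp [mul_assoc]]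
  exact (rank_mul_le_left _ _).trans (rank_mul_le_right _ _)

theorem pj_smul_inv (hω : Om ω) (hd : d ^ 3 = 1) : pj (ω • d⁻¹) = pj (ω • ω • d) := by
  rw [← pj_inv (smul_cube hω (smul_cube hω hd)), smul_inv, smul_inv, smul_smul, inv_mul_inv hω]

theorem rank_tt (hω : Om ω) (hd : d ^ 3 = 1) (hx : x ^ 3 = 1) (h : x * d = ω • (d * x)) :
    ((tt ω d x).val - 1).rank ≤ (pj (ω • d)).rank := by
  have h1 : (tt ω d x).val * pj (ω • d) = pj (ω • ω • d) * (tt ω d x).val := by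
    rw [mul_pj_conj, mul_smul_comm, smul_mul_assoc, tt_conj_d hω hd hx h, pj_smul_inv hω hd]
  have h2 : (tt ω d x).val * (tt ω d x).val = 1 := by
    rw [← Units.val_mul, tt_mul_tt hω hd hx h, Units.val_one]
  have h3 : pj (ω • d) * (tt ω d x).val = (tt ω d x).val * pj (ω • ω • d) := by
    rw [← one_mul (pj (ω • d)), ← h2, mul_assoc _ _ (pj _), h1, mul_assoc, mul_assoc, h2, mul_one]
  have h4 : (tt ω d x).val - 1 = ((tt ω d x).val - 1) * pj (ω • d) * (1 - (tt ω d x).val) := by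
    refine (mul_one _).symm.trans ((congrArg _ (pj_sum hω d).symm).trans ?_)
    rw [mul_sub, mul_assoc _ _ (tt ω d x).val, h3, ← mul_assoc]
    simp only [mul_add, sub_mul, h2, tt_mul_pj hω hd hx h, one_mul, mul_one]
    abel
  rw [h4]
  exact (rank_mul_le_left _ _).trans (rank_mul_le_right _ _)

theorem rank_j (hR : Ex ω R) (hS : Sb ω R d x y y') (h1 : j * d * j⁻¹ = d⁻¹) (h2 : j * y * j⁻¹ = y⁻¹)
    (c : F) : (pj (ω • d)).rank < (j.val - c • 1).rank := by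
  have hω := hR.om
  have hd := hR.cube d hS.md
  have hy := hR.cube y hS.my
  have k1 : ∀ a : Fˣ, d * a • y = a • y * d := fun a => by rw [mul_smul_comm, smul_mul_assoc, hS.dy]
  have k3 : ∀ a : Fˣ, pj (a • y) * pj d = pj d * pj (a • y) := fun a => pj_comm_pj (k1 a).symm
  have f1 : ∀ a : Fˣ, pj d * pj (a • y) * pj (ω • d) = 0 := fun a => by
    rw [← k3, mul_assoc, pj01 hω hd, mul_zero]
  have f2 : ∀ (a : Fˣ) m, pj d * pj (a • y) * (pj d * m) = pj d * (pj (a • y) * m) := fun a m => by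
    rw [mul_assoc, ← mul_assoc (pj (a • y)), k3, mul_assoc, pj_idem' hω hd]
  have e1 : j.val * (pj (ω • d) + pj d * pj (ω • y)) =
      (pj (ω • ω • d) + pj d * pj (ω • ω • y)) * j.val := by
    rw [mul_add, ← mul_assoc, mul_pj_conj j d, mul_assoc, mul_pj_conj, mul_pj_conj j (ω • y)]
    simp only [mul_smul_comm, smul_mul_assoc, h1, h2, pj_inv hd, pj_smul_inv hω hd, pj_smul_inv hω hy,
      add_mul, mul_assoc]
  have e2 : (pj (ω • ω • d) + pj d * pj (ω • ω • y)) * (pj (ω • d) + pj d * pj (ω • y)) = 0 := by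
    have g1 := f1 (ω * ω)
    have g2 := f2 (ω * ω)
    rw [mul_smul] at g1 g2
    rw [add_mul, mul_add, mul_add, pj21 hω hd, g1, g2, ← mul_assoc, pj20 hω hd, pj21 hω hy]
    simp
  have e3 : (pj (ω • d) + pj d * pj (ω • y)) * (pj (ω • d) + pj d * pj (ω • y)) =
      pj (ω • d) + pj d * pj (ω • y) := by
    rw [add_mul, mul_add, mul_add, pj_idem hω (smul_cube hω hd), f1, f2, ← mul_assoc, pj10 hω hd,
      pj_idem hω (smul_cube hω hy)]
    simp
  have e4 : (pj (ω • ω • d) + pj d * pj (ω • ω • y)) * (j.val - c • 1) *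
      (pj (ω • d) + pj d * pj (ω • y)) * j⁻¹.val =
        j.val * (pj (ω • d) + pj d * pj (ω • y)) * j⁻¹.val := by
    rw [mul_sub, sub_mul, ← e1, mul_assoc j.val, e3, mul_smul_comm, mul_one, smul_mul_assoc, e2]
    simp
  refine lt_of_lt_of_le ?_ ((rank_conj j _).symm.trans_le (e4 ▸ (rank_mul_le_left _ _).trans
    ((rank_mul_le_left _ _).trans (rank_mul_le_right _ _))))
  have e5 : (pj (ω • d) + pj d * pj (ω • y)) * pj (ω • d) = pj (ω • d) := by
    rw [add_mul, pj_idem hω (smul_cube hω hd), f1, add_zero]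
  refine Submodule.finrank_lt_finrank_of_lt (lt_of_le_of_ne ?_ fun e => ?_)
  · conv_lhs => rw [← e5, mulVecLin_mul]
    exact LinearMap.range_comp_le_range _ _
  have e6 : pj d * pj (ω • y) = 0 := by
    refine ext_of_mulVec_single fun i => ?_
    obtain ⟨v, hv⟩ := e.ge (LinearMap.mem_range_self _ (Pi.single i 1))
    have := congrArg (pj d *ᵥ ·) hv
    simp only [mulVecLin_apply, mulVec_mulVec, mul_add, pj01 hω hd, pj_idem' hω hd, zero_add] at this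
    rw [← this, zero_mulVec, zero_mulVec]
  have e7 : ∀ a : Fˣ, pj d * pj (a • y) = 0 → pj d * pj (ω • a • y) = 0 := fun a h => by
    rw [smul_comm, ← rel_conj hS.rel', ← smul_mul_assoc, ← mul_smul_comm, pj_conj, ← mul_assoc,
      ← mul_assoc, ← pj_comm' hS.dy'.symm, mul_assoc y'.val, h]
    simp
  have e8 := e7 (ω * ω) (by rw [mul_smul]; exact e7 _ e6)
  rw [mul_smul, smul3 hω] at e8
  exact hR.pj_ne_zero hS.md (hS.dZ hR) (by
    rw [← mul_one (pj d), ← pj_sum hω y, mul_add, mul_add, e6, e7 _ e6, e8]; simp)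

theorem jt_case (h : Ov ω R G) (hS : Sb ω R d x y y') (h1 : j * d * j⁻¹ = d⁻¹)
    (h2 : j * y * j⁻¹ = y⁻¹) (hd' : d' ∈ R) (hx' : x' ∈ R) (h3 : x' * d' = ω • (d' * x')) (g : GL ι F) :
    g * j * g⁻¹ * (ss ω d' x')⁻¹ ∉ scalars ι F := fun h4 => by
  have := h.ne
  obtain ⟨c, h5⟩ := mem_Z.1 h4
  rw [mul_inv_eq_iff_eq_mul, smul_mul_assoc, one_mul, ss_eq, smul_smul] at h5
  generalize c * -1 = c at h5
  have h6 : g.val * (j.val - (c : F) • 1) * g⁻¹.val = ((c : F) • 1) * ((tt ω d' x').val - 1) := by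
    rw [mul_sub, sub_mul, ← Units.val_mul, ← Units.val_mul, h5, smul_val]
    simp [smul_sub]
  obtain ⟨n, -, -, hn⟩ := h.move1 (h.toEx.smul_mem hS.md) (mt (smul_mem_Z ω).1 (hS.dZ h.toEx))
    (h.toEx.smul_mem hd') (mt (smul_mem_Z ω).1 (not_Z_of_ne (ne_of_rel h.om h3)))
  have h7 := rank_tt h.om (h.cube _ hd') (h.cube _ hx') h3
  rw [← hn, pj_conj, rank_conj] at h7
  have h8 := rank_j h.toEx hS h1 h2 c
  rw [← rank_conj g (_ - _), h6] at h8
  exact (h8.trans_le ((rank_mul_le_right _ _).trans h7)).false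

section odd

variable (h : Ov ω R G) {L : Subgroup (GL ι F)} (hN : L ≤ subgroupNormalizer R)
  (hL : ∀ n ∈ G, n ∈ subgroupNormalizer R → ∀ l ∈ L, n * l * n⁻¹ ∈ L)
  (ho : ∀ l ∈ L, ∃ m, Odd m ∧ l ^ m ∈ scalars ι F)
include h hN hL ho

theorem hm_mem (hl : l ∈ L) (he : e ∈ R) (hZ : e ∉ scalars ι F) :
    hm ω (l * e * l⁻¹) * (hm ω e)⁻¹ ∈ L := by
  have := mul_mem hl (hL _ (h.hmem e he hZ) (h.toEx.hm_mem_N he) _ (inv_mem hl))
  rwa [← hm_conj h.om (h.cube e he), mul_assoc, mul_assoc, ← mul_assoc (hm ω e)]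

theorem not_ss (hd : d ∈ R) (hx : x ∈ R) (h1 : x * d = ω • (d * x)) : hm ω d * (hm ω x)⁻¹ ∉ L :=
  fun h2 => by
    obtain ⟨_, ⟨k, rfl⟩, h3⟩ := ho _ (pow_mem h2 2)
    change ss ω d x ^ _ ∈ _ at h3
    rw [pow_succ, pow_mul, pow_two, ss_mul_ss h.om (h.cube d hd) (h.cube x hx) h1, one_pow, one_mul,
      ss_eq, smul_mem_Z] at h3
    exact h.toEx.tt_not_Z hd hx h1 h3

theorem stepA (hl : l ∈ L) (he : e ∈ R) : e * (l * e * l⁻¹) = l * e * l⁻¹ * e := by
  by_cases hZ : e ∈ scalars ι F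
  · exact comm_of_mem_scalars hZ _
  have hf := mem_N (hN hl) he
  have h1 := hm_mem h hN hL ho hl he hZ
  refine (h.toEx.tri he hf).resolve_right fun h2 => h2.elim (fun h2 => ?_) fun h2 => ?_
  · exact not_ss h hN hL ho hf he h2 h1
  · exact not_ss h hN hL ho he hf h2 (by simpa using inv_mem h1)

theorem odd_case (hl : l ∈ L) (he : e ∈ R) : ⁅l, e⁆ ∈ scalars ι F := by
  have := h.ne
  by_cases hZ : e ∈ scalars ι F
  · rw [commutatorElement_eq_one_iff_mul_comm.2 (comm_of_mem_scalars hZ _).symm]; exact one_mem _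
  have hf := mem_N (hN hl) he
  have h1 := hm_mem h hN hL ho hl he hZ
  have h2 := stepA h hN hL ho hl he
  have hc := h.cube _ hf
  obtain ⟨k, hk⟩ : ∃ k : ℕ, e * (l * e * l⁻¹) ^ k ∈ scalars ι F := by
    by_contra! hc'
    obtain ⟨u, hu, u1, u2⟩ := h.toEx.exists_ne_cen hf (mt conj_mem_Z.1 hZ) he h2.symm hc'
    obtain ⟨i, u3⟩ := h.toEx.rel_of_ne hu he u2
    have u4 : u ^ i * (l * e * l⁻¹) = l * e * l⁻¹ * u ^ i := (Commute.pow_left u1 i).eq
    have h3 := stepA h hN hL ho h1 (R.pow_mem hu i)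
    generalize u ^ i = x at *
    generalize l * e * l⁻¹ = f at *
    have h4 : hm ω f * (hm ω e)⁻¹ * x * (hm ω f * (hm ω e)⁻¹)⁻¹ = ω • ω • (e * x) := by
      calc _ = hm ω f * ((hm ω e)⁻¹ * x * hm ω e) * (hm ω f)⁻¹ := by group
        _ = _ := by
          rw [hm_inv_conj h.om (h.cube e he) u3, mul_inv_eq_iff_eq_mul]
          simp only [mul_smul_comm, smul_mul_assoc]
          rw [hm_comm h.om hc (Commute.mul_left h2 u4).eq]
    rw [h4] at h3
    simp only [mul_smul_comm, smul_mul_assoc, smul_left_cancel_iff, ← mul_assoc, mul_left_inj] at h3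
    exact ne_of_rel h.om u3 h3
  rcases pow_mod3 hc k with h3 | h3 | h3 <;> rw [h3] at hk
  · exact absurd (by simpa using hk) hZ
  · obtain ⟨_, ⟨m, rfl⟩, h4⟩ := ho l hl
    refine absurd (h.toEx.Z_of_sq he ?_) hZ
    rw [← QuotientGroup.eq_one_iff] at hk h4 ⊢
    simp only [QuotientGroup.mk_mul, QuotientGroup.mk_inv, QuotientGroup.mk_pow] at hk h4 ⊢
    generalize (l : GL ι F ⧸ scalars ι F) = l, (e : GL ι F ⧸ scalars ι F) = e at hk h4 ⊢
    have h5 : l * e * l⁻¹ = e⁻¹ := eq_inv_of_mul_eq_one_right hk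
    have h6 : Commute (l ^ 2) e := by
      rw [commute_iff_eq, ← mul_inv_eq_iff_eq_mul]
      calc _ = l * (l * e * l⁻¹) * l⁻¹ := by rw [pow_two]; group
        _ = _ := by rw [h5, ← conj_inv, h5, inv_inv]
    rw [pow_succ, pow_mul] at h4
    have h7 : Commute l e := eq_inv_of_mul_eq_one_right h4 ▸ (h6.pow_left m).inv_left
    rwa [h7.eq, mul_inv_cancel_right] at hk
  · simpa [commutatorElement_def, mul_assoc] using inv_mem hk

end odd

theorem jobEnd : JobEnd.{u} := by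
  intro hP F _ _ ω R G h hT hC
  have := h.ne
  have hR := h.toEx
  obtain ⟨d, x, y, y', hS⟩ := h.exists_sb0
  have c1 := h.cube d hS.md
  have c2 := h.cube x hS.mx
  have c3 := h.cube y hS.my
  have c4 := h.cube y' hS.my'
  have k : ∀ g : GL (Fin 9) F, ss ω d x * ss ω y y' * g * (ss ω d x * ss ω y y')⁻¹ =
      ss ω d x * (ss ω y y' * g * (ss ω y y')⁻¹) * (ss ω d x)⁻¹ := fun g => by group
  have j1 := k d
  have j2 := k x
  have j3 := k y
  have j4 := k y'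
  rw [ss_comm h.om c3 c4 hS.dy hS.dy', ss_conj_d h.om c1 c2 hS.rel] at j1
  rw [ss_comm h.om c3 c4 hS.xy hS.xy', ss_conj_x h.om c1 c2 hS.rel] at j2
  rw [ss_conj_d h.om c3 c4 hS.rel', ← conj_inv, ss_comm h.om c1 c2 hS.dy.symm hS.xy.symm] at j3
  rw [ss_conj_x h.om c3 c4 hS.rel', ← conj_inv, ss_comm h.om c1 c2 hS.dy'.symm hS.xy'.symm] at j4
  have jN := mul_mem (hR.ss_mem_N hS.md hS.mx) (hR.ss_mem_N hS.my hS.my')
  refine hP _ G (scalars _ F) R {t | ∃ d x y y', Sb ω R d x y y' ∧ t = ss ω d x}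
    (ss ω d x * ss ω y y') inferInstance ⟨fun _ => comm_of_mem_scalars, h.le, h.cube, h.comm,
      ⟨x, hS.mx, d, hS.md, ne_of_rel h.om hS.rel⟩, fun _ => hR.mem_of_Z, hT,
      mul_mem (h.ss_mem hS.md hS.mx hS.rel) (h.ss_mem hS.my hS.my' hS.rel'), jN, ?_, fun r hr => ?_,
      fun _ _ => hS.self h, fun s _ h1 h2 h3 => ?_, ?_, ?_,
      ⟨_, ⟨d, x, y, y', hS, rfl⟩, h.ss_mem hS.md hS.mx hS.rel, hR.ss_mem_N hS.md hS.mx,
        ss_mul_ss h.om c1 c2 hS.rel ▸ one_mem _, ?_⟩,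
      fun L _ h1 h2 h3 l hl r hr => odd_case h h1 h2 h3 hl hr⟩
  · have e : ∀ {a : GL (Fin 9) F}, ss ω d x * ss ω y y' * a * (ss ω d x * ss ω y y')⁻¹ = a⁻¹ →
        ss ω d x * ss ω y y' * (ss ω d x * ss ω y y') * a =
          a * (ss ω d x * ss ω y y' * (ss ω d x * ss ω y y')) := fun {a} e => by
      generalize ss ω d x * ss ω y y' = j at *
      rw [← mul_inv_eq_iff_eq_mul]
      calc _ = j * (j * a * j⁻¹) * j⁻¹ := by group
        _ = _ := by rw [e, ← conj_inv, e, inv_inv]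
    exact hS.Z_of_comm h (e j1) (e j2) (e j3) (e j4)
  · refine (hS.mem_of h (invSub hR jN) ⟨h.wm, ?_⟩ hr (.inr ⟨hS.md, by rw [j1]; simp⟩)
      (.inr ⟨hS.mx, by rw [j2]; simp⟩) (.inr ⟨hS.my, by rw [j3]; simp⟩)
      (.inr ⟨hS.my', by rw [j4]; simp⟩)).2
    exact mul_mem (conj_mem_Z.2 (sc_mem _)) (sc_mem _)
  · refine or_iff_not_imp_left.2 fun h4 => ?_
    push Not at h4
    obtain ⟨b, hb, h4⟩ := h4
    obtain ⟨d, x, y, y', hS, h5⟩ := inv_case h h1 h2 h3 hb h4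
    exact ⟨_, ⟨d, x, y, y', hS, rfl⟩, h5⟩
  · rintro _ ⟨d, x, y, y', hS, rfl⟩ _ ⟨d', x', _, _, hS', rfl⟩ g hg
    exact ut_case h hC hS hS'.md hS'.mx hS'.rel hg
  · rintro _ ⟨d', x', _, _, hS', rfl⟩ g -
    exact jt_case h hS j1 j3 hS'.md hS'.mx hS'.rel g
  · rw [ss_eq, smul_mem_Z]
    exact hR.tt_not_Z hS.md hS.mx hS.rel

end H58.T3E
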